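import Mathlib
import Cfsg.Agent.H58.BG10Defs2
import Cfsg.Agent.Lib.Helper30.BGNarrow

set_option autoImplicit false

/-!
helper83: piece S1414-NARROW for helper76 (Bender–Glauberman §10): for a non-ideal odd prime
`p` of `p`-rank at least three, the Sylow `p`-subgroups are narrow.  This is a thin wrapper
around helper30's `isNarrow_sylow_of_not_ideal`.
-/

namespace Cfsg.Agent.H83.NarrowNotIdeal

open Cfsg Subgroup

universe u

theorem narrow_of_not_ideal {G : Type u} [Group G] [Finite G] (p : ℕ) [Fact p.Prime]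
    (hp : p ≠ 2) (hr : ¬ PRankLE p 2 G) (hni : ¬ IsIdealPrime p G) (S : Sylow p G) :
    IsNarrow p ↥(S : Subgroup G) :=
  Cfsg.Agent.Lib.Helper30.BGN.isNarrow_sylow_of_not_ideal hp hni S

end Cfsg.Agent.H83.NarrowNotIdeal
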