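import Mathlib
import Cfsg.Prelude.Def_GeometricClasses
import Cfsg.Prelude.Def_LieClassical

/-!
# S6001 team project (helper83): definitions and piece statements

`PSU_4(p)`, `p ≡ 3 (mod 4)`, and the normalizer of `R = 4 ∘ 2^{1+4}`.  Everything is reduced to the
16 standard "Pauli" matrices `pauli v` (`v : Fin 4 → ZMod 2`), products of powers of

* `A1 = diag(1,1,-1,-1)`, `B1 = ` permutation matrix of `(0 2)(1 3)`,
* `A2 = diag(1,-1,1,-1)`, `B2 = ` permutation matrix of `(0 1)(2 3)`.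

`Nrm ι y`: the invertible matrix `y` normalizes the group `{ι^j • pauli v}` (`ι^2 = -1`).
`IsU q M`: `Mᵀ * M^(q) = 1`, the matrix form of `M ∈ GU_4` for the form `Σ uᵢ vᵢ^q`.
The Pauli-side statements are over an arbitrary field (they also serve S6000).
-/

set_option autoImplicit false
open scoped MatrixGroups

namespace Cfsg.Agent.H83.UP

open Matrix

universe u

section Defs

variable {F : Type u} [Field F]

/-- `Z ⊗ 1`. -/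
def A1 : Matrix (Fin 4) (Fin 4) F := !![1, 0, 0, 0; 0, 1, 0, 0; 0, 0, -1, 0; 0, 0, 0, -1]
/-- `X ⊗ 1`. -/
def B1 : Matrix (Fin 4) (Fin 4) F := !![0, 0, 1, 0; 0, 0, 0, 1; 1, 0, 0, 0; 0, 1, 0, 0]
/-- `1 ⊗ Z`. -/
def A2 : Matrix (Fin 4) (Fin 4) F := !![1, 0, 0, 0; 0, -1, 0, 0; 0, 0, 1, 0; 0, 0, 0, -1]
/-- `1 ⊗ X`. -/
def B2 : Matrix (Fin 4) (Fin 4) F := !![0, 1, 0, 0; 1, 0, 0, 0; 0, 0, 0, 1; 0, 0, 1, 0]

/-- The 16 Pauli matrices. -/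
def pauli (v : Fin 4 → ZMod 2) : Matrix (Fin 4) (Fin 4) F :=
  A1 ^ (v 0).val * B1 ^ (v 1).val * A2 ^ (v 2).val * B2 ^ (v 3).val

/-- The commutator form: `pauli v * pauli w = (-1)^(symp v w) • pauli w * pauli v`. -/
def symp (v w : Fin 4 → ZMod 2) : ZMod 2 := v 0 * w 1 + v 1 * w 0 + v 2 * w 3 + v 3 * w 2

/-- `y` is invertible and normalizes the group of the `ι^j • pauli v`. -/
def Nrm (ι : F) (y : Matrix (Fin 4) (Fin 4) F) : Prop :=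
  IsUnit y.det ∧ ∀ v : Fin 4 → ZMod 2, ∃ (j : ℕ) (w : Fin 4 → ZMod 2),
    y * pauli v = ι ^ j • (pauli w * y)

/-- Matrix form of unitarity for the form `Σ uᵢ vᵢ^q`. -/
def IsU (q : ℕ) (M : Matrix (Fin 4) (Fin 4) F) : Prop := Mᵀ * M.map (fun a => a ^ q) = 1

/-- Gram matrix: one hyperbolic pair (indices 0, 1) and two orthonormal vectors. -/
def J1 : Matrix (Fin 4) (Fin 4) F := !![0, 1, 0, 0; 1, 0, 0, 0; 0, 0, 1, 0; 0, 0, 0, 1]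

/-- Normal form of a unitary element of order 5: `C ⊕ (C̄)⁻ᵀ`, `C` the companion matrix of
`t^2 - s t + 1`, in a basis with Gram matrix `B1`. -/
def K5 (s t : F) : Matrix (Fin 4) (Fin 4) F := !![0, -1, 0, 0; 1, s, 0, 0; 0, 0, t, -1; 0, 0, 1, 0]

/-- `m ⊗ m`, `m = (1 - ι (X + Y + Z)) / 2`: order 3, trace 1. -/
def yA (ι : F) : Matrix (Fin 4) (Fin 4) F :=
  (2 : F)⁻¹ • !![-ι, -1, -1, ι; -ι, 1, -1, -ι; -ι, -1, 1, -ι; -ι, 1, 1, ι]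

/-- `(-m) ⊗ 1`: order 3, trace -2. -/
def yB (ι : F) : Matrix (Fin 4) (Fin 4) F :=
  (2 : F)⁻¹ • !![-1 + ι, 0, 1 + ι, 0; 0, -1 + ι, 0, 1 + ι; -1 + ι, 0, -1 - ι, 0; 0, -1 + ι, 0, -1 - ι]

/-- An element of order 5 of the normalizer. -/
def g5 (ι : F) : Matrix (Fin 4) (Fin 4) F :=
  (2 : F)⁻¹ • !![-ι, -ι, -ι, -ι; -ι, ι, ι, -ι; 1, 1, -1, -1; 1, -1, 1, -1]

end Defs

/-! ## Pauli basics (any field) -/

/-- S6001-PBASIC. -/
def StPBasic : Prop :=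
  ∀ (F : Type u) [Field F],
    (pauli (0 : Fin 4 → ZMod 2) = (1 : Matrix (Fin 4) (Fin 4) F)) ∧
    (pauli (Pi.single 0 1) = (A1 : Matrix (Fin 4) (Fin 4) F) ∧
      pauli (Pi.single 1 1) = (B1 : Matrix (Fin 4) (Fin 4) F) ∧
      pauli (Pi.single 2 1) = (A2 : Matrix (Fin 4) (Fin 4) F) ∧
      pauli (Pi.single 3 1) = (B2 : Matrix (Fin 4) (Fin 4) F)) ∧
    (∀ v w : Fin 4 → ZMod 2, ∃ ε : F, (ε = 1 ∨ ε = -1) ∧
      (pauli v * pauli w : Matrix (Fin 4) (Fin 4) F) = ε • pauli (v + w)) ∧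
    (∀ v w : Fin 4 → ZMod 2, (pauli v * pauli w : Matrix (Fin 4) (Fin 4) F) =
      (-1 : F) ^ (symp v w).val • (pauli w * pauli v)) ∧
    (∀ v : Fin 4 → ZMod 2, (pauli v : Matrix (Fin 4) (Fin 4) F)ᵀ * pauli v = 1) ∧
    (∀ (v : Fin 4 → ZMod 2) (q : ℕ), Odd q →
      (pauli v : Matrix (Fin 4) (Fin 4) F).map (fun a => a ^ q) = pauli v) ∧
    (∀ v : Fin 4 → ZMod 2, v ≠ 0 → Matrix.trace (pauli v : Matrix (Fin 4) (Fin 4) F) = 0)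

/-- S6001-PLI: the Pauli matrices are linearly independent. -/
def StPLI : Prop :=
  ∀ (F : Type u) [Field F], (2 : F) ≠ 0 →
    LinearIndependent F (fun v : Fin 4 → ZMod 2 => (pauli v : Matrix (Fin 4) (Fin 4) F))

/-- S6001-PAVG: the averaging identity. -/
def StPAvg : Prop :=
  ∀ (F : Type u) [Field F] (X : Matrix (Fin 4) (Fin 4) F),
    ∑ v : Fin 4 → ZMod 2, pauli v * X * (pauli v)ᵀ = (4 * Matrix.trace X) • (1 : Matrix (Fin 4) (Fin 4) F)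

/-- S6001-PCENT: only the scalars commute with all Pauli matrices. -/
def StPCent : Prop :=
  ∀ (F : Type u) [Field F] (M : Matrix (Fin 4) (Fin 4) F), (2 : F) ≠ 0 →
    (∀ v : Fin 4 → ZMod 2, M * pauli v = pauli v * M) → ∃ c : F, M = c • (1 : Matrix (Fin 4) (Fin 4) F)

/-! ## The normalizer side (any field) -/

/-- S6001-PERM: a normalizing matrix induces an additive symplectic bijection of `F_2^4`. -/
def StPerm : Prop :=
  ∀ (F : Type u) [Field F] (ι : F) (y : Matrix (Fin 4) (Fin 4) F), (2 : F) ≠ 0 → ι ^ 2 = -1 →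
    Nrm ι y →
    ∃ (σ : (Fin 4 → ZMod 2) → (Fin 4 → ZMod 2)) (c : (Fin 4 → ZMod 2) → F),
      (∀ v, y * pauli v = c v • (pauli (σ v) * y)) ∧ (∀ v, c v ^ 4 = 1) ∧
      (∀ v w, σ (v + w) = σ v + σ w) ∧ (∀ v w, symp (σ v) (σ w) = symp v w) ∧
      Function.Bijective σ

/-- S6001-COUNT: fixed points of a symplectic automorphism of `F_2^4` of odd prime order. -/
def StCount : Prop :=
  ∀ (σ : (Fin 4 → ZMod 2) → (Fin 4 → ZMod 2)) (r : ℕ), r.Prime → r ≠ 2 →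
    (∀ v w, σ (v + w) = σ v + σ w) → (∀ v w, symp (σ v) (σ w) = symp v w) → (∀ v, σ^[r] v = v) →
    (∀ v, σ v = v) ∨ (r = 3 ∧ (Nat.card {v // σ v = v} = 1 ∨ Nat.card {v // σ v = v} = 4)) ∨
      (r = 5 ∧ Nat.card {v // σ v = v} = 1)

/-- S6001-FIX: elements of odd prime order of the normalizer. -/
def StFix : Prop :=
  ∀ (F : Type u) [Field F] (ι : F) (y : Matrix (Fin 4) (Fin 4) F) (r : ℕ), (2 : F) ≠ 0 →
    ι ^ 2 = -1 → Nrm ι y → r.Prime → r ≠ 2 → y ^ r = 1 →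
    (∃ c : F, y = c • (1 : Matrix (Fin 4) (Fin 4) F)) ∨
      (r = 3 ∧ (Matrix.trace y * Matrix.trace y⁻¹ = 1 ∨ Matrix.trace y * Matrix.trace y⁻¹ = 4)) ∨
      (r = 5 ∧ Matrix.trace y * Matrix.trace y⁻¹ = 1)

/-- S6001-TV3: in characteristic 3 the normalizer contains no transvection. -/
def StTV3 : Prop :=
  ∀ (F : Type u) [Field F] [CharP F 3] (ι : F) (y : Matrix (Fin 4) (Fin 4) F), ι ^ 2 = -1 →
    Nrm ι y → (y - 1) * (y - 1) = 0 → (y - 1).rank ≤ 1 → y = 1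

/-! ## Explicit elements of the normalizer -/

/-- S6001-NDIAG: diagonal `±1` matrices and scalar multiples. -/
def StNDiag : Prop :=
  ∀ (F : Type u) [Field F] (ι : F), (2 : F) ≠ 0 → ι ^ 2 = -1 →
    (∀ d : Fin 4 → F, (∀ i, d i = 1 ∨ d i = -1) → Nrm ι (Matrix.diagonal d)) ∧
    (∀ (y : Matrix (Fin 4) (Fin 4) F) (c : F), c ≠ 0 → Nrm ι y → Nrm ι (c • y))

/-- S6001-N3: the two classes of elements of order 3. -/
def StN3 : Prop :=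
  ∀ (F : Type u) [Field F] (p : ℕ) [CharP F p] (ι : F), p.Prime → (2 : F) ≠ 0 → ι ^ 2 = -1 →
    ι ^ p = -ι →
    Nrm ι (yA ι) ∧ Nrm ι (yB ι) ∧ yA ι ^ 3 = 1 ∧ yB ι ^ 3 = 1 ∧ Matrix.trace (yA ι) = 1 ∧
      Matrix.trace (yB ι) = -2 ∧ IsU p (yA ι) ∧ IsU p (yB ι)

/-- S6001-N5: an element of order 5. -/
def StN5 : Prop :=
  ∀ (F : Type u) [Field F] (p : ℕ) [CharP F p] (ι : F), p.Prime → (2 : F) ≠ 0 → ι ^ 2 = -1 →
    ι ^ p = -ι → Nrm ι (g5 ι) ∧ g5 ι ^ 5 = 1 ∧ g5 ι ≠ 1 ∧ IsU p (g5 ι)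

/-! ## Witnesses in `SU_4(p)` -/

/-- S6001-W3. -/
def StW3 : Prop :=
  ∀ (F : Type u) [Field F] [Fintype F] (p : ℕ), p.Prime → Fintype.card F = p ^ 2 → p % 4 = 3 →
    p % 3 = 2 →
    ∃ x : Matrix (Fin 4) (Fin 4) F, x.det = 1 ∧ IsU p x ∧ x ^ 3 = 1 ∧
      (∀ c : F, x ≠ c • (1 : Matrix (Fin 4) (Fin 4) F)) ∧
      Matrix.trace x * Matrix.trace x⁻¹ ≠ 1 ∧ Matrix.trace x * Matrix.trace x⁻¹ ≠ 4

/-- S6001-W5. -/
def StW5 : Prop :=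
  ∀ (F : Type u) [Field F] [Fintype F] (p : ℕ), p.Prime → Fintype.card F = p ^ 2 → p % 4 = 3 →
    orderOf (p : ZMod 5) ≠ 4 →
    ∃ x : Matrix (Fin 4) (Fin 4) F, x.det = 1 ∧ IsU p x ∧ x ^ 5 = 1 ∧
      (∀ c : F, x ≠ c • (1 : Matrix (Fin 4) (Fin 4) F)) ∧
      Matrix.trace x * Matrix.trace x⁻¹ ≠ 1

/-- S6001-WTV: a unitary transvection. -/
def StWTV : Prop :=
  ∀ (F : Type u) [Field F] [Fintype F] (p : ℕ), p.Prime → Fintype.card F = p ^ 2 → p % 4 = 3 →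
    ∃ x : Matrix (Fin 4) (Fin 4) F, x.det = 1 ∧ IsU p x ∧ (x - 1) * (x - 1) = 0 ∧
      (x - 1).rank ≤ 1 ∧ x ≠ 1

/-! ## From the hypotheses to the standard form -/

/-- S6001-STRUCT (abstract group theory): `R / Z(R)` is elementary abelian. -/
def StStruct : Prop :=
  ∀ (R : Type u) [Group R], Nat.card R = 64 → Nat.card (Subgroup.center R) = 4 →
    Monoid.exponent R = 4 →
    (∀ A : Subgroup R, A.Characteristic → IsMulCommutative A → IsCyclic A) →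
    ∀ g h : R, g * g ∈ Subgroup.center R ∧ g * h * g⁻¹ * h⁻¹ ∈ Subgroup.center R

/-- S6001-CENT: the centre consists of the scalars `ι^j`. -/
def StCent : Prop :=
  ∀ (F : Type u) [Field F] (R : Subgroup (GL (Fin 4) F)),
    Cfsg.Geo.ActsAbsolutelyIrreducibly (Cfsg.Geo.matrixSet R) →
    Nat.card (Subgroup.center R) = 4 →
    ∃ ι : F, ι ^ 2 = -1 ∧
      (∀ g : GL (Fin 4) F, g ∈ R → ((∀ h ∈ R, g * h = h * g) ↔
        ∃ j : ℕ, (g : Matrix (Fin 4) (Fin 4) F) = ι ^ j • (1 : Matrix (Fin 4) (Fin 4) F))) ∧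
      ∃ g ∈ R, (g : Matrix (Fin 4) (Fin 4) F) = ι • (1 : Matrix (Fin 4) (Fin 4) F)

/-- S6001-GENS: a symplectic basis of involutions. -/
def StGens : Prop :=
  ∀ (F : Type u) [Field F] (R : Subgroup (GL (Fin 4) F)) (ι : F), ι ^ 2 = -1 →
    Nat.card R = 64 → Monoid.exponent R = 4 →
    (∀ g : GL (Fin 4) F, g ∈ R → ((∀ h ∈ R, g * h = h * g) ↔
      ∃ j : ℕ, (g : Matrix (Fin 4) (Fin 4) F) = ι ^ j • (1 : Matrix (Fin 4) (Fin 4) F))) →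
    (∃ g ∈ R, (g : Matrix (Fin 4) (Fin 4) F) = ι • (1 : Matrix (Fin 4) (Fin 4) F)) →
    (∀ g h : R, g * g ∈ Subgroup.center R ∧ g * h * g⁻¹ * h⁻¹ ∈ Subgroup.center R) →
    ∃ a1 b1 a2 b2 : GL (Fin 4) F, a1 ∈ R ∧ b1 ∈ R ∧ a2 ∈ R ∧ b2 ∈ R ∧
      a1 * a1 = 1 ∧ b1 * b1 = 1 ∧ a2 * a2 = 1 ∧ b2 * b2 = 1 ∧
      (a1 : Matrix (Fin 4) (Fin 4) F) * (b1 : Matrix (Fin 4) (Fin 4) F) =
        -((b1 : Matrix (Fin 4) (Fin 4) F) * (a1 : Matrix (Fin 4) (Fin 4) F)) ∧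
      (a2 : Matrix (Fin 4) (Fin 4) F) * (b2 : Matrix (Fin 4) (Fin 4) F) =
        -((b2 : Matrix (Fin 4) (Fin 4) F) * (a2 : Matrix (Fin 4) (Fin 4) F)) ∧
      a1 * a2 = a2 * a1 ∧ a1 * b2 = b2 * a1 ∧ b1 * a2 = a2 * b1 ∧ b1 * b2 = b2 * b1

/-- S6001-BASIS: four such involutions are simultaneously conjugate to `A1, B1, A2, B2`. -/
def StBasis : Prop :=
  ∀ (F : Type u) [Field F] (a1 b1 a2 b2 : Matrix (Fin 4) (Fin 4) F), (2 : F) ≠ 0 →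
    a1 * a1 = 1 → b1 * b1 = 1 → a2 * a2 = 1 → b2 * b2 = 1 → a1 * b1 = -(b1 * a1) →
    a2 * b2 = -(b2 * a2) → a1 * a2 = a2 * a1 → a1 * b2 = b2 * a1 → b1 * a2 = a2 * b1 →
    b1 * b2 = b2 * b1 →
    ∃ P : Matrix (Fin 4) (Fin 4) F, IsUnit P.det ∧ a1 * P = P * A1 ∧ b1 * P = P * B1 ∧
      a2 * P = P * A2 ∧ b2 * P = P * B2

/-- S6001-STDCOUNT: `R` is the conjugate of the standard group. -/
def StStdCount : Prop :=
  ∀ (F : Type u) [Field F] (R : Subgroup (GL (Fin 4) F)) (ι : F) (a1 b1 a2 b2 P : GL (Fin 4) F),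
    (2 : F) ≠ 0 → ι ^ 2 = -1 → Nat.card R = 64 →
    (∃ g ∈ R, (g : Matrix (Fin 4) (Fin 4) F) = ι • (1 : Matrix (Fin 4) (Fin 4) F)) →
    a1 ∈ R → b1 ∈ R → a2 ∈ R → b2 ∈ R →
    (a1 : Matrix (Fin 4) (Fin 4) F) * (P : Matrix (Fin 4) (Fin 4) F) =
      (P : Matrix (Fin 4) (Fin 4) F) * A1 →
    (b1 : Matrix (Fin 4) (Fin 4) F) * (P : Matrix (Fin 4) (Fin 4) F) =
      (P : Matrix (Fin 4) (Fin 4) F) * B1 →
    (a2 : Matrix (Fin 4) (Fin 4) F) * (P : Matrix (Fin 4) (Fin 4) F) =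
      (P : Matrix (Fin 4) (Fin 4) F) * A2 →
    (b2 : Matrix (Fin 4) (Fin 4) F) * (P : Matrix (Fin 4) (Fin 4) F) =
      (P : Matrix (Fin 4) (Fin 4) F) * B2 →
    ∀ g : GL (Fin 4) F, g ∈ R ↔ ∃ (j : ℕ) (v : Fin 4 → ZMod 2),
      ((P⁻¹ * g * P : GL (Fin 4) F) : Matrix (Fin 4) (Fin 4) F) = ι ^ j • pauli v

/-- S6001-STDU: the base change can be taken unitary. -/
def StStdU : Prop :=
  ∀ (F : Type u) [Field F] [Fintype F] (p : ℕ) (R : Subgroup (GL (Fin 4) F)) (ι : F)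
    (P : GL (Fin 4) F), p.Prime → Fintype.card F = p ^ 2 → p % 4 = 3 → ι ^ 2 = -1 →
    R ≤ Cfsg.GU 4 F p →
    (∀ g : GL (Fin 4) F, g ∈ R ↔ ∃ (j : ℕ) (v : Fin 4 → ZMod 2),
      ((P⁻¹ * g * P : GL (Fin 4) F) : Matrix (Fin 4) (Fin 4) F) = ι ^ j • pauli v) →
    ∃ P' : GL (Fin 4) F, P' ∈ Cfsg.GU 4 F p ∧
      ∀ g : GL (Fin 4) F, g ∈ R ↔ ∃ (j : ℕ) (v : Fin 4 → ZMod 2),
        ((P'⁻¹ * g * P' : GL (Fin 4) F) : Matrix (Fin 4) (Fin 4) F) = ι ^ j • pauli v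

/-- S6001-NGLUE: the normalizer of `R` in terms of `Nrm`. -/
def StNGlue : Prop :=
  ∀ (F : Type u) [Field F] (R : Subgroup (GL (Fin 4) F)) (ι : F) (P : GL (Fin 4) F),
    (2 : F) ≠ 0 → ι ^ 2 = -1 →
    (∀ g : GL (Fin 4) F, g ∈ R ↔ ∃ (j : ℕ) (v : Fin 4 → ZMod 2),
      ((P⁻¹ * g * P : GL (Fin 4) F) : Matrix (Fin 4) (Fin 4) F) = ι ^ j • pauli v) →
    ∀ y : GL (Fin 4) F, y ∈ Cfsg.Geo.subgroupNormalizer R ↔
      Nrm ι ((P⁻¹ * y * P : GL (Fin 4) F) : Matrix (Fin 4) (Fin 4) F)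

/-! ## Unitary linear algebra over the field with `p^2` elements -/

/-- S6001-ROOTS. -/
def StRoots : Prop :=
  ∀ (F : Type u) [Field F] [Fintype F] (p : ℕ), p.Prime → Fintype.card F = p ^ 2 → p % 4 = 3 →
    (p % 3 = 1 → ∃ ω : F, ω ^ 2 + ω + 1 = 0 ∧ ω ^ p = ω) ∧ (∃ s : F, s ^ 2 + s = 1)

/-- S6001-UINVA: a unitary involution has an orthonormal eigenbasis of determinant 1. -/
def StUInvA : Prop :=
  ∀ (F : Type u) [Field F] [Fintype F] (p : ℕ) (y : Matrix (Fin 4) (Fin 4) F), p.Prime →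
    Fintype.card F = p ^ 2 → (2 : F) ≠ 0 → IsU p y → y * y = 1 →
    ∃ (E : Matrix (Fin 4) (Fin 4) F) (d : Fin 4 → F), E.det = 1 ∧ IsU p E ∧
      (∀ i, d i = 1 ∨ d i = -1) ∧ y * E = E * Matrix.diagonal d

/-- S6001-UINVB: the scalar `x^2` of an element of `SU_4(p)` is the square of a unitary scalar. -/
def StUInvB : Prop :=
  ∀ (F : Type u) [Field F] [Fintype F] (p : ℕ) (x : Matrix (Fin 4) (Fin 4) F) (z : F), p.Prime →
    Fintype.card F = p ^ 2 → p % 4 = 3 → x.det = 1 → IsU p x →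
    x * x = z • (1 : Matrix (Fin 4) (Fin 4) F) → ∃ c : F, c * c = z ∧ c ^ (p + 1) = 1

/-- S6001-UHYP3: hyperbolic normal forms of a unitary element of order 3 (`p ≡ 1 mod 3`). -/
def StUHyp3 : Prop :=
  ∀ (F : Type u) [Field F] [Fintype F] (p : ℕ) (x : Matrix (Fin 4) (Fin 4) F) (ω : F), p.Prime →
    Fintype.card F = p ^ 2 → ω ^ 2 + ω + 1 = 0 → ω ^ p = ω → (3 : F) ≠ 0 → IsU p x → x ^ 3 = 1 →
    x ≠ 1 →
    ∃ E : Matrix (Fin 4) (Fin 4) F, IsUnit E.det ∧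
      ((x * E = E * Matrix.diagonal ![ω, ω, ω ^ 2, ω ^ 2] ∧ Eᵀ * E.map (fun a => a ^ p) = B1) ∨
        (x * E = E * Matrix.diagonal ![ω, ω ^ 2, 1, 1] ∧ Eᵀ * E.map (fun a => a ^ p) = J1))

/-- S6001-UHYP5: the normal form of a unitary element of order 5 (`ord_5(p) = 4`). -/
def StUHyp5 : Prop :=
  ∀ (F : Type u) [Field F] [Fintype F] (p : ℕ) (x : Matrix (Fin 4) (Fin 4) F) (s : F), p.Prime →
    Fintype.card F = p ^ 2 → orderOf (p : ZMod 5) = 4 → s ^ 2 + s = 1 → IsU p x → x ^ 5 = 1 →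
    x ≠ 1 →
    ∃ E : Matrix (Fin 4) (Fin 4) F, IsUnit E.det ∧ x * E = E * K5 s (s ^ p) ∧
      Eᵀ * E.map (fun a => a ^ p) = B1

/-- S6001-TDET: determinant corrections in the centralizers of the normal forms. -/
def StTDet : Prop :=
  ∀ (F : Type u) [Field F] [Fintype F] (p : ℕ) (δ : F), p.Prime → Fintype.card F = p ^ 2 →
    p % 4 = 3 → δ ^ (p + 1) = 1 →
    (∃ a b : F, (Matrix.diagonal ![a, 1, b, 1] : Matrix (Fin 4) (Fin 4) F).det = δ ∧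
      (Matrix.diagonal ![a, 1, b, 1] : Matrix (Fin 4) (Fin 4) F)ᵀ * B1 *
        (Matrix.diagonal ![a, 1, b, 1] : Matrix (Fin 4) (Fin 4) F).map (fun a => a ^ p) = B1) ∧
    (∃ b : F, (Matrix.diagonal ![1, 1, b, 1] : Matrix (Fin 4) (Fin 4) F).det = δ ∧
      (Matrix.diagonal ![1, 1, b, 1] : Matrix (Fin 4) (Fin 4) F)ᵀ * J1 *
        (Matrix.diagonal ![1, 1, b, 1] : Matrix (Fin 4) (Fin 4) F).map (fun a => a ^ p) = J1) ∧
    (∀ s : F, s ^ 2 + s = 1 → (5 : F) ≠ 0 →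
      ∃ t : Matrix (Fin 4) (Fin 4) F, t.det = δ ∧ tᵀ * B1 * t.map (fun a => a ^ p) = B1 ∧
        t * K5 s (s ^ p) = K5 s (s ^ p) * t)

/-- S6001-UGLUE: two matrices with the same normal form in bases with the same Gram matrix are
conjugate under a unitary matrix of determinant 1. -/
def StUGlue : Prop :=
  ∀ (F : Type u) [Field F] (p : ℕ) [CharP F p], p.Prime →
    ∀ (J D x y E₁ E₂ t : Matrix (Fin 4) (Fin 4) F), IsUnit E₁.det → IsUnit E₂.det →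
      E₁ᵀ * E₁.map (fun a => a ^ p) = J → E₂ᵀ * E₂.map (fun a => a ^ p) = J → x * E₁ = E₁ * D →
      y * E₂ = E₂ * D → t * D = D * t → tᵀ * J * t.map (fun a => a ^ p) = J →
      t.det * E₁.det = E₂.det →
      ∃ g : Matrix (Fin 4) (Fin 4) F, g.det = 1 ∧ IsU p g ∧ x * g = g * y

end Cfsg.Agent.H83.UP
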