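import Mathlib
import Cfsg.Prelude.Def_Characters
import Cfsg.Prelude.Def_Blocks

/-!
# S4463 (abelian subgroup of index at most `(b!)^2`): piece statements (helper83)

`b(G)` is the largest irreducible character degree.  Plan: strong induction on `b`.  A nonabelian
group `G` with all degrees at most `b` "reduces": it has a subgroup `H` with all degrees at most
some `b' < b` and `[G : H] * (b'!)^2 ≤ (b!)^2`.
-/

set_option autoImplicit false

namespace Cfsg.Agent.H83.AbIdx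

open Cfsg

universe u

/-- The reduction step of the induction. -/
def Reduces (G : Type u) [Group G] (b : ℕ) : Prop :=
  ∃ (H : Subgroup G) (b' : ℕ), b' < b ∧ (∀ ψ : IrrCharacter H, charDegree ψ.1 ≤ b') ∧
    H.index * b'.factorial ^ 2 ≤ b.factorial ^ 2

/-- RES: every irreducible character of a subgroup lies under one of the group. -/
def StmtRes : Prop := ∀ (G : Type u) [Group G] [Finite G] (H : Subgroup G) (ψ : IrrCharacter H),
  ∃ χ : IrrCharacter G, charDegree ψ.1 ≤ charDegree χ.1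

/-- L1EXT: a character of `H` of degree at least every degree of `G` extends to `G`, and its
induced function restricts to `[G : H] ψ`. -/
def StmtL1Ext : Prop := ∀ (G : Type u) [Group G] [Fintype G] (H : Subgroup G) (ψ : IrrCharacter H),
  (∀ χ : IrrCharacter G, charDegree χ.1 ≤ charDegree ψ.1) →
    (∃ χ : IrrCharacter G, ∀ h : H, χ.1 (h : G) = ψ.1 h) ∧
    (∀ h : H, indFun H ψ.1 (h : G) = (H.index : ℂ) * ψ.1 h)

/-- L1: moreover `ψ` vanishes off the normal core of `H`, which has index at most `ψ(1)^2` in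
`H`. -/
def StmtL1 : Prop := ∀ (G : Type u) [Group G] [Finite G] (H : Subgroup G) (ψ : IrrCharacter H),
  (∀ χ : IrrCharacter G, charDegree χ.1 ≤ charDegree ψ.1) →
    (∃ χ : IrrCharacter G, ∀ h : H, χ.1 (h : G) = ψ.1 h) ∧
    (∀ h : H, (h : G) ∉ H.normalCore → ψ.1 h = 0) ∧
    H.normalCore.relIndex H ≤ charDegree ψ.1 ^ 2

/-- HALF: if `G / K` is nonabelian then `2 b(K) ≤ b(G)`. -/
def StmtHalf : Prop := ∀ (G : Type u) [Group G] [Finite G] (K : Subgroup G) [K.Normal],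
  ¬ commutator G ≤ K → ∀ θ : IrrCharacter K, ∃ χ : IrrCharacter G,
    2 * charDegree θ.1 ≤ charDegree χ.1

/-- SMALLCLASS: a nontrivial group has a nonidentity class of size at most `b^2`. -/
def StmtSmallClass : Prop := ∀ (X : Type u) [Group X] [Finite X] [Nontrivial X] (b : ℕ),
  (∀ χ : IrrCharacter X, charDegree χ.1 ≤ b) →
  ∃ x : X, x ≠ 1 ∧ (Subgroup.centralizer ({x} : Set X)).index ≤ b ^ 2

/-- SIMPLE4: a simple group with all degrees at most `4` is abelian. -/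
def StmtSimple4 : Prop := ∀ (X : Type u) [Group X] [Finite X] [IsSimpleGroup X],
  (∀ χ : IrrCharacter X, charDegree χ.1 ≤ 4) → ∀ a b : X, a * b = b * a

/-- SOLV4: a group with all degrees at most `4` is solvable. -/
def StmtSolv4 : Prop := ∀ (X : Type u) [Group X] [Finite X],
  (∀ χ : IrrCharacter X, charDegree χ.1 ≤ 4) → Group.IsSolvable X

/-- COREFREE: if every normal subgroup properly containing `K` contains `G'` and `G / K` is not
solvable, the preimage of a centralizer of a nonidentity element of `G / K` has normal core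
inside `K`. -/
def StmtCoreFree : Prop := ∀ (G : Type u) [Group G] [Finite G] (K : Subgroup G) [K.Normal],
  (∀ L : Subgroup G, L.Normal → K ≤ L → L ≠ K → commutator G ≤ L) →
  ¬ Group.IsSolvable (G ⧸ K) →
  ∀ x : G, x ∉ K →
  ((Subgroup.centralizer ({(x : G ⧸ K)} : Set (G ⧸ K))).comap
    (QuotientGroup.mk' K)).normalCore ≤ K

/-- BETATRICK: if `β ∈ Irr(G)` vanishes off `H` and `b(H) = b(G)`, then `[G : H] ≤ β(1)`. -/
def StmtBetaTrick : Prop := ∀ (G : Type u) [Group G] [Finite G] (H : Subgroup G)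
  (β : IrrCharacter G) (ψ : IrrCharacter H),
  (∀ g : G, g ∉ H → β.1 g = 0) → (∀ χ : IrrCharacter G, charDegree χ.1 ≤ charDegree ψ.1) →
  H.index ≤ charDegree β.1

/-- ACENTER: the `p`-group quotient: a nonlinear character vanishing off a subgroup `Z` of
index `β(1)^2`. -/
def StmtACenter : Prop := ∀ (G : Type u) [Group G] [Finite G] (K N : Subgroup G) [K.Normal]
  [N.Normal] (t k : ℕ),
  t.Prime → K ≤ N → K ≠ N → commutator G ≤ N → ¬ commutator G ≤ K →
  (∀ L : Subgroup G, L.Normal → K ≤ L → L ≠ K → N ≤ L) →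
  K.index = t ^ k →
  ∃ (Z : Subgroup G) (β : IrrCharacter G), 2 ≤ charDegree β.1 ∧ (∀ g : G, g ∉ Z → β.1 g = 0) ∧
    Z.index = charDegree β.1 ^ 2

/-- CASEA: the `p`-group quotient reduces. -/
def StmtCaseA : Prop := ∀ (G : Type u) [Group G] [Finite G] (K N : Subgroup G) [K.Normal]
  [N.Normal] (t k b : ℕ),
  t.Prime → K ≤ N → K ≠ N → commutator G ≤ N → ¬ commutator G ≤ K →
  (∀ L : Subgroup G, L.Normal → K ≤ L → L ≠ K → N ≤ L) →
  K.index = t ^ k →
  (∀ χ : IrrCharacter G, charDegree χ.1 ≤ b) → Reduces G b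

/-- BVANISH: Frobenius-type quotient: a character of `N` of degree `b(G)` vanishes off `K`. -/
def StmtBVanish : Prop := ∀ (G : Type u) [Group G] [Finite G] (K N : Subgroup G) [K.Normal]
  [N.Normal],
  K ≤ N → (∀ x ∈ N, ∀ y ∈ N, x * y * x⁻¹ * y⁻¹ ∈ K) →
  (∀ n ∈ N, (∀ g : G, g * n * g⁻¹ * n⁻¹ ∈ K) → n ∈ K) →
  ∀ ψ : IrrCharacter N, (∀ χ : IrrCharacter G, charDegree χ.1 ≤ charDegree ψ.1) →
  ∀ n : N, (n : G) ∉ K → ψ.1 n = 0

/-- BINDEX: Frobenius-type quotient: `2 ≤ [G : N] ≤ b`. -/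
def StmtBIndex : Prop := ∀ (G : Type u) [Group G] [Finite G] (K N : Subgroup G) [K.Normal]
  [N.Normal] (b : ℕ),
  K ≤ N → commutator G ≤ N → ¬ commutator G ≤ K →
  (∀ L : Subgroup G, L.Normal → K ≤ L → L ≠ K → N ≤ L) →
  (∀ x ∈ N, ∀ y ∈ N, x * y * x⁻¹ * y⁻¹ ∈ K) →
  (∀ x : G, (∀ n ∈ N, x * n * x⁻¹ * n⁻¹ ∈ K) → x ∈ N) →
  (∀ χ : IrrCharacter G, charDegree χ.1 ≤ b) → 2 ≤ N.index ∧ N.index ≤ b

/-- BNORM: an irreducible character vanishing off a normal subgroup `K`: `[N : K] ≤ ψ(1)^2`, and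
`[N : K] ∈ {1, 2, 4}` when `ψ(1) = 2`. -/
def StmtBNorm : Prop := ∀ (N : Type u) [Group N] [Finite N] (K : Subgroup N) [K.Normal]
  (ψ : IrrCharacter N),
  (∀ n : N, n ∉ K → ψ.1 n = 0) →
  K.index ≤ charDegree ψ.1 ^ 2 ∧
    (charDegree ψ.1 = 2 → K.index = 1 ∨ K.index = 2 ∨ K.index = 4)

/-- BTWO: a Frobenius-type quotient is not a `2`-group with `[G : N] = 2`. -/
def StmtBTwo : Prop := ∀ (G : Type u) [Group G] [Finite G] (K N : Subgroup G) [K.Normal]
  [N.Normal] (m : ℕ),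
  K ≤ N → K ≠ N →
  (∀ L : Subgroup G, L.Normal → K ≤ L → L ≠ K → N ≤ L) →
  (∀ n ∈ N, (∀ g : G, g * n * g⁻¹ * n⁻¹ ∈ K) → n ∈ K) →
  N.index = 2 → K.relIndex N = 2 ^ m → False

/-- ARITH: the three factorial inequalities. -/
def StmtArith : Prop :=
  (∀ b : ℕ, 1 ≤ b → b ^ 2 * (b - 1).factorial ^ 2 ≤ b.factorial ^ 2) ∧
  (∀ b : ℕ, 3 ≤ b → b ^ 3 * (b / 2).factorial ^ 2 ≤ b.factorial ^ 2) ∧
  (∀ b : ℕ, 5 ≤ b → b ^ 4 * (b / 2).factorial ^ 2 ≤ b.factorial ^ 2)

/-- CASEB: the Frobenius-type quotient reduces. -/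
def StmtCaseB : Prop := ∀ (G : Type u) [Group G] [Finite G] (K N : Subgroup G) [K.Normal]
  [N.Normal] (t m b : ℕ),
  t.Prime → K ≤ N → K ≠ N → commutator G ≤ N → ¬ commutator G ≤ K →
  (∀ L : Subgroup G, L.Normal → K ≤ L → L ≠ K → N ≤ L) →
  (∀ x ∈ N, ∀ y ∈ N, x * y * x⁻¹ * y⁻¹ ∈ K) →
  K.relIndex N = t ^ m →
  (∀ n ∈ N, (∀ g : G, g * n * g⁻¹ * n⁻¹ ∈ K) → n ∈ K) →
  (∀ x : G, (∀ n ∈ N, x * n * x⁻¹ * n⁻¹ ∈ K) → x ∈ N) →
  (∀ χ : IrrCharacter G, charDegree χ.1 ≤ b) → Reduces G b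

/-- NONSOLV: a nonsolvable quotient with all proper quotients abelian reduces. -/
def StmtNonSolv : Prop := ∀ (G : Type u) [Group G] [Finite G] (K : Subgroup G) [K.Normal] (b : ℕ),
  (∀ L : Subgroup G, L.Normal → K ≤ L → L ≠ K → commutator G ≤ L) →
  ¬ Group.IsSolvable (G ⧸ K) →
  (∀ χ : IrrCharacter G, charDegree χ.1 ≤ b) → Reduces G b

end Cfsg.Agent.H83.AbIdx
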