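import Mathlib
import Cfsg.Prelude.Def_Characters
import Cfsg.Agent.H83.DegGraphA
import Cfsg.Agent.H83.DegGraphB
import Cfsg.Agent.H83.PowDeg
import Cfsg.Agent.H82.IndDeg
import Cfsg.Agent.H82.Irr

/-!
# Three character degrees: the Frobenius-type quotient (helper83)

Tools for a group `G` with a normal subgroup `K₀` such that `G / K₀` is solvable and nonabelian.

* `threeDeg_struct`: the structure `K ≤ N` of `degGraph_struct`, above a given `K₀` with solvable
  quotient (no solvability of `G` needed).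
* `res_irr_of_coprime_ab`, `dvd_of_vanish_ab`: versions of the degree-graph lemmas for an abelian
  quotient.
* `mem_of_fix_linear`: a nontrivial linear character of `N / K` has inertia group `N`.
* `degree_eq_index`: nonlinear irreducible characters of `G / K` have degree `[G : N]`.
* `twist_injective`: Gallagher injectivity for linear twists.
* `exists_twist_inertia`: a character of `N` restricting irreducibly to `K` has a linear twist with
  inertia group `N` (counting argument).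
-/

set_option autoImplicit false
set_option linter.unusedSectionVars false
set_option linter.style.haveILetI false

namespace Cfsg.Agent.H83

open Cfsg Cfsg.Agent.H4 Cfsg.Agent.Clifford
open scoped ComplexConjugate commutatorElement

universe u

section StructQ

variable {G : Type u} [Group G]

/-- The structure used for three character degrees: `K ≥ K₀` maximal normal with `G / K`
nonabelian and `N = K G'`. -/
theorem threeDeg_struct [Finite G] (K₀ : Subgroup G) [hK₀n : K₀.Normal]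
    [hsolv : Group.IsSolvable (G ⧸ K₀)] (hK₀ : ¬ commutator G ≤ K₀) :
    ∃ (K N : Subgroup G) (t : ℕ), K.Normal ∧ N.Normal ∧ t.Prime ∧ K ≤ N ∧ K ≠ N ∧
      commutator G ≤ N ∧ ¬ commutator G ≤ K ∧
      (∀ L : Subgroup G, L.Normal → K ≤ L → L ≠ K → N ≤ L) ∧
      (∀ a ∈ N, ∀ b ∈ N, a * b * a⁻¹ * b⁻¹ ∈ K) ∧
      (∃ m : ℕ, K.relIndex N = t ^ m) ∧
      ((∃ k : ℕ, K.index = t ^ k) ∨
        ((∀ n ∈ N, (∀ g : G, g * n * g⁻¹ * n⁻¹ ∈ K) → n ∈ K) ∧
         (∀ x : G, (∀ n ∈ N, x * n * x⁻¹ * n⁻¹ ∈ K) → x ∈ N))) := by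
  classical
  obtain ⟨K, hK₀K, ⟨⟨hKn, hKc⟩, hKmax⟩⟩ := Finite.exists_le_maximal
    (p := fun L : Subgroup G => L.Normal ∧ ¬ commutator G ≤ L) (a := K₀)
    ⟨hK₀n, hK₀⟩
  haveI := hKn
  haveI : Group.IsSolvable (G ⧸ K) := by
    refine Group.isSolvable_of_surjective (f := QuotientGroup.map K₀ K (MonoidHom.id G) hK₀K) ?_
    intro x
    induction x using QuotientGroup.induction_on with
    | _ x => exact ⟨(x : G ⧸ K₀), rfl⟩
  have hmaxK : ∀ L : Subgroup G, L.Normal → K ≤ L → L ≠ K → commutator G ≤ L := by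
    intro L hL hKL hne
    by_contra hc
    exact hne (le_antisymm (hKmax ⟨hL, hc⟩ hKL) hKL)
  obtain ⟨π, hπ⟩ : ∃ π : G →* G ⧸ K, π = QuotientGroup.mk' K := ⟨_, rfl⟩
  have hsurj : Function.Surjective π := by rw [hπ]; exact QuotientGroup.mk'_surjective K
  have hker : π.ker = K := by rw [hπ]; exact QuotientGroup.ker_mk' K
  have hmap : (commutator G).map π = commutator (G ⧸ K) := by
    rw [commutator_def, Subgroup.map_commutator, Subgroup.map_top_of_surjective π hsurj,
      ← commutator_def]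
  have hQne : commutator (G ⧸ K) ≠ ⊥ := by
    intro h
    rw [← hmap, Subgroup.map_eq_bot_iff, hker] at h
    exact hKc h
  have hQmin : ∀ L : Subgroup (G ⧸ K), L.Normal → L ≠ ⊥ → commutator (G ⧸ K) ≤ L := by
    intro L hL hLne
    have h1 : K ≤ L.comap π := by
      intro x hx
      rw [Subgroup.mem_comap]
      have : π x = 1 := by rw [← MonoidHom.mem_ker, hker]; exact hx
      rw [this]
      exact L.one_mem
    have h2 : L.comap π ≠ K := by
      intro h
      apply hLne
      rw [← Subgroup.map_comap_eq_self_of_surjective hsurj L, h, Subgroup.map_eq_bot_iff, hker]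
    have h3 := hmaxK _ (hL.comap π) h1 h2
    rw [← hmap]
    exact (Subgroup.map_mono h3).trans (Subgroup.map_comap_le π L)
  obtain ⟨t, ht, hpg, hcomm, hcase⟩ := lemQ hQne hQmin
  haveI : Fact t.Prime := ⟨ht⟩
  obtain ⟨N, hN⟩ : ∃ N : Subgroup G, N = (commutator (G ⧸ K)).comap π := ⟨_, rfl⟩
  have hNn : N.Normal := by rw [hN]; exact Subgroup.Normal.comap inferInstance π
  have hmemN : ∀ x : G, x ∈ N ↔ π x ∈ commutator (G ⧸ K) := fun x => by
    rw [hN]; exact Subgroup.mem_comap
  have hmemK : ∀ x : G, x ∈ K ↔ π x = 1 := fun x => by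
    rw [← MonoidHom.mem_ker, hker]
  have hKN : K ≤ N := by
    intro x hx
    rw [hmemN, (hmemK x).mp hx]
    exact Subgroup.one_mem _
  have hGN : commutator G ≤ N := by rw [hN, ← hmap]; exact Subgroup.le_comap_map π _
  refine ⟨K, N, t, hKn, hNn, ht, hKN, ?_, hGN, hKc, ?_, ?_, ?_, ?_⟩
  · intro h
    exact hKc (h ▸ hGN)
  · intro L hL hKL hne
    have h3 := hmaxK L hL hKL hne
    rw [hN, ← hmap, Subgroup.comap_map_eq, hker]
    exact sup_le h3 hKL
  · intro a ha b hb
    rw [hmemK]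
    have := hcomm (π a) ((hmemN a).mp ha) (π b) ((hmemN b).mp hb)
    simp only [map_mul, map_inv]
    rw [this]
    group
  · obtain ⟨m, hm⟩ := IsPGroup.exists_card_eq hpg
    refine ⟨m, ?_⟩
    have h1 : K.relIndex N = ((⊥ : Subgroup (G ⧸ K)).comap π).relIndex N := by
      congr 1
      rw [MonoidHom.comap_bot, hker]
    rw [h1, Subgroup.relIndex_comap, Subgroup.relIndex_bot_left, hN,
      Subgroup.map_comap_eq_self_of_surjective hsurj, hm]
  · rcases hcase with hp | ⟨hc1, hc2⟩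
    · left
      obtain ⟨k, hk⟩ := IsPGroup.exists_card_eq hp
      exact ⟨k, by rw [Subgroup.index_eq_card, hk]⟩
    · right
      constructor
      · intro n hn hall
        rw [hmemK]
        apply hc1 (π n) ((hmemN n).mp hn)
        intro g
        obtain ⟨g', rfl⟩ := hsurj g
        have := (hmemK _).mp (hall g')
        simp only [map_mul, map_inv] at this
        have h2 := mul_inv_eq_one.mp this
        exact mul_inv_eq_iff_eq_mul.mp h2
      · intro x hall
        rw [hmemN]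
        apply hc2
        intro n hn
        obtain ⟨n', rfl⟩ := hsurj n
        have hn' : n' ∈ N := (hmemN n').mpr hn
        have := (hmemK _).mp (hall n' hn')
        simp only [map_mul, map_inv] at this
        have h2 := mul_inv_eq_one.mp this
        exact mul_inv_eq_iff_eq_mul.mp h2


end StructQ

section ResCoprimeAb

/-- Irreducible characters of degree prime to the index of a normal subgroup with abelian quotient
restrict irreducibly along an injective homomorphism onto that subgroup. -/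
theorem res_irr_of_coprime_ab_aux : ∀ (n : ℕ) (H : Type u) [Group H] [Finite H]
    (K : Type u) [Group K] (f : K →* H), Function.Injective f →
    f.range.Normal → (∀ a b : H, a * b * a⁻¹ * b⁻¹ ∈ f.range) → f.range.index = n →
    ∀ ψ : H → ℂ, IsIrrCharacter H ψ →
    (charDegree ψ).Coprime n → IsIrrCharacter K (fun k => ψ (f k)) := by
  intro n
  induction n using Nat.strong_induction_on with
  | _ n ih =>
    intro H _ _ K _ f hf hn hcomm hidx ψ hψ hdeg
    haveI := hn
    by_cases htop : f.range = ⊤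
    · exact isIrrCharacter_comp_surjective f (MonoidHom.range_eq_top.mp htop) hψ
    · haveI : Nontrivial (H ⧸ f.range) := not_subsingleton_iff_nontrivial.mp
        (fun h => htop (QuotientGroup.subgroup_eq_top_of_subsingleton _ h))
      haveI : Group.IsSolvable (H ⧸ f.range) := by
        apply Group.isSolvable_of_comm
        intro a b
        induction a using QuotientGroup.induction_on with
        | _ a =>
          induction b using QuotientGroup.induction_on with
          | _ b =>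
            rw [← QuotientGroup.mk_mul, ← QuotientGroup.mk_mul, QuotientGroup.eq]
            have := hcomm b⁻¹ a⁻¹
            simpa [mul_assoc] using this
      obtain ⟨Mb, hMbn, hMbp⟩ := Cfsg.Agent.H1.exists_normal_prime_index (H ⧸ f.range)
      obtain ⟨M, hM⟩ : ∃ M : Subgroup H, M = Mb.comap (QuotientGroup.mk' f.range) := ⟨_, rfl⟩
      haveI hMn : M.Normal := by rw [hM]; exact hMbn.comap _
      obtain ⟨p, hp⟩ : ∃ p : ℕ, p = Mb.index := ⟨_, rfl⟩
      have hpp : p.Prime := hp ▸ hMbp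
      have hMidx : M.index = p := by
        rw [hM, Subgroup.index_comap_of_surjective Mb (QuotientGroup.mk'_surjective f.range), hp]
      have hle : f.range ≤ M := by
        intro y hy
        rw [hM, Subgroup.mem_comap]
        have : QuotientGroup.mk' f.range y = 1 := (QuotientGroup.eq_one_iff y).mpr hy
        rw [this]; exact one_mem _
      have hrel := Subgroup.relIndex_mul_index hle
      rw [hMidx, hidx] at hrel
      have hpn : p ∣ n := Dvd.intro_left _ hrel
      have hdegp : ¬ p ∣ charDegree ψ := by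
        intro h
        have h1 : p.Coprime p :=
          Nat.Coprime.coprime_dvd_left h (Nat.Coprime.coprime_dvd_right hpn hdeg)
        exact hpp.ne_one ((Nat.coprime_self p).mp h1)
      have hψM : IsIrrCharacter M (fun m : M => ψ m) :=
        H82.res_irr_of_prime_index M hpp hMidx hψ hdegp
      have hdegM : charDegree (fun m : M => ψ m) = charDegree ψ :=
        H82.charDegree_eq_of_one_eq rfl
      obtain ⟨f', hf'⟩ : ∃ f' : K →* M, ∀ k, ((f' k : M) : H) = f k :=
        ⟨f.codRestrict M (fun k => hle ⟨k, rfl⟩), fun k => rfl⟩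
      have hf'inj : Function.Injective f' := by
        intro x y hxy
        apply hf
        rw [← hf' x, ← hf' y, hxy]
      have hrange : f'.range = f.range.subgroupOf M := by
        ext y
        rw [Subgroup.mem_subgroupOf]
        constructor
        · rintro ⟨k, rfl⟩
          exact ⟨k, (hf' k).symm⟩
        · rintro ⟨k, hk⟩
          exact ⟨k, Subtype.ext ((hf' k).trans hk)⟩
      have hf'n : f'.range.Normal := by rw [hrange]; infer_instance
      have hf'idx : f'.range.index = f.range.relIndex M := by rw [hrange]; rfl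
      have hcomm' : ∀ a b : M, a * b * a⁻¹ * b⁻¹ ∈ f'.range := by
        intro a b
        rw [hrange, Subgroup.mem_subgroupOf]
        simpa using hcomm (a : H) (b : H)
      have hn0 : 0 < n := by
        rw [← hidx]
        exact Nat.pos_of_ne_zero Subgroup.index_ne_zero_of_finite
      have hlt : f.range.relIndex M < n := by
        have h2 : 2 ≤ p := hpp.two_le
        have hr0 : 0 < f.range.relIndex M := by
          rcases Nat.eq_zero_or_pos (f.range.relIndex M) with h0 | h0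
          · rw [h0, zero_mul] at hrel; omega
          · exact h0
        nlinarith
      have hcop' : (charDegree (fun m : M => ψ m)).Coprime (f.range.relIndex M) := by
        rw [hdegM]
        exact Nat.Coprime.coprime_dvd_right (Dvd.intro _ hrel) hdeg
      have := ih _ hlt M K f' hf'inj hf'n hcomm' hf'idx (fun m : M => ψ m) hψM hcop'
      have e : (fun k => (fun m : M => ψ m) (f' k)) = fun k => ψ (f k) := by
        funext k
        show ψ ((f' k : M) : H) = ψ (f k)
        rw [hf' k]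
      rwa [e] at this

/-- An irreducible character of degree prime to the index of a normal subgroup with abelian
quotient restricts irreducibly to it. -/
theorem res_irr_of_coprime_ab {H : Type u} [Group H] [Finite H]
    (K : Subgroup H) [hK : K.Normal] (hcomm : commutator H ≤ K) {ψ : H → ℂ}
    (hψ : IsIrrCharacter H ψ)
    (hdeg : (charDegree ψ).Coprime K.index) : IsIrrCharacter K (fun n : K => ψ n) := by
  have hr : K.subtype.range = K := Subgroup.range_subtype K
  exact res_irr_of_coprime_ab_aux K.index H K K.subtype K.subtype_injective (by rw [hr]; exact hK)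
    (by rw [hr]; exact fun a b => hcomm (comm_elt_mem_commutator a b)) (by rw [hr]) ψ hψ hdeg

end ResCoprimeAb

section MainA

variable {G : Type u} [Group G]

/-- The Frobenius-type case with abelian quotient `G / N`: if every irreducible character of
degree divisible by `q` has degree prime to `[G : N]`, then all of them have degree divisible by
`t`. -/
theorem dvd_of_vanish_ab [Finite G]
    (K N : Subgroup G) [hK : K.Normal] [hN : N.Normal] (hKN : K ≤ N) (hne : K ≠ N)
    (hGN : commutator G ≤ N)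
    (hab : ∀ a ∈ N, ∀ b ∈ N, a * b * a⁻¹ * b⁻¹ ∈ K) {t m : ℕ} (ht : t.Prime)
    (hidx : K.relIndex N = t ^ m)
    (hZ : ∀ n ∈ N, (∀ g : G, g * n * g⁻¹ * n⁻¹ ∈ K) → n ∈ K)
    (q : ℕ)
    (hH : ∀ χ : IrrCharacter G, q ∣ charDegree χ.1 → (charDegree χ.1).Coprime N.index)
    (χ₀ : IrrCharacter G) (hχ₀ : q ∣ charDegree χ₀.1) : t ∣ charDegree χ₀.1 := by
  classical
  haveI : Fintype G := Fintype.ofFinite G
  haveI : Fintype N := Fintype.ofFinite N
  haveI : Fintype (K.subgroupOf N) := Fintype.ofFinite _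
  obtain ⟨ψ, hψdef⟩ : ∃ ψ : N → ℂ, ψ = fun n : N => χ₀.1 n := ⟨_, rfl⟩
  have hψ : IsIrrCharacter N ψ := by
    rw [hψdef]; exact res_irr_of_coprime_ab N hGN χ₀.2 (hH χ₀ hχ₀)
  have hdegψ : charDegree ψ = charDegree χ₀.1 := by
    rw [hψdef]; exact H82.charDegree_eq_of_one_eq rfl
  have hcf : IsClassFunction G χ₀.1 :=
    isClassFunction_of_isCharacter (isCharacter_of_isIrrCharacter χ₀.2)
  have hvan : ∀ n : N, (n : G) ∉ K → ψ n = 0 := by
    intro n hnK
    by_contra hψn
    apply hnK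
    apply hZ n n.2
    intro g
    by_contra hx
    have hgn : g * n * g⁻¹ ∈ N := hN.conj_mem n n.2 g
    obtain ⟨f, -, hfx⟩ := exists_hom_sep (K.subgroupOf N)
      (fun a b => by
        rw [Subgroup.mem_subgroupOf]
        simpa using hab a a.2 b b.2)
      (x := (⟨g * n * g⁻¹, hgn⟩ : N) * n⁻¹)
      (by rw [Subgroup.mem_subgroupOf]; simpa using hx)
    have hψ' : IsIrrCharacter N (fun n : N => ((f n : ℂˣ) : ℂ) * ψ n) :=
      isIrrCharacter_hom_mul f hψ
    obtain ⟨χ', hχ', hχ'ne⟩ := ItoConv.exists_irr_over N hψ'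
    obtain ⟨e, he⟩ := ItoConv.degree_over N ⟨_, hψ'⟩ ⟨χ', hχ'⟩ hχ'ne
    have hdeg' : charDegree (fun n : N => ((f n : ℂˣ) : ℂ) * ψ n) = charDegree χ₀.1 := by
      rw [← hdegψ]
      apply H82.charDegree_eq_of_one_eq
      simp
    have hq' : q ∣ charDegree χ' := by
      rw [he]
      simp only
      rw [hdeg']
      exact Dvd.dvd.mul_left hχ₀ _
    have hirr' : IsIrrCharacter N (fun n : N => χ' n) :=
      res_irr_of_coprime_ab N hGN hχ' (hH ⟨χ', hχ'⟩ hq')
    have heq : (fun n : N => χ' n) = fun n : N => ((f n : ℂˣ) : ℂ) * ψ n :=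
      eq_of_classInner_ne_zero hirr' hψ' hχ'ne
    have hcf' : IsClassFunction G χ' :=
      isClassFunction_of_isCharacter (isCharacter_of_isIrrCharacter hχ')
    have h1 := congrFun heq ⟨g * n * g⁻¹, hgn⟩
    have h2 := congrFun heq n
    simp only at h1 h2
    rw [hcf' (n : G) g] at h1
    rw [h2] at h1
    have hψgn : ψ ⟨g * n * g⁻¹, hgn⟩ = ψ n := by rw [hψdef]; exact hcf (n : G) g
    rw [hψgn] at h1
    have h3 : ((f n : ℂˣ) : ℂ) = ((f ⟨g * n * g⁻¹, hgn⟩ : ℂˣ) : ℂ) := mul_right_cancel₀ hψn h1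
    apply hfx
    rw [map_mul, map_inv, ← Units.ext h3, mul_inv_cancel]
  by_contra htd
  have hres := res_irr_of_index_pow (K.subgroupOf N) t m ht hidx hψ (by rw [hdegψ]; exact htd)
  have htop := eq_top_of_vanish (K.subgroupOf N) hψ
    (fun a ha => hvan a (by rwa [Subgroup.mem_subgroupOf] at ha)) hres
  exact hne (le_antisymm hKN (Subgroup.subgroupOf_eq_top.mp htop))

/-- A nontrivial linear character of `N / K` is fixed only by the elements of `N`. -/
theorem mem_of_fix_linear [Finite G]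
    (K N : Subgroup G) [hK : K.Normal] [hN : N.Normal] (hKN : K ≤ N)
    (hGN : commutator G ≤ N)
    (hmax : ∀ L : Subgroup G, L.Normal → K ≤ L → L ≠ K → N ≤ L)
    (hC : ∀ x : G, (∀ n ∈ N, x * n * x⁻¹ * n⁻¹ ∈ K) → x ∈ N)
    (f : N →* ℂˣ) (hfK : ∀ n : N, (n : G) ∈ K → f n = 1) (x : N) (hx : f x ≠ 1)
    (g : G) (hg : ∀ n : N, f ⟨g * n * g⁻¹, hN.conj_mem (n : G) n.2 g⟩ = f n) : g ∈ N := by
  classical
  obtain ⟨lam, hlam⟩ : ∃ lam : N → ℂ, lam = fun n => ((f n : ℂˣ) : ℂ) := ⟨_, rfl⟩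
  have hlamcf : IsClassFunction N lam := by
    intro a b
    rw [hlam]
    show ((f (b * a * b⁻¹) : ℂˣ) : ℂ) = f a
    rw [map_mul, map_mul, map_inv, mul_inv_cancel_comm]
  obtain ⟨T, hT⟩ : ∃ T : Subgroup G, T = Clifford.inertia N lam := ⟨_, rfl⟩
  have hgT : g ∈ T := by
    rw [hT, mem_inertia_iff]
    intro n
    rw [hlam]
    show ((f _ : ℂˣ) : ℂ) = f n
    rw [hg n]
  have hNT : N ≤ T := by
    rw [hT]
    exact le_inertia N hlamcf
  haveI hTn : T.Normal := Subgroup.Normal.of_commutator_le G (hGN.trans hNT)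
  obtain ⟨M, hM⟩ : ∃ M : Subgroup G, M = K ⊔ ⁅T, N⁆ := ⟨_, rfl⟩
  haveI hMn : M.Normal := by
    rw [hM]
    haveI := Subgroup.commutator_normal T N
    exact Subgroup.sup_normal K ⁅T, N⁆
  have hKM : K ≤ M := by rw [hM]; exact le_sup_left
  have hMker : M ≤ f.ker.map N.subtype := by
    rw [hM]
    apply sup_le
    · intro k hk
      refine ⟨⟨k, hKN hk⟩, ?_, rfl⟩
      rw [SetLike.mem_coe, MonoidHom.mem_ker]
      exact hfK _ hk
    · rw [Subgroup.commutator_le]
      intro g' hg' n hn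
      have hgn : g' * n * g'⁻¹ ∈ N := hN.conj_mem n hn g'
      refine ⟨⟨g' * n * g'⁻¹, hgn⟩ * (⟨n, hn⟩ : N)⁻¹, ?_, ?_⟩
      · rw [SetLike.mem_coe, MonoidHom.mem_ker, map_mul, map_inv]
        have h1 : lam ⟨g' * n * g'⁻¹, hgn⟩ = lam ⟨n, hn⟩ := by
          rw [hT] at hg'
          exact (mem_inertia_iff N).mp hg' ⟨n, hn⟩
        have h2 : f ⟨g' * n * g'⁻¹, hgn⟩ = f ⟨n, hn⟩ := by
          rw [hlam] at h1
          exact Units.ext h1
        rw [h2, mul_inv_cancel]
      · simp [commutatorElement_def]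
  have hxM : (x : G) ∉ M := by
    intro hxM
    obtain ⟨y, hy, hyx⟩ := hMker hxM
    have hyx' : y = x := Subtype.ext hyx
    rw [hyx', SetLike.mem_coe, MonoidHom.mem_ker] at hy
    exact hx hy
  have hMK : M = K := by
    by_contra hMK
    exact hxM (hmax M hMn hKM hMK x.2)
  apply hC
  intro n hn
  rw [← hMK, hM]
  apply (le_sup_right : ⁅T, N⁆ ≤ K ⊔ ⁅T, N⁆)
  have := Subgroup.commutator_mem_commutator hgT hn
  rwa [commutatorElement_def] at this

/-- In the Frobenius-type case, a nonlinear irreducible character with `K` in its kernel has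
degree `[G : N]`. -/
theorem degree_eq_index [Finite G]
    (K N : Subgroup G) [hK : K.Normal] [hN : N.Normal] (hKN : K ≤ N)
    (hGN : commutator G ≤ N)
    (hmax : ∀ L : Subgroup G, L.Normal → K ≤ L → L ≠ K → N ≤ L)
    (hab : ∀ a ∈ N, ∀ b ∈ N, a * b * a⁻¹ * b⁻¹ ∈ K)
    (hC : ∀ x : G, (∀ n ∈ N, x * n * x⁻¹ * n⁻¹ ∈ K) → x ∈ N)
    (β : IrrCharacter G) (hβ1 : charDegree β.1 ≠ 1) (hβK : K ≤ H82.irrKer β) :
    charDegree β.1 = N.index := by
  classical
  haveI : Fintype G := Fintype.ofFinite G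
  haveI : Fintype N := Fintype.ofFinite N
  obtain ⟨lam, hlam, hne⟩ := H82.exists_constituent_res' N β.2
  have hker : ∀ k : N, (k : G) ∈ K → lam k = lam 1 := fun k hk =>
    constituent_mem_ker N β ⟨lam, hlam⟩ hne k ((H82.mem_irrKer β k).mp (hβK hk))
  have hlin : charDegree lam = 1 := by
    apply H16.linear_of_commutator_le_irrKer ⟨lam, hlam⟩
    rw [commutator_def, Subgroup.commutator_le]
    intro a _ b _
    rw [H82.mem_irrKer]
    apply hker
    rw [commutatorElement_def]
    simpa using hab a a.2 b b.2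
  have hlam1 : lam 1 = 1 := by
    have := H82.irr_one_eq_charDegree ⟨lam, hlam⟩
    simp only at this
    rw [this, hlin]
    simp
  obtain ⟨f, hf⟩ : ∃ f : N →* ℂˣ, ∀ n : N, ((f n : ℂˣ) : ℂ) = lam n :=
    ⟨H82.irrLinearHom ⟨lam, hlam⟩ hlam1, fun n => rfl⟩
  have hnt : ∃ x : N, lam x ≠ 1 := by
    by_contra hall
    push Not at hall
    have hl1 : lam = (1 : N → ℂ) := funext hall
    have hconst := H82.const_of_over_one N β.2 (by rw [← hl1]; exact hne)
    have : commutator G ≤ H82.irrKer β := fun x hx =>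
      (H82.mem_irrKer β x).mpr (hconst ⟨x, hGN hx⟩)
    exact hβ1 (H16.linear_of_commutator_le_irrKer β this)
  obtain ⟨x, hx⟩ := hnt
  have hT : N = Clifford.inertia N lam := by
    apply le_antisymm
      (le_inertia N (isClassFunction_of_isCharacter (isCharacter_of_isIrrCharacter hlam)))
    intro g hg
    refine mem_of_fix_linear K N hKN hGN hmax hC f ?_ x ?_ g ?_
    · intro n hn
      apply Units.ext
      rw [hf, hker n hn, hlam1]
      rfl
    · intro h
      apply hx
      rw [← hf, h]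
      rfl
    · intro n
      apply Units.ext
      rw [hf, hf]
      exact (mem_inertia_iff N).mp hg n
  have h1' : classInner (fun n : N => lam ⟨n, (le_refl N) n.2⟩) lam ≠ 0 := by
    have : (fun n : N => lam ⟨n, (le_refl N) n.2⟩) = lam := rfl
    rw [this, classInner_irr_irr hlam hlam, if_pos rfl]
    exact one_ne_zero
  obtain ⟨hind, -⟩ := clifford_corr_irr hlam (le_refl N) hT hlam h1'
  have hne' : classInner (indFun N lam) β.1 ≠ 0 := by
    rw [frobenius_reciprocity N lam β.1 (irr_isClassFunction β)]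
    intro h0
    apply hne
    rw [← classInner_conj_symm, h0, map_zero]
  have heq : indFun N lam = β.1 := eq_of_classInner_ne_zero hind β.2 hne'
  apply charDegree_of_natCast
  rw [← heq, H82.indFun_one, hlam1, mul_one]

end MainA

section Twist

/-- Gallagher injectivity: twisting a character that restricts irreducibly to `L` by linear
characters of `H / L` is injective. -/
theorem twist_injective {H : Type u} [Group H] [Finite H] (L : Subgroup H) [hL : L.Normal]
    {ϑ : H → ℂ} (hϑ : IsIrrCharacter H ϑ) (hres : IsIrrCharacter L (fun k : L => ϑ k))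
    (α α' : H →* ℂˣ) (hα : ∀ k ∈ L, α k = 1) (hα' : ∀ k ∈ L, α' k = 1)
    (h : ∀ x : H, ((α x : ℂˣ) : ℂ) * ϑ x = ((α' x : ℂˣ) : ℂ) * ϑ x) : α = α' := by
  classical
  haveI : Fintype H := Fintype.ofFinite H
  haveI : Fintype L := Fintype.ofFinite L
  have hϑcf := isClassFunction_of_isCharacter (isCharacter_of_isIrrCharacter hϑ)
  have hone : IsIrrCharacter L (fun _ : L => (1 : ℂ)) := Cfsg.Agent.H83.isIrrCharacter_one L
  have hprod : IsIrrCharacter L ((fun _ : L => (1 : ℂ)) * (fun k : L => ϑ k)) := by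
    have e : ((fun _ : L => (1 : ℂ)) * (fun k : L => ϑ k)) = fun k : L => ϑ k := by
      funext k
      simp
    rw [e]
    exact hres
  obtain ⟨-, h2, -⟩ := gallagher L hone hres (fun g => rfl) (fun g => conjChar_res L hϑcf g) hprod
    (isCharacter_of_isIrrCharacter hϑ) (fun n => rfl)
  have hov : ∀ γ : H →* ℂˣ, (∀ k ∈ L, γ k = 1) →
      classInner (indFun L (fun _ : L => (1 : ℂ))) (H82.linChar γ).1 ≠ 0 := by
    intro γ hγ
    rw [frobenius_reciprocity L _ _ (irr_isClassFunction (H82.linChar γ))]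
    have e : (fun k : L => (H82.linChar γ).1 k) = fun _ : L => (1 : ℂ) := by
      funext k
      rw [H82.linChar_apply, hγ k k.2]
      rfl
    rw [e, classInner_irr_irr hone hone, if_pos rfl]
    exact one_ne_zero
  have h3 := h2 (H82.linChar α).1 (H82.linChar α').1 (H82.linChar α).2 (hov α hα)
    (H82.linChar α').2 (hov α' hα') (by
      funext x
      show (H82.linChar α).1 x * ϑ x = (H82.linChar α').1 x * ϑ x
      rw [H82.linChar_apply, H82.linChar_apply]
      exact h x)
  apply MonoidHom.ext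
  intro x
  apply Units.ext
  have h4 := congrFun h3 x
  rw [H82.linChar_apply, H82.linChar_apply] at h4
  exact h4

theorem comm_aux {A : Type*} [CommGroup A] {a b a' b' : A} (e : a * b⁻¹ = a' * b'⁻¹) :
    b * b'⁻¹ = a * a'⁻¹ := by
  have h1 : a = a' * b'⁻¹ * b := mul_inv_eq_iff_eq_mul.mp e
  rw [h1, mul_comm (a' * b'⁻¹) b, mul_comm a' b'⁻¹, ← mul_assoc, mul_inv_cancel_right]

variable {G : Type u} [Group G]

/-- The conjugate of a linear character of a normal subgroup. -/
noncomputable def cjHom (N : Subgroup G) [hN : N.Normal] (g : G) (μ : N →* ℂˣ) : N →* ℂˣ :=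
  μ.comp (MulAut.conjNormal g : N ≃* N).toMonoidHom

theorem cjHom_apply (N : Subgroup G) [hN : N.Normal] (g : G) (μ : N →* ℂˣ) (n : N) :
    cjHom N g μ n = μ ⟨g * n * g⁻¹, hN.conj_mem (n : G) n.2 g⟩ := by
  show μ (MulAut.conjNormal g n) = _
  congr 1

/-- A character of `N` restricting irreducibly to `K` has a twist by a linear character of
`N / K` whose inertia group is `N`. -/
theorem exists_twist_inertia [Finite G] (K N : Subgroup G) [hK : K.Normal] [hN : N.Normal]
    (hKN : K ≤ N) (hne : K ≠ N) (hGN : commutator G ≤ N)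
    (hmax : ∀ L : Subgroup G, L.Normal → K ≤ L → L ≠ K → N ≤ L)
    (hab : ∀ a ∈ N, ∀ b ∈ N, a * b * a⁻¹ * b⁻¹ ∈ K)
    (hC : ∀ x : G, (∀ n ∈ N, x * n * x⁻¹ * n⁻¹ ∈ K) → x ∈ N)
    {ϑ : N → ℂ} (hϑ : IsIrrCharacter N ϑ)
    (hres : IsIrrCharacter (K.subgroupOf N) (fun k : K.subgroupOf N => ϑ k)) :
    ∃ μ : N →* ℂˣ, (∀ n : N, (n : G) ∈ K → μ n = 1) ∧
      Clifford.inertia N (fun n : N => ((μ n : ℂˣ) : ℂ) * ϑ n) ≤ N := by
  classical
  by_contra hcon
  push Not at hcon
  have key : ∀ μ : {μ : N →* ℂˣ // ∀ n : N, (n : G) ∈ K → μ n = 1},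
      ∃ g : G, g ∈ Clifford.inertia N (fun n : N => ((μ.1 n : ℂˣ) : ℂ) * ϑ n) ∧ g ∉ N := by
    intro μ
    exact SetLike.not_le_iff_exists.mp (hcon μ.1 μ.2)
  choose X hXT hXN using key
  obtain ⟨x₀, hx₀N, hx₀K⟩ : ∃ x, x ∈ N ∧ x ∉ K := by
    by_contra h
    push Not at h
    exact hne (le_antisymm hKN (fun x hx => h x hx))
  obtain ⟨μ₀, hμ₀K, hμ₀x⟩ := exists_hom_sep (K.subgroupOf N)
    (fun a b => by
      rw [Subgroup.mem_subgroupOf]
      simpa using hab a a.2 b b.2)
    (x := (⟨x₀, hx₀N⟩ : N)) (by rw [Subgroup.mem_subgroupOf]; exact hx₀K)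
  have hμ₀K' : ∀ n : N, (n : G) ∈ K → μ₀ n = 1 := fun n hn =>
    hμ₀K n (Subgroup.mem_subgroupOf.mpr hn)
  have hcjK : ∀ (g : G) (μ : N →* ℂˣ), (∀ n : N, (n : G) ∈ K → μ n = 1) →
      ∀ n : N, (n : G) ∈ K → cjHom N g μ n = 1 := by
    intro g μ hμ n hn
    rw [cjHom_apply]
    exact hμ _ (hK.conj_mem n hn g)
  obtain ⟨Ω, hΩ⟩ : ∃ Ω : G ⧸ N → {μ : N →* ℂˣ // ∀ n : N, (n : G) ∈ K → μ n = 1},
      ∀ q, (Ω q).1 = cjHom N q.out μ₀ :=
    ⟨fun q => ⟨cjHom N q.out μ₀, hcjK q.out μ₀ hμ₀K'⟩, fun _ => rfl⟩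
  obtain ⟨Θ, hΘ⟩ : ∃ Θ : G ⧸ N → G ⧸ N, ∀ q, Θ q = (X (Ω q) : G ⧸ N) := ⟨_, fun _ => rfl⟩
  have hcf : ∀ μ : N →* ℂˣ, IsClassFunction N (fun n : N => ((μ n : ℂˣ) : ℂ) * ϑ n) := fun μ =>
    isClassFunction_of_isCharacter (isCharacter_of_isIrrCharacter (isIrrCharacter_hom_mul μ hϑ))
  have key2 : ∀ (μ : N →* ℂˣ) (a b : N), (a : G) = b → μ a = μ b := fun μ a b h => by
    rw [Subtype.ext h]
  have hinj : Function.Injective Θ := by
    intro q q' hqq
    rw [hΘ, hΘ] at hqq
    have hrel : (X (Ω q))⁻¹ * X (Ω q') ∈ N := QuotientGroup.eq.mp hqq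
    obtain ⟨x', hx'⟩ : ∃ x', x' = X (Ω q') := ⟨_, rfl⟩
    obtain ⟨ν, hν⟩ : ∃ ν : N →* ℂˣ, ν = (Ω q).1 := ⟨_, rfl⟩
    obtain ⟨ν', hν'⟩ : ∃ ν' : N →* ℂˣ, ν' = (Ω q').1 := ⟨_, rfl⟩
    have hνK : ∀ n : N, (n : G) ∈ K → ν n = 1 := by rw [hν]; exact (Ω q).2
    have hν'K : ∀ n : N, (n : G) ∈ K → ν' n = 1 := by rw [hν']; exact (Ω q').2
    have h1 : x' ∈ Clifford.inertia N (fun n : N => ((ν n : ℂˣ) : ℂ) * ϑ n) := by
      have hx : X (Ω q) ∈ Clifford.inertia N (fun n : N => ((ν n : ℂˣ) : ℂ) * ϑ n) := by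
        rw [hν]; exact hXT (Ω q)
      have := Subgroup.mul_mem _ hx (le_inertia N (hcf ν) hrel)
      rwa [mul_inv_cancel_left, ← hx'] at this
    have h2 : x' ∈ Clifford.inertia N (fun n : N => ((ν' n : ℂˣ) : ℂ) * ϑ n) := by
      rw [hν', hx']; exact hXT (Ω q')
    have hx'N : x' ∉ N := by rw [hx']; exact hXN (Ω q')
    rw [mem_inertia_iff] at h1 h2
    have hc : ∀ (μ : N →* ℂˣ), (∀ n : N, ((μ ⟨x' * n * x'⁻¹, hN.conj_mem (n : G) n.2 x'⟩ : ℂˣ) : ℂ) *
        ϑ ⟨x' * n * x'⁻¹, hN.conj_mem (n : G) n.2 x'⟩ = ((μ n : ℂˣ) : ℂ) * ϑ n) → ∀ n : N,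
        ((μ n * (cjHom N x' μ n)⁻¹ : ℂˣ) : ℂ) * ϑ n =
          ϑ ⟨x' * n * x'⁻¹, hN.conj_mem (n : G) n.2 x'⟩ := by
      intro μ hμ n
      rw [cjHom_apply, Units.val_mul, Units.val_inv_eq_inv_val, mul_comm ((μ n : ℂˣ) : ℂ),
        mul_assoc, ← hμ n, ← mul_assoc, inv_mul_cancel₀ (Units.ne_zero _), one_mul]
    have hαK : ∀ (μ : N →* ℂˣ), (∀ n : N, (n : G) ∈ K → μ n = 1) →
        ∀ k ∈ K.subgroupOf N, (μ * (cjHom N x' μ)⁻¹) k = 1 := by
      intro μ hμ k hk
      rw [MonoidHom.mul_apply, MonoidHom.inv_apply, hμ k (Subgroup.mem_subgroupOf.mp hk),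
        hcjK x' μ hμ k (Subgroup.mem_subgroupOf.mp hk)]
      simp
    have heq := twist_injective (K.subgroupOf N) hϑ hres (ν * (cjHom N x' ν)⁻¹)
      (ν' * (cjHom N x' ν')⁻¹) (hαK ν hνK) (hαK ν' hν'K) (fun n => by
        rw [MonoidHom.mul_apply, MonoidHom.inv_apply, MonoidHom.mul_apply, MonoidHom.inv_apply]
        exact (hc ν h1 n).trans (hc ν' h2 n).symm)
    have hκ : ∀ n : N, (ν * ν'⁻¹) ⟨x' * n * x'⁻¹, hN.conj_mem (n : G) n.2 x'⟩ = (ν * ν'⁻¹) n := by
      intro n
      have e := DFunLike.congr_fun heq n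
      rw [MonoidHom.mul_apply, MonoidHom.inv_apply, MonoidHom.mul_apply, MonoidHom.inv_apply,
        cjHom_apply, cjHom_apply] at e
      rw [MonoidHom.mul_apply, MonoidHom.inv_apply, MonoidHom.mul_apply, MonoidHom.inv_apply]
      exact comm_aux e
    have hνeq : ∀ y : N, ν y = ν' y := by
      by_contra hh
      push Not at hh
      obtain ⟨y, hy⟩ := hh
      apply hx'N
      refine mem_of_fix_linear K N hKN hGN hmax hC (ν * ν'⁻¹) ?_ y ?_ x' hκ
      · intro n hn
        rw [MonoidHom.mul_apply, MonoidHom.inv_apply, hνK n hn, hν'K n hn]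
        simp
      · intro h
        apply hy
        rw [MonoidHom.mul_apply, MonoidHom.inv_apply, mul_inv_eq_one] at h
        exact h
    have hfix : ∀ n : N, μ₀ ⟨(q'.out * q.out⁻¹) * n * (q'.out * q.out⁻¹)⁻¹,
        hN.conj_mem (n : G) n.2 (q'.out * q.out⁻¹)⟩ = μ₀ n := by
      intro n
      have e := hνeq ⟨q.out⁻¹ * n * q.out⁻¹⁻¹, hN.conj_mem (n : G) n.2 q.out⁻¹⟩
      rw [hν, hν', hΩ, hΩ, cjHom_apply, cjHom_apply] at e
      calc μ₀ ⟨(q'.out * q.out⁻¹) * n * (q'.out * q.out⁻¹)⁻¹,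
            hN.conj_mem (n : G) n.2 (q'.out * q.out⁻¹)⟩
          = μ₀ ⟨q'.out * (q.out⁻¹ * n * q.out⁻¹⁻¹) * q'.out⁻¹, hN.conj_mem _
              (hN.conj_mem (n : G) n.2 q.out⁻¹) q'.out⟩ := key2 μ₀ _ _ (by
            show q'.out * q.out⁻¹ * (n : G) * (q'.out * q.out⁻¹)⁻¹ =
              q'.out * (q.out⁻¹ * (n : G) * q.out⁻¹⁻¹) * q'.out⁻¹
            group)
        _ = μ₀ ⟨q.out * (q.out⁻¹ * n * q.out⁻¹⁻¹) * q.out⁻¹, hN.conj_mem _
              (hN.conj_mem (n : G) n.2 q.out⁻¹) q.out⟩ := e.symm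
        _ = μ₀ n := key2 μ₀ _ _ (by
            show q.out * (q.out⁻¹ * (n : G) * q.out⁻¹⁻¹) * q.out⁻¹ = n
            group)
    have hmem : q'.out * q.out⁻¹ ∈ N :=
      mem_of_fix_linear K N hKN hGN hmax hC μ₀ hμ₀K' ⟨x₀, hx₀N⟩ hμ₀x _ hfix
    calc q = ((q.out : G) : G ⧸ N) := (QuotientGroup.out_eq' q).symm
      _ = ((q'.out : G) : G ⧸ N) := QuotientGroup.eq.mpr (hN.mem_comm hmem)
      _ = q' := QuotientGroup.out_eq' q'
  obtain ⟨q, hq⟩ := (Finite.injective_iff_surjective.mp hinj) 1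
  rw [hΘ] at hq
  exact hXN (Ω q) ((QuotientGroup.eq_one_iff _).mp hq)

end Twist

end Cfsg.Agent.H83
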