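import Mathlib
import Cfsg.Prelude.Def_Transfer

/-!
# S3084 team project (helper83): definitions and piece statements

An extension `2^{1+2n}_+ . K` for every `K ≤ O^+_{2n}(2)`: the group `R` is the set of invertible
`2^n × 2^n` matrices over `ZMod 3` normalizing the Pauli group `{± X(a) Z(b)}` and inducing an element
of `K` on it.  Index set `Idx n = Fin n → ZMod 2`; `X a` = translation by `a`, `Z b` = diagonal
matrix of the character `i ↦ (-1)^(b·i)`, `P (a, b) = X a * Z b`.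
-/

set_option autoImplicit false
open scoped MatrixGroups

namespace Cfsg.Agent.H83.ES

open Matrix

universe u v

/-- The index set `F_2^n`. -/
abbrev Idx (n : ℕ) : Type := Fin n → ZMod 2

/-- The standard dot product on `F_2^n`. -/
def dot {n : ℕ} (a b : Idx n) : ZMod 2 := ∑ i, a i * b i

/-- `(-1)^t` in `ZMod 3`. -/
def sgn (t : ZMod 2) : ZMod 3 := if t = 0 then 1 else -1

/-- The standard plus-type quadratic form on `F_2^n × F_2^n`. -/
def q0 {n : ℕ} (u : Idx n × Idx n) : ZMod 2 := dot u.1 u.2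

/-- Its polar form. -/
def b0 {n : ℕ} (u v : Idx n × Idx n) : ZMod 2 := dot u.1 v.2 + dot u.2 v.1

/-- Translation by `a` (a permutation matrix): `X a *ᵥ δ_j = δ_(j + a)`. -/
def X {n : ℕ} (a : Idx n) : Matrix (Idx n) (Idx n) (ZMod 3) :=
  Matrix.of (fun i j => if i = j + a then 1 else 0)

/-- The diagonal matrix of the character `i ↦ (-1)^(b·i)`. -/
def Z {n : ℕ} (b : Idx n) : Matrix (Idx n) (Idx n) (ZMod 3) :=
  Matrix.diagonal (fun i => sgn (dot b i))

/-- The Pauli matrices. -/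
def P {n : ℕ} (u : Idx n × Idx n) : Matrix (Idx n) (Idx n) (ZMod 3) := X u.1 * Z u.2

/-! ## Pauli side -/

/-- ES-PB: the basic relations. -/
def StPB : Prop :=
  ∀ (n : ℕ),
    (P (0 : Idx n × Idx n) = 1) ∧
    (∀ u v : Idx n × Idx n, P u * P v = sgn (dot u.2 v.1) • P (u + v)) ∧
    (∀ u : Idx n × Idx n, P u * P u = sgn (q0 u) • (1 : Matrix (Idx n) (Idx n) (ZMod 3))) ∧
    (∀ u v : Idx n × Idx n, P u * P v = sgn (b0 u v) • (P v * P u)) ∧
    (∀ i : Fin n, P ((Pi.single i 1, 0) : Idx n × Idx n) = X (Pi.single i 1) ∧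
      P ((0, Pi.single i 1) : Idx n × Idx n) = Z (Pi.single i 1)) ∧
    (∀ u v : Idx n × Idx n, b0 u v = q0 (u + v) + q0 u + q0 v) ∧
    (∀ s t : ZMod 2, sgn (s + t) = sgn s * sgn t) ∧
    (∀ u : Idx n × Idx n, (∀ v, b0 u v = 0) → u = 0)

/-- ES-PINJ: the Pauli matrices are pairwise non-proportional. -/
def StPInj : Prop :=
  ∀ (n : ℕ) (u v : Idx n × Idx n) (ε : ZMod 3), P u = ε • P v → u = v ∧ ε = 1

/-- ES-COMM: only the scalars commute with all Pauli matrices. -/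
def StComm : Prop :=
  ∀ (n : ℕ) (M : Matrix (Idx n) (Idx n) (ZMod 3)),
    (∀ u : Idx n × Idx n, M * P u = P u * M) →
    ∃ c : ZMod 3, M = c • (1 : Matrix (Idx n) (Idx n) (ZMod 3))

/-- ES-SVNCORE (Stone–von Neumann): `2n` involutions with the Pauli commutation relations are
simultaneously conjugate to the standard ones. -/
def StSvNCore : Prop :=
  ∀ (n : ℕ) (x z : Fin n → Matrix (Idx n) (Idx n) (ZMod 3)),
    (∀ i, x i * x i = 1) → (∀ i, z i * z i = 1) → (∀ i j, x i * x j = x j * x i) →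
    (∀ i j, z i * z j = z j * z i) →
    (∀ i j, z j * x i = (if i = j then (-1 : ZMod 3) else 1) • (x i * z j)) →
    ∃ M : Matrix (Idx n) (Idx n) (ZMod 3), IsUnit M.det ∧
      (∀ i, M * X (Pi.single i 1) = x i * M) ∧ (∀ i, M * Z (Pi.single i 1) = z i * M)

/-- ES-SVN: every isometry of the standard form lifts to a matrix normalizing the Pauli group. -/
def StSvN : Prop :=
  ∀ (n : ℕ) (g : Module.End (ZMod 2) (Idx n × Idx n)), (∀ u, q0 (g u) = q0 u) →
    ∃ M : Matrix (Idx n) (Idx n) (ZMod 3), IsUnit M.det ∧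
      ∀ u, ∃ ε : ZMod 3, (ε = 1 ∨ ε = -1) ∧ M * P u = ε • (P (g u) * M)

/-- ES-KER: a matrix normalizing every `± P u` is itself `± P v`. -/
def StKer : Prop :=
  ∀ (n : ℕ) (M : Matrix (Idx n) (Idx n) (ZMod 3)), IsUnit M.det →
    (∀ u : Idx n × Idx n, ∃ ε : ZMod 3, (ε = 1 ∨ ε = -1) ∧ M * P u = ε • (P u * M)) →
    ∃ (v : Idx n × Idx n) (δ : ZMod 3), (δ = 1 ∨ δ = -1) ∧ M = δ • P v

/-! ## Abstract side -/

/-- ES-EXTRA: recognition of extraspecial 2-groups. -/
def StExtra : Prop :=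
  ∀ (Q : Type) [Group Q] [Finite Q] (n : ℕ), 1 ≤ n → Nat.card Q = 2 ^ (2 * n + 1) →
    Nat.card (Subgroup.center Q) = 2 → (∀ a b : Q, a * b * a⁻¹ * b⁻¹ ∈ Subgroup.center Q) →
    (∀ a : Q, a * a ∈ Subgroup.center Q) → Cfsg.IsExtraspecial 2 Q

/-- ES-HYP: a nonsingular quadratic form of plus type over `F_2` is the standard one. -/
def StHyp : Prop :=
  ∀ (U : Type u) [AddCommGroup U] [Module (ZMod 2) U] [Module.Finite (ZMod 2) U] (n : ℕ)
    (q : QuadraticForm (ZMod 2) U), Module.finrank (ZMod 2) U = 2 * n →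
    (QuadraticMap.polarBilin q).Nondegenerate →
    (∃ W : Submodule (ZMod 2) U, Module.finrank (ZMod 2) ↥W = n ∧ ∀ w ∈ W, q w = 0) →
    ∃ ι : U ≃ₗ[ZMod 2] (Idx n × Idx n), ∀ u, q0 (ι u) = q u

/-- The core construction (helper83): the statement for the standard form. -/
def StCore : Prop :=
  ∀ (K : Type v) [Group K] (n : ℕ), 1 ≤ n →
    ∀ (γ : K →* Module.End (ZMod 2) (Idx n × Idx n)), Function.Injective γ →
      (∀ k u, q0 (γ k u) = q0 u) →
      ∃ (R : Type) (_ : Group R) (_ : Finite R) (Q : Subgroup R) (hN : Q.Normal) (e : R ⧸ Q ≃* K)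
        (χ : ↥Q →* Multiplicative (Idx n × Idx n)),
        Cfsg.IsExtraspecial 2 ↥Q ∧ Nat.card ↥Q = 2 ^ (2 * n + 1) ∧ Function.Surjective χ ∧
        χ.ker = Subgroup.center ↥Q ∧
        (∀ (r : R) (a : ↥Q), χ ⟨r * a * r⁻¹, hN.conj_mem (a : R) a.2 r⟩ =
          Multiplicative.ofAdd (γ (e (r : R ⧸ Q)) (Multiplicative.toAdd (χ a)))) ∧
        ∀ a : ↥Q, a * a = 1 ↔ q0 (Multiplicative.toAdd (χ a)) = 0

end Cfsg.Agent.H83.ES
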