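import Mathlib
import Cfsg.Agent.H83.AbIdxDefs
import Cfsg.Agent.H16.GCChar

/-!
# S4463-ACENTER (helper83)

For a `t`-group quotient `G / K` in which `N / K` is the unique minimal normal subgroup: a
nonlinear irreducible character `β` over `K` vanishes off its centre `Z`, of index `β(1)^2`.
-/

set_option autoImplicit false
set_option linter.style.haveILetI false

namespace Cfsg.Agent.H83.AbIdx

open Cfsg

universe u

theorem aCenter : StmtACenter.{u} := by
  intro G _ _ K N _ _ t k ht hKN hne hGN hGK hmax hk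
  classical
  haveI : Fact t.Prime := ⟨ht⟩
  -- the quotient is a nontrivial `t`-group
  have hcard : Nat.card (G ⧸ K) = t ^ k := by rw [← Subgroup.index_eq_card]; exact hk
  have hp : IsPGroup t (G ⧸ K) := IsPGroup.of_card hcard
  have hKtop : K ≠ ⊤ := by
    intro h
    apply hne
    rw [h] at hKN ⊢
    exact (top_le_iff.mp hKN).symm
  haveI : Nontrivial (G ⧸ K) := by
    rw [← Finite.one_lt_card_iff_nontrivial, ← Subgroup.index_eq_card]
    have h1 : K.index ≠ 1 := fun h => hKtop (Subgroup.index_eq_one.mp h)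
    have h0 : K.index ≠ 0 := Subgroup.index_ne_zero_of_finite
    omega
  haveI := hp.center_nontrivial
  obtain ⟨⟨zq, hzq⟩, hz1⟩ := exists_ne (1 : Subgroup.center (G ⧸ K))
  obtain ⟨z, rfl⟩ := QuotientGroup.mk_surjective zq
  have hzK : z ∉ K := by
    intro h
    apply hz1
    apply Subtype.ext
    exact (QuotientGroup.eq_one_iff z).mpr h
  -- the preimage of the centre contains `N`
  have hNZ : N ≤ (Subgroup.center (G ⧸ K)).comap (QuotientGroup.mk' K) := by
    apply hmax _ inferInstance
    · intro x hx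
      rw [Subgroup.mem_comap]
      have : (QuotientGroup.mk' K) x = 1 := (QuotientGroup.eq_one_iff x).mpr hx
      rw [this]
      exact Subgroup.one_mem _
    · intro h
      apply hzK
      rw [← h, Subgroup.mem_comap]
      exact hzq
  have hcen : ∀ n ∈ N, ∀ g : G, n * g * n⁻¹ * g⁻¹ ∈ K := by
    intro n hn g
    have h1 := hNZ hn
    rw [Subgroup.mem_comap, Subgroup.mem_center_iff] at h1
    have h2 := h1 (QuotientGroup.mk' K g)
    have h3 : (QuotientGroup.mk' K) (n * g * n⁻¹ * g⁻¹) = 1 := by
      rw [map_mul, map_mul, map_mul, map_inv, map_inv]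
      exact (Cfsg.Agent.H16.comm_form_eq_one_iff _ _).mpr h2.symm
    exact (QuotientGroup.eq_one_iff _).mp h3
  obtain ⟨β, hβ1, hβK⟩ := Cfsg.Agent.H16.exists_nonlinear_of_not_le K hGK
  have hc : commutator G ≤ Cfsg.Agent.H16.irrCen β := by
    intro x hx
    rw [Cfsg.Agent.H16.mem_irrCen]
    intro g
    exact hβK (hcen x (hGN hx) g)
  refine ⟨Cfsg.Agent.H16.irrCen β, β, ?_, ?_, ?_⟩
  · have := Cfsg.Agent.H82.charDegree_pos β
    omega
  · intro g hg
    exact Cfsg.Agent.H16.irr_vanish_off_irrCen β hc hg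
  · exact (Cfsg.Agent.H16.sq_eq_index_irrCen β hc).symm

end Cfsg.Agent.H83.AbIdx
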