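import Mathlib
import Cfsg.Agent.H83.AbIdxDefs
import Cfsg.Agent.H83.ThreeDegA
import Cfsg.Agent.H16.GCChar

/-!
# S4463-BINDEX and S4463-BTWO (helper83, backup copies)

* `bIndexH83 : StmtBIndex`: in the Frobenius-type quotient, `2 ≤ [G : N] ≤ b`.
* `bTwoH83 : StmtBTwo`: a Frobenius-type quotient is not a `2`-group.
-/

set_option autoImplicit false
set_option linter.style.haveILetI false

namespace Cfsg.Agent.H83.AbIdx

open Cfsg

universe u

theorem bIndexH83 : StmtBIndex.{u} := by
  intro G _ _ K N _ _ b hKN hGN hGK hmax hab hC hb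
  obtain ⟨β, hβ1, hβK⟩ := Cfsg.Agent.H16.exists_nonlinear_of_not_le K hGK
  have hdeg := Cfsg.Agent.H83.degree_eq_index K N hKN hGN hmax hab hC β hβ1 hβK
  have hpos := Cfsg.Agent.H82.charDegree_pos β
  have hle := hb β
  constructor <;> omega

/-- In a prime-power quotient `G / K` whose nontrivial normal subgroups all contain `N / K`, the
subgroup `N / K` is central. -/
theorem central_of_index_pow {G : Type u} [Group G] [Finite G] (K N : Subgroup G) [K.Normal]
    [N.Normal] (t k : ℕ) (ht : t.Prime) (hKN : K ≤ N) (hne : K ≠ N)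
    (hmax : ∀ L : Subgroup G, L.Normal → K ≤ L → L ≠ K → N ≤ L) (hk : K.index = t ^ k) :
    ∀ n ∈ N, ∀ g : G, n * g * n⁻¹ * g⁻¹ ∈ K := by
  classical
  haveI : Fact t.Prime := ⟨ht⟩
  have hcard : Nat.card (G ⧸ K) = t ^ k := by rw [← Subgroup.index_eq_card]; exact hk
  have hp : IsPGroup t (G ⧸ K) := IsPGroup.of_card hcard
  have hKtop : K ≠ ⊤ := by
    intro h
    apply hne
    rw [h] at hKN ⊢
    exact (top_le_iff.mp hKN).symm
  haveI : Nontrivial (G ⧸ K) := by
    rw [← Finite.one_lt_card_iff_nontrivial, ← Subgroup.index_eq_card]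
    have h1 : K.index ≠ 1 := fun h => hKtop (Subgroup.index_eq_one.mp h)
    have h0 : K.index ≠ 0 := Subgroup.index_ne_zero_of_finite
    omega
  haveI := hp.center_nontrivial
  obtain ⟨⟨zq, hzq⟩, hz1⟩ := exists_ne (1 : Subgroup.center (G ⧸ K))
  obtain ⟨z, rfl⟩ := QuotientGroup.mk_surjective zq
  have hzK : z ∉ K := by
    intro h
    apply hz1
    apply Subtype.ext
    exact (QuotientGroup.eq_one_iff z).mpr h
  have hNZ : N ≤ (Subgroup.center (G ⧸ K)).comap (QuotientGroup.mk' K) := by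
    apply hmax _ inferInstance
    · intro x hx
      rw [Subgroup.mem_comap]
      have : (QuotientGroup.mk' K) x = 1 := (QuotientGroup.eq_one_iff x).mpr hx
      rw [this]
      exact Subgroup.one_mem _
    · intro h
      apply hzK
      rw [← h, Subgroup.mem_comap]
      exact hzq
  intro n hn g
  have h1 := hNZ hn
  rw [Subgroup.mem_comap, Subgroup.mem_center_iff] at h1
  have h2 := h1 (QuotientGroup.mk' K g)
  have h3 : (QuotientGroup.mk' K) (n * g * n⁻¹ * g⁻¹) = 1 := by
    rw [map_mul, map_mul, map_mul, map_inv, map_inv]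
    exact (Cfsg.Agent.H16.comm_form_eq_one_iff _ _).mpr h2.symm
  exact (QuotientGroup.eq_one_iff _).mp h3

theorem bTwoH83 : StmtBTwo.{u} := by
  intro G _ _ K N _ _ m hKN hne hmax hZ hN2 hrel
  have hidx : K.index = 2 ^ (m + 1) := by
    rw [← Subgroup.relIndex_mul_index hKN, hrel, hN2, pow_succ]
  have hcen := central_of_index_pow K N 2 (m + 1) Nat.prime_two hKN hne hmax hidx
  apply hne
  apply le_antisymm hKN
  intro n hn
  apply hZ n hn
  intro g
  have h1 := hcen n hn g
  have h2 : g * n * g⁻¹ * n⁻¹ = (n * g * n⁻¹ * g⁻¹)⁻¹ := by group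
  rw [h2]
  exact K.inv_mem h1

end Cfsg.Agent.H83.AbIdx
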