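import Mathlib
import Cfsg.Agent.H83.AbIdxDefs
import Cfsg.Agent.H83.ThreeDegA

/-!
# S4463: the top-level induction (helper83)

From the three case statements `StmtCaseA`, `StmtCaseB`, `StmtNonSolv`: a finite group whose
irreducible character degrees are all at most `b` has an abelian subgroup of index at most
`(b!)^2`.
-/

set_option autoImplicit false
set_option linter.style.haveILetI false

namespace Cfsg.Agent.H83.AbIdx

open Cfsg
open scoped commutatorElement

universe u

/-- A nonabelian group reduces. -/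
theorem reduces_of_not_comm (hA : StmtCaseA.{u}) (hB : StmtCaseB.{u}) (hN : StmtNonSolv.{u})
    (G : Type u) [Group G] [Finite G] (b : ℕ) (hb : ∀ χ : IrrCharacter G, charDegree χ.1 ≤ b)
    (hnc : ¬ commutator G ≤ ⊥) : Reduces G b := by
  classical
  by_cases hex : ∃ (K₀ : Subgroup G) (_ : K₀.Normal),
      Group.IsSolvable (G ⧸ K₀) ∧ ¬ commutator G ≤ K₀
  · obtain ⟨K₀, hK₀n, hsolv, hK₀⟩ := hex
    haveI := hK₀n
    haveI := hsolv
    obtain ⟨K, N, t, hKn, hNn, ht, hKN, hne, hGN, hGK, hmax, hab, ⟨m, hm⟩, hcase⟩ :=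
      Cfsg.Agent.H83.threeDeg_struct K₀ hK₀
    haveI := hKn
    haveI := hNn
    rcases hcase with ⟨k, hk⟩ | ⟨hZ, hC⟩
    · exact hA G K N t k b ht hKN hne hGN hGK hmax hk hb
    · exact hB G K N t m b ht hKN hne hGN hGK hmax hab hm hZ hC hb
  · obtain ⟨K, -, ⟨⟨hKn, hKc⟩, hKmax⟩⟩ := Finite.exists_le_maximal
      (p := fun L : Subgroup G => L.Normal ∧ ¬ commutator G ≤ L) (a := ⊥)
      ⟨inferInstance, hnc⟩
    haveI := hKn
    refine hN G K b ?_ ?_ hb
    · intro L hL hKL hLK
      by_contra hcon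
      exact hLK (le_antisymm (hKmax ⟨hL, hcon⟩ hKL) hKL)
    · intro hs
      exact hex ⟨K, hKn, hs, hKc⟩

/-- The abelian subgroup of index at most `(b!)^2`, for any bound `b` on the degrees. -/
theorem main (hA : StmtCaseA.{u}) (hB : StmtCaseB.{u}) (hN : StmtNonSolv.{u}) :
    ∀ (b : ℕ) (G : Type u) [Group G] [Finite G],
      (∀ χ : IrrCharacter G, charDegree χ.1 ≤ b) →
      ∃ A : Subgroup G, (∀ x ∈ A, ∀ y ∈ A, x * y = y * x) ∧ A.index ≤ b.factorial ^ 2 := by
  intro b
  induction b using Nat.strong_induction_on with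
  | _ b ih =>
    intro G _ _ hb
    by_cases hc : commutator G ≤ ⊥
    · refine ⟨⊤, ?_, ?_⟩
      · intro x _ y _
        have h0 : ⁅x, y⁆ ∈ commutator G :=
          Subgroup.commutator_mem_commutator (Subgroup.mem_top x) (Subgroup.mem_top y)
        have h1 := hc h0
        rw [Subgroup.mem_bot, commutatorElement_def] at h1
        have h2 : x * y = (x * y * x⁻¹ * y⁻¹) * (y * x) := by group
        rw [h2, h1, one_mul]
      · rw [Subgroup.index_top]
        exact Nat.one_le_pow _ _ (Nat.factorial_pos b)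
    · obtain ⟨H, b', hb', hH, hidx⟩ := reduces_of_not_comm hA hB hN G b hb hc
      obtain ⟨A, hAc, hAi⟩ := ih b' hb' H hH
      refine ⟨A.map H.subtype, ?_, ?_⟩
      · rintro x ⟨x', hx', rfl⟩ y ⟨y', hy', rfl⟩
        have h3 := hAc x' hx' y' hy'
        have h4 := congrArg H.subtype h3
        simpa using h4
      · rw [Subgroup.index_map_subtype]
        calc A.index * H.index ≤ b'.factorial ^ 2 * H.index := Nat.mul_le_mul_right _ hAi
          _ = H.index * b'.factorial ^ 2 := Nat.mul_comm _ _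
          _ ≤ b.factorial ^ 2 := hidx

end Cfsg.Agent.H83.AbIdx
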