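import Mathlib
import Cfsg.Prelude.Def_Transfer
import Cfsg.Agent.H83.ESDefs

/-!
# S3084 team project (helper83): the core construction

`R` = the group of invertible matrices normalizing the Pauli group and inducing an element of `K`.
-/

set_option autoImplicit false
open scoped MatrixGroups

namespace Cfsg.Agent.H83.ES

open Matrix

universe v

section core

variable {n : ℕ} {K : Type v} [Group K]

/-- `M` induces `k` on the Pauli group (up to signs). -/
def Rel (γ : K →* Module.End (ZMod 2) (Idx n × Idx n)) (M : Matrix (Idx n) (Idx n) (ZMod 3))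
    (k : K) : Prop :=
  ∀ u, ∃ ε : ZMod 3, (ε = 1 ∨ ε = -1) ∧ M * P u = ε • (P (γ k u) * M)

theorem sign_mul {ε ε' : ZMod 3} (h : ε = 1 ∨ ε = -1) (h' : ε' = 1 ∨ ε' = -1) :
    ε * ε' = 1 ∨ ε * ε' = -1 := by
  rcases h with rfl | rfl <;> rcases h' with rfl | rfl <;> simp

theorem sign_sq {ε : ZMod 3} (h : ε = 1 ∨ ε = -1) : ε * ε = 1 := by
  rcases h with rfl | rfl <;> simp

theorem sgn_sign (t : ZMod 2) : sgn t = 1 ∨ sgn t = -1 := by
  unfold sgn; split_ifs <;> simp

theorem sgn_eq_one_iff (t : ZMod 2) : sgn t = 1 ↔ t = 0 := by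
  unfold sgn; split_ifs with h
  · simp [h]
  · simp only [h, iff_false]; decide

theorem smul_one_inj {c c' : ZMod 3}
    (h : c • (1 : Matrix (Idx n) (Idx n) (ZMod 3)) = c' • (1 : Matrix (Idx n) (Idx n) (ZMod 3))) :
    c = c' := by
  have := congrFun (congrFun h 0) 0
  simpa using this

theorem rel_one (γ : K →* Module.End (ZMod 2) (Idx n × Idx n)) : Rel γ 1 1 :=
  fun u => ⟨1, Or.inl rfl, by simp⟩

theorem rel_mul (γ : K →* Module.End (ZMod 2) (Idx n × Idx n))
    {M N : Matrix (Idx n) (Idx n) (ZMod 3)} {k k' : K} (hM : Rel γ M k) (hN : Rel γ N k') :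
    Rel γ (M * N) (k * k') := by
  intro u
  obtain ⟨ε', hε', h'⟩ := hN u
  obtain ⟨ε, hε, h⟩ := hM (γ k' u)
  refine ⟨ε * ε', sign_mul hε hε', ?_⟩
  rw [Matrix.mul_assoc, h', Matrix.mul_smul, ← Matrix.mul_assoc, h, map_mul, Module.End.mul_apply,
    Matrix.smul_mul, smul_smul, Matrix.mul_assoc, mul_comm]

theorem rel_inv (γ : K →* Module.End (ZMod 2) (Idx n × Idx n))
    {M M' : Matrix (Idx n) (Idx n) (ZMod 3)} {k : K} (hM : Rel γ M k) (h1 : M' * M = 1) :
    Rel γ M' k⁻¹ := by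
  have h2 : M * M' = 1 := mul_eq_one_comm.mp h1
  intro u
  obtain ⟨ε, hε, h⟩ := hM (γ k⁻¹ u)
  have hk : γ k (γ k⁻¹ u) = u := by
    rw [← Module.End.mul_apply, ← map_mul, mul_inv_cancel, map_one, Module.End.one_apply]
  rw [hk] at h
  refine ⟨ε, hε, ?_⟩
  have h3 : P (γ k⁻¹ u) * M' = ε • (M' * P u) := by
    calc P (γ k⁻¹ u) * M' = M' * (M * P (γ k⁻¹ u)) * M' := by
          rw [← Matrix.mul_assoc, h1, Matrix.one_mul]
      _ = ε • (M' * P u) := by
          rw [h, Matrix.mul_smul, Matrix.smul_mul, ← Matrix.mul_assoc, Matrix.mul_assoc, h2,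
            Matrix.mul_one]
  rw [h3, smul_smul, sign_sq hε, one_smul]

theorem rel_unique (hInj : StPInj) (γ : K →* Module.End (ZMod 2) (Idx n × Idx n))
    (hγ : Function.Injective γ) {M M' : Matrix (Idx n) (Idx n) (ZMod 3)} {k k' : K}
    (h1 : M * M' = 1) (h : Rel γ M k) (h' : Rel γ M k') : k = k' := by
  apply hγ
  apply LinearMap.ext
  intro u
  obtain ⟨ε, hε, e1⟩ := h u
  obtain ⟨ε', hε', e2⟩ := h' u
  have e3 : ε • P (γ k u) = ε' • P (γ k' u) := by
    have := congrArg (· * M') (e1.symm.trans e2)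
    simpa [Matrix.smul_mul, Matrix.mul_assoc, h1] using this
  have e4 : P (γ k u) = (ε * ε') • P (γ k' u) := by
    rw [← smul_smul, ← e3, smul_smul, sign_sq hε, one_smul]
  exact (hInj n _ _ _ e4).1

/-- The group `R`. -/
def NrmK (γ : K →* Module.End (ZMod 2) (Idx n × Idx n)) : Subgroup (GL (Idx n) (ZMod 3)) where
  carrier := {M | ∃ k : K, Rel γ (M : Matrix (Idx n) (Idx n) (ZMod 3)) k}
  mul_mem' := by
    rintro a b ⟨k, hk⟩ ⟨k', hk'⟩
    exact ⟨k * k', by simpa using rel_mul γ hk hk'⟩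
  one_mem' := ⟨1, by simpa using rel_one γ⟩
  inv_mem' := by
    rintro a ⟨k, hk⟩
    exact ⟨k⁻¹, rel_inv γ hk (by simp)⟩

/-- The underlying matrix. -/
def matR (γ : K →* Module.End (ZMod 2) (Idx n × Idx n)) :
    ↥(NrmK γ) →* Matrix (Idx n) (Idx n) (ZMod 3) :=
  (Units.coeHom _).comp (NrmK γ).subtype

theorem matR_injective (γ : K →* Module.End (ZMod 2) (Idx n × Idx n)) :
    Function.Injective (matR γ) := by
  intro a b h
  apply Subtype.ext
  apply Units.ext
  exact h

theorem matR_mul_inv (γ : K →* Module.End (ZMod 2) (Idx n × Idx n)) (r : ↥(NrmK γ)) :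
    matR γ r * matR γ r⁻¹ = 1 := by
  rw [← map_mul, mul_inv_cancel, map_one]

theorem matR_isUnit_det (γ : K →* Module.End (ZMod 2) (Idx n × Idx n)) (r : ↥(NrmK γ)) :
    IsUnit (matR γ r).det := by
  have : IsUnit (matR γ r) := IsUnit.of_mul_eq_one _ (matR_mul_inv γ r)
  exact (Matrix.isUnit_iff_isUnit_det _).mp this

/-- The induced element of `K`. -/
noncomputable def piFun (γ : K →* Module.End (ZMod 2) (Idx n × Idx n)) (r : ↥(NrmK γ)) : K :=
  Classical.choose r.2

theorem piFun_spec (γ : K →* Module.End (ZMod 2) (Idx n × Idx n)) (r : ↥(NrmK γ)) :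
    Rel γ (matR γ r) (piFun γ r) :=
  Classical.choose_spec r.2

theorem piFun_eq (hInj : StPInj) (γ : K →* Module.End (ZMod 2) (Idx n × Idx n))
    (hγ : Function.Injective γ) (r : ↥(NrmK γ)) (k : K) (h : Rel γ (matR γ r) k) :
    piFun γ r = k :=
  rel_unique hInj γ hγ (matR_mul_inv γ r) (piFun_spec γ r) h

/-- The projection `R → K`. -/
noncomputable def piHom (hInj : StPInj) (γ : K →* Module.End (ZMod 2) (Idx n × Idx n))
    (hγ : Function.Injective γ) : ↥(NrmK γ) →* K where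
  toFun := piFun γ
  map_one' := piFun_eq hInj γ hγ 1 1 (by simpa using rel_one γ)
  map_mul' := fun r s => piFun_eq hInj γ hγ (r * s) _ (by
    simpa using rel_mul γ (piFun_spec γ r) (piFun_spec γ s))

theorem piHom_surjective (hInj : StPInj) (hSvN : StSvN)
    (γ : K →* Module.End (ZMod 2) (Idx n × Idx n))
    (hγ : Function.Injective γ) (hq : ∀ k u, q0 (γ k u) = q0 u) :
    Function.Surjective (piHom hInj γ hγ) := by
  intro k
  obtain ⟨M, hdet, hM⟩ := hSvN n (γ k) (hq k)
  have hu : IsUnit M := (Matrix.isUnit_iff_isUnit_det _).mpr hdet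
  refine ⟨⟨hu.unit, k, hM⟩, piFun_eq hInj γ hγ _ k hM⟩

end core

section kernel

variable {n : ℕ} {K : Type v} [Group K]

theorem rel_pauli (hPB : StPB) (γ : K →* Module.End (ZMod 2) (Idx n × Idx n)) (δ : ZMod 3)
    (v : Idx n × Idx n) : Rel γ (δ • P v) 1 := by
  obtain ⟨-, -, -, hcomm, -⟩ := hPB n
  intro u
  refine ⟨sgn (b0 v u), sgn_sign _, ?_⟩
  rw [map_one, Module.End.one_apply, Matrix.smul_mul, hcomm v u, Matrix.mul_smul, smul_comm]

theorem pauli_mul_inv (hPB : StPB) (δ : ZMod 3) (hδ : δ = 1 ∨ δ = -1) (v : Idx n × Idx n) :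
    (δ • P v) * ((δ * sgn (q0 v)) • P v) = 1 := by
  obtain ⟨-, -, hsq, -⟩ := hPB n
  rw [Matrix.smul_mul, Matrix.mul_smul, hsq v, smul_smul, smul_smul]
  have : δ * (δ * sgn (q0 v)) * sgn (q0 v) = 1 := by
    rw [mul_assoc, mul_assoc, sign_sq (sgn_sign _), mul_one, sign_sq hδ]
  rw [this, one_smul]

/-- `± P v` as an element of `R`. -/
noncomputable def pauliR (hPB : StPB) (γ : K →* Module.End (ZMod 2) (Idx n × Idx n)) (δ : ZMod 3)
    (hδ : δ = 1 ∨ δ = -1) (v : Idx n × Idx n) : ↥(NrmK γ) :=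
  ⟨(IsUnit.of_mul_eq_one _ (pauli_mul_inv hPB δ hδ v)).unit, 1, rel_pauli hPB γ δ v⟩

theorem matR_pauliR (hPB : StPB) (γ : K →* Module.End (ZMod 2) (Idx n × Idx n)) (δ : ZMod 3)
    (hδ : δ = 1 ∨ δ = -1) (v : Idx n × Idx n) : matR γ (pauliR hPB γ δ hδ v) = δ • P v := rfl

theorem piHom_eq_one_iff (hPB : StPB) (hInj : StPInj) (hKer : StKer)
    (γ : K →* Module.End (ZMod 2) (Idx n × Idx n)) (hγ : Function.Injective γ) (r : ↥(NrmK γ)) :
    piHom hInj γ hγ r = 1 ↔
      ∃ (v : Idx n × Idx n) (δ : ZMod 3), (δ = 1 ∨ δ = -1) ∧ matR γ r = δ • P v := by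
  constructor
  · intro h
    have h1 : Rel γ (matR γ r) 1 := by
      have := piFun_spec γ r
      have h' : piFun γ r = 1 := h
      rwa [h'] at this
    refine hKer n (matR γ r) (matR_isUnit_det γ r) ?_
    intro u
    obtain ⟨ε, hε, e⟩ := h1 u
    refine ⟨ε, hε, ?_⟩
    rwa [map_one, Module.End.one_apply] at e
  · rintro ⟨v, δ, -, h⟩
    refine piFun_eq hInj γ hγ r 1 ?_
    rw [h]
    exact rel_pauli hPB γ δ v

/-- The matrix of an element of `Q`. -/
noncomputable def matQ (hInj : StPInj) (γ : K →* Module.End (ZMod 2) (Idx n × Idx n))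
    (hγ : Function.Injective γ) :
    ↥(piHom hInj γ hγ).ker →* Matrix (Idx n) (Idx n) (ZMod 3) :=
  (matR γ).comp (piHom hInj γ hγ).ker.subtype

theorem matQ_injective (hInj : StPInj) (γ : K →* Module.End (ZMod 2) (Idx n × Idx n))
    (hγ : Function.Injective γ) : Function.Injective (matQ hInj γ hγ) := by
  intro a b h
  apply Subtype.ext
  exact matR_injective γ h

theorem exists_rep (hPB : StPB) (hInj : StPInj) (hKer : StKer)
    (γ : K →* Module.End (ZMod 2) (Idx n × Idx n)) (hγ : Function.Injective γ)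
    (a : ↥(piHom hInj γ hγ).ker) :
    ∃ (v : Idx n × Idx n) (δ : ZMod 3), (δ = 1 ∨ δ = -1) ∧ matQ hInj γ hγ a = δ • P v :=
  (piHom_eq_one_iff hPB hInj hKer γ hγ a.1).1 a.2

/-- `± P v` as an element of `Q`. -/
noncomputable def pauliQ (hPB : StPB) (hInj : StPInj) (hKer : StKer)
    (γ : K →* Module.End (ZMod 2) (Idx n × Idx n)) (hγ : Function.Injective γ) (δ : ZMod 3)
    (hδ : δ = 1 ∨ δ = -1) (v : Idx n × Idx n) : ↥(piHom hInj γ hγ).ker :=
  ⟨pauliR hPB γ δ hδ v, (piHom_eq_one_iff hPB hInj hKer γ hγ _).2 ⟨v, δ, hδ, rfl⟩⟩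

theorem matQ_pauliQ (hPB : StPB) (hInj : StPInj) (hKer : StKer)
    (γ : K →* Module.End (ZMod 2) (Idx n × Idx n)) (hγ : Function.Injective γ) (δ : ZMod 3)
    (hδ : δ = 1 ∨ δ = -1) (v : Idx n × Idx n) :
    matQ hInj γ hγ (pauliQ hPB hInj hKer γ hγ δ hδ v) = δ • P v := rfl

/-- The vector of an element of `Q`. -/
noncomputable def chiFun (hPB : StPB) (hInj : StPInj) (hKer : StKer)
    (γ : K →* Module.End (ZMod 2) (Idx n × Idx n)) (hγ : Function.Injective γ)
    (a : ↥(piHom hInj γ hγ).ker) : Idx n × Idx n :=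
  Classical.choose (exists_rep hPB hInj hKer γ hγ a)

theorem chiFun_spec (hPB : StPB) (hInj : StPInj) (hKer : StKer)
    (γ : K →* Module.End (ZMod 2) (Idx n × Idx n)) (hγ : Function.Injective γ)
    (a : ↥(piHom hInj γ hγ).ker) :
    ∃ δ : ZMod 3, (δ = 1 ∨ δ = -1) ∧
      matQ hInj γ hγ a = δ • P (chiFun hPB hInj hKer γ hγ a) :=
  Classical.choose_spec (exists_rep hPB hInj hKer γ hγ a)

theorem chiFun_eq (hPB : StPB) (hInj : StPInj) (hKer : StKer)
    (γ : K →* Module.End (ZMod 2) (Idx n × Idx n)) (hγ : Function.Injective γ)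
    (a : ↥(piHom hInj γ hγ).ker) (v : Idx n × Idx n) (δ : ZMod 3)
    (h : matQ hInj γ hγ a = δ • P v) : chiFun hPB hInj hKer γ hγ a = v := by
  obtain ⟨δ', hδ', h'⟩ := chiFun_spec hPB hInj hKer γ hγ a
  have e : P (chiFun hPB hInj hKer γ hγ a) = (δ' * δ) • P v := by
    rw [← smul_smul, ← h, h', smul_smul, sign_sq hδ', one_smul]
  exact (hInj n _ _ _ e).1

/-- The homomorphism `χ`. -/
noncomputable def chiHom (hPB : StPB) (hInj : StPInj) (hKer : StKer)
    (γ : K →* Module.End (ZMod 2) (Idx n × Idx n)) (hγ : Function.Injective γ) :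
    ↥(piHom hInj γ hγ).ker →* Multiplicative (Idx n × Idx n) where
  toFun a := Multiplicative.ofAdd (chiFun hPB hInj hKer γ hγ a)
  map_one' := by
    have : chiFun hPB hInj hKer γ hγ 1 = 0 := by
      refine chiFun_eq hPB hInj hKer γ hγ 1 0 1 ?_
      rw [map_one, one_smul, (hPB n).1]
    rw [this]; rfl
  map_mul' a b := by
    obtain ⟨δ, hδ, h⟩ := chiFun_spec hPB hInj hKer γ hγ a
    obtain ⟨δ', hδ', h'⟩ := chiFun_spec hPB hInj hKer γ hγ b
    have : chiFun hPB hInj hKer γ hγ (a * b) =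
        chiFun hPB hInj hKer γ hγ a + chiFun hPB hInj hKer γ hγ b := by
      refine chiFun_eq hPB hInj hKer γ hγ (a * b) _ (δ * δ' * sgn (dot
        (chiFun hPB hInj hKer γ hγ a).2 (chiFun hPB hInj hKer γ hγ b).1)) ?_
      rw [map_mul, h, h', Matrix.smul_mul, Matrix.mul_smul, (hPB n).2.1, smul_smul, smul_smul]
    rw [this]; rfl

theorem chiHom_apply (hPB : StPB) (hInj : StPInj) (hKer : StKer)
    (γ : K →* Module.End (ZMod 2) (Idx n × Idx n)) (hγ : Function.Injective γ)
    (a : ↥(piHom hInj γ hγ).ker) :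
    chiHom hPB hInj hKer γ hγ a = Multiplicative.ofAdd (chiFun hPB hInj hKer γ hγ a) := rfl

theorem chiHom_surjective (hPB : StPB) (hInj : StPInj) (hKer : StKer)
    (γ : K →* Module.End (ZMod 2) (Idx n × Idx n)) (hγ : Function.Injective γ) :
    Function.Surjective (chiHom hPB hInj hKer γ hγ) := by
  intro v
  refine ⟨pauliQ hPB hInj hKer γ hγ 1 (Or.inl rfl) (Multiplicative.toAdd v), ?_⟩
  rw [chiHom_apply, chiFun_eq hPB hInj hKer γ hγ _ (Multiplicative.toAdd v) 1
    (matQ_pauliQ hPB hInj hKer γ hγ 1 (Or.inl rfl) _)]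
  rfl

end kernel

section main

variable {n : ℕ} {K : Type v} [Group K]

theorem mem_center_iff_chi (hPB : StPB) (hInj : StPInj) (hKer : StKer)
    (γ : K →* Module.End (ZMod 2) (Idx n × Idx n)) (hγ : Function.Injective γ)
    (a : ↥(piHom hInj γ hγ).ker) :
    a ∈ Subgroup.center ↥(piHom hInj γ hγ).ker ↔ chiFun hPB hInj hKer γ hγ a = 0 := by
  obtain ⟨h0, hmul, hsq, hcomm, -, -, -, hnd⟩ := hPB n
  obtain ⟨δ, hδ, ha⟩ := chiFun_spec hPB hInj hKer γ hγ a
  constructor
  · intro hc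
    apply hnd
    intro u
    rw [Subgroup.mem_center_iff] at hc
    have h1 := congrArg (matQ hInj γ hγ) (hc (pauliQ hPB hInj hKer γ hγ 1 (Or.inl rfl) u))
    rw [map_mul, map_mul, matQ_pauliQ, ha, one_smul, Matrix.mul_smul, Matrix.smul_mul] at h1
    have h2 : P u * P (chiFun hPB hInj hKer γ hγ a) = P (chiFun hPB hInj hKer γ hγ a) * P u := by
      have := congrArg (δ • ·) h1
      simpa only [smul_smul, sign_sq hδ, one_smul] using this
    rw [hcomm (chiFun hPB hInj hKer γ hγ a) u] at h2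
    by_contra hb
    have hs : sgn (b0 (chiFun hPB hInj hKer γ hγ a) u) = -1 := by unfold sgn; rw [if_neg hb]
    rw [hs] at h2
    have h3 : P u * P (chiFun hPB hInj hKer γ hγ a) = 0 := by
      ext i j
      have := congrFun (congrFun h2 i) j
      simp only [Matrix.smul_apply, smul_eq_mul] at this
      rw [Matrix.zero_apply]
      generalize (P u * P (chiFun hPB hInj hKer γ hγ a)) i j = x at this
      revert x; decide
    have h4 : (P u * P u) * (P (chiFun hPB hInj hKer γ hγ a) * P (chiFun hPB hInj hKer γ hγ a))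
        = 0 := by
      rw [Matrix.mul_assoc, ← Matrix.mul_assoc (P u) (P (chiFun hPB hInj hKer γ hγ a)), h3]
      simp
    rw [hsq, hsq, Matrix.smul_mul, Matrix.one_mul, smul_smul] at h4
    have h5 := smul_one_inj (h4.trans (zero_smul _ _).symm)
    rcases sgn_sign (q0 u) with e1 | e1 <;>
      rcases sgn_sign (q0 (chiFun hPB hInj hKer γ hγ a)) with e2 | e2 <;>
      rw [e1, e2] at h5 <;> revert h5 <;> decide
  · intro h0'
    rw [h0', h0] at ha
    rw [Subgroup.mem_center_iff]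
    intro g
    apply matQ_injective hInj γ hγ
    rw [map_mul, map_mul, ha, Matrix.smul_mul, Matrix.mul_smul, Matrix.one_mul, Matrix.mul_one]

/-- ES-CORE. -/
theorem core (hPB : StPB) (hInj : StPInj) (hKer : StKer) (hSvN : StSvN) (hExtra : StExtra) :
    StCore.{v} := by
  intro K _ n hn1 γ hγ hq
  obtain ⟨h0, hmul, hsq, hcomm, -, -, -, hnd⟩ := hPB n
  have hsurj : Function.Surjective (piHom hInj γ hγ) := piHom_surjective hInj hSvN γ hγ hq
  have hχsurj := chiHom_surjective hPB hInj hKer γ hγ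
  have hker : (chiHom hPB hInj hKer γ hγ).ker = Subgroup.center ↥(piHom hInj γ hγ).ker := by
    ext a
    rw [MonoidHom.mem_ker, mem_center_iff_chi hPB hInj hKer γ hγ a, chiHom_apply]
    exact ⟨fun h => h, fun h => h⟩
  have hcenter : Nat.card (Subgroup.center ↥(piHom hInj γ hγ).ker) = 2 := by
    have hz : pauliQ hPB hInj hKer γ hγ (-1) (Or.inr rfl) 0 ∈
        Subgroup.center ↥(piHom hInj γ hγ).ker :=
      (mem_center_iff_chi hPB hInj hKer γ hγ _).2
        (chiFun_eq hPB hInj hKer γ hγ _ 0 (-1) (matQ_pauliQ hPB hInj hKer γ hγ _ _ _))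
    rw [Nat.card_eq_two_iff]
    refine ⟨1, ⟨_, hz⟩, ?_, ?_⟩
    · intro h
      have h1 := congrArg (fun c : Subgroup.center ↥(piHom hInj γ hγ).ker =>
        matQ hInj γ hγ c.1) h
      simp only [OneMemClass.coe_one, map_one] at h1
      rw [matQ_pauliQ, h0] at h1
      have h2 := smul_one_inj ((one_smul _ _).trans h1)
      revert h2; decide
    · rw [Set.eq_univ_iff_forall]
      intro c
      obtain ⟨δ, hδ, hc⟩ := chiFun_spec hPB hInj hKer γ hγ c.1
      rw [(mem_center_iff_chi hPB hInj hKer γ hγ c.1).1 c.2, h0] at hc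
      rcases hδ with rfl | rfl
      · left
        apply Subtype.ext
        apply matQ_injective hInj γ hγ
        rw [hc, one_smul]; simp
      · right
        rw [Set.mem_singleton_iff]
        apply Subtype.ext
        apply matQ_injective hInj γ hγ
        rw [hc, matQ_pauliQ, h0]
  have hcard : Nat.card ↥(piHom hInj γ hγ).ker = 2 ^ (2 * n + 1) := by
    have h1 := Subgroup.card_eq_card_quotient_mul_card_subgroup (chiHom hPB hInj hKer γ hγ).ker
    have h2 : Nat.card (↥(piHom hInj γ hγ).ker ⧸ (chiHom hPB hInj hKer γ hγ).ker) =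
        Nat.card (Multiplicative (Idx n × Idx n)) :=
      Nat.card_congr (QuotientGroup.quotientKerEquivOfSurjective _ hχsurj).toEquiv
    have h3 : Nat.card (Multiplicative (Idx n × Idx n)) = 2 ^ n * 2 ^ n := by
      rw [Nat.card_congr Multiplicative.toAdd, Nat.card_prod]
      simp [Nat.card_eq_fintype_card]
    rw [h1, h2, h3, hker, hcenter]; ring
  refine ⟨↥(NrmK γ), inferInstance, inferInstance, (piHom hInj γ hγ).ker,
    MonoidHom.normal_ker _, QuotientGroup.quotientKerEquivOfSurjective _ hsurj,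
    chiHom hPB hInj hKer γ hγ, ?_, hcard, hχsurj, hker, ?_, ?_⟩
  · refine hExtra ↥(piHom hInj γ hγ).ker n hn1 hcard hcenter ?_ ?_
    · intro a b
      rw [← hker, MonoidHom.mem_ker, map_mul, map_mul, map_mul, map_inv, map_inv]
      rw [mul_comm (chiHom hPB hInj hKer γ hγ a), mul_inv_cancel_right, mul_inv_cancel]
    · intro a
      rw [← hker, MonoidHom.mem_ker, map_mul, chiHom_apply, ← ofAdd_add]
      have : chiFun hPB hInj hKer γ hγ a + chiFun hPB hInj hKer γ hγ a = 0 := by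
        ext i
        · exact CharTwo.add_self_eq_zero _
        · exact CharTwo.add_self_eq_zero _
      rw [this]; rfl
  · intro r a
    obtain ⟨δ, hδ, ha⟩ := chiFun_spec hPB hInj hKer γ hγ a
    obtain ⟨ε, hε, hr⟩ := piFun_spec γ r (chiFun hPB hInj hKer γ hγ a)
    have he : (QuotientGroup.quotientKerEquivOfSurjective (piHom hInj γ hγ) hsurj)
        (r : _ ⧸ (piHom hInj γ hγ).ker) = piFun γ r := rfl
    rw [he, chiHom_apply, chiHom_apply, toAdd_ofAdd]
    congr 1
    refine chiFun_eq hPB hInj hKer γ hγ _ _ (δ * ε) ?_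
    have ha' : matR γ (a : ↥(NrmK γ)) = δ • P (chiFun hPB hInj hKer γ hγ a) := ha
    show matR γ (r * (a : ↥(NrmK γ)) * r⁻¹) = _
    rw [map_mul, map_mul, ha', Matrix.mul_smul, hr, Matrix.smul_mul, Matrix.smul_mul,
      Matrix.mul_assoc, matR_mul_inv, Matrix.mul_one, smul_smul]
  · intro a
    obtain ⟨δ, hδ, ha⟩ := chiFun_spec hPB hInj hKer γ hγ a
    rw [chiHom_apply, toAdd_ofAdd, ← sgn_eq_one_iff]
    have h1 : matQ hInj γ hγ (a * a) =
        sgn (q0 (chiFun hPB hInj hKer γ hγ a)) • (1 : Matrix (Idx n) (Idx n) (ZMod 3)) := by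
      rw [map_mul, ha, Matrix.smul_mul, Matrix.mul_smul, hsq, smul_smul, smul_smul,
        sign_sq hδ, one_mul]
    constructor
    · intro h
      rw [h, map_one] at h1
      exact (smul_one_inj ((one_smul _ _).trans h1)).symm
    · intro h
      apply matQ_injective hInj γ hγ
      rw [h1, h, one_smul, map_one]

end main

end Cfsg.Agent.H83.ES
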