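import Mathlib
import Cfsg.Agent.H83.ESDefs

/-!
# S3084 team project (helper83): backup proof of ES-HYP
-/

set_option autoImplicit false

namespace Cfsg.Agent.H83.ES

universe u

theorem hb_dot_single_right {n : ℕ} (a : Idx n) (i : Fin n) : dot a (Pi.single i 1) = a i := by
  unfold dot
  simp [Pi.single_apply]

theorem hb_dot_zero_right {n : ℕ} (a : Idx n) : dot a 0 = 0 := by
  unfold dot; simp

theorem hb_dot_zero_left {n : ℕ} (a : Idx n) : dot 0 a = 0 := by
  unfold dot; simp

theorem hb_dot_add_left {n : ℕ} (a a' b : Idx n) : dot (a + a') b = dot a b + dot a' b := by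
  unfold dot; simp [add_mul, Finset.sum_add_distrib]

theorem hb_dot_add_right {n : ℕ} (a b b' : Idx n) : dot a (b + b') = dot a b + dot a b' := by
  unfold dot; simp [mul_add, Finset.sum_add_distrib]

theorem hb_q0_nondeg {n : ℕ} (x : Idx n × Idx n)
    (h : ∀ y : Idx n × Idx n, q0 (x + y) + q0 x + q0 y = 0) : x = 0 := by
  have key : ∀ y : Idx n × Idx n, dot x.1 y.2 + dot y.1 x.2 = 0 := by
    intro y
    have := h y
    unfold q0 at this
    rw [Prod.fst_add, Prod.snd_add, hb_dot_add_left, hb_dot_add_right, hb_dot_add_right] at this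
    have e : dot x.1 x.2 + dot x.1 y.2 + (dot y.1 x.2 + dot y.1 y.2) + dot x.1 x.2 + dot y.1 y.2 =
        dot x.1 y.2 + dot y.1 x.2 + (dot x.1 x.2 + dot x.1 x.2) + (dot y.1 y.2 + dot y.1 y.2) := by
      ring
    rw [e, CharTwo.add_self_eq_zero, CharTwo.add_self_eq_zero, add_zero, add_zero] at this
    exact this
  ext i
  · have := key ((0 : Idx n), Pi.single i 1)
    simpa [hb_dot_single_right, hb_dot_zero_left] using this
  · have := key (Pi.single i 1, (0 : Idx n))
    have h2 : dot (Pi.single i 1) x.2 = x.2 i := by unfold dot; simp [Pi.single_apply]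
    simpa [hb_dot_zero_right, h2] using this

/-- ES-HYP (backup). -/
theorem hypB : StHyp.{u} := by
  intro U _ _ _ n q hn hnd ⟨W, hW, hW0⟩
  classical
  have hqadd : ∀ x y, q (x + y) = q x + q y + QuadraticMap.polarBilin q x y := by
    intro x y
    rw [QuadraticMap.polarBilin_apply_apply, QuadraticMap.polar]; ring
  have hBW : ∀ x ∈ W, ∀ y ∈ W, QuadraticMap.polarBilin q x y = 0 := by
    intro x hx y hy
    rw [QuadraticMap.polarBilin_apply_apply, QuadraticMap.polar, hW0 x hx, hW0 y hy,
      hW0 _ (W.add_mem hx hy)]; ring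
  have hBsymm : ∀ x y, QuadraticMap.polarBilin q x y = QuadraticMap.polarBilin q y x := by
    intro x y
    rw [QuadraticMap.polarBilin_apply_apply, QuadraticMap.polarBilin_apply_apply,
      QuadraticMap.polar_comm]
  let bW : Module.Basis (Fin n) (ZMod 2) W := Module.finBasisOfFinrankEq (ZMod 2) W hW
  obtain ⟨p, hp⟩ := W.subtype.exists_leftInverse_of_injective W.ker_subtype
  have hp' : ∀ w : W, p (w : U) = w := fun w => by
    have := congrArg (fun f : W →ₗ[ZMod 2] W => f w) hp
    simpa using this
  -- the coordinate map `S x = coordinates of p x`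
  let uu : Fin n → U := fun i =>
    (LinearMap.BilinForm.toDual (QuadraticMap.polarBilin q) hnd).symm ((bW.coord i).comp p)
  have huu : ∀ i x, QuadraticMap.polarBilin q (uu i) x = bW.equivFun (p x) i := by
    intro i x
    have := LinearMap.BilinForm.apply_toDual_symm_apply (hB := hnd) ((bW.coord i).comp p) x
    rw [this]; rfl
  let wmap : Idx n →ₗ[ZMod 2] U := W.subtype.comp (bW.equivFun.symm : Idx n →ₗ[ZMod 2] W)
  have hwmem : ∀ a, wmap a ∈ W := fun a => (bW.equivFun.symm a).2
  have hpw : ∀ a, bW.equivFun (p (wmap a)) = a := by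
    intro a
    show bW.equivFun (p ((bW.equivFun.symm a : W) : U)) = a
    rw [hp', LinearEquiv.apply_symm_apply]
  let σ : Idx n →ₗ[ZMod 2] U := Fintype.linearCombination (ZMod 2) uu
  have hσw : ∀ a b, QuadraticMap.polarBilin q (σ b) (wmap a) = dot a b := by
    intro a b
    show QuadraticMap.polarBilin q (Fintype.linearCombination (ZMod 2) uu b) (wmap a) = dot a b
    rw [Fintype.linearCombination_apply, map_sum, LinearMap.sum_apply]
    unfold dot
    refine Finset.sum_congr rfl fun i _ => ?_
    rw [map_smul, LinearMap.smul_apply, huu, hpw, smul_eq_mul, mul_comm]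
  -- the correction
  let T := (q.comp σ).toBilin (Pi.basisFun (ZMod 2) (Fin n))
  have hT : ∀ b, T b b = q (σ b) := by
    intro b
    have := congrArg (fun Q : QuadraticMap (ZMod 2) (Idx n) (ZMod 2) => Q b)
      (QuadraticMap.toQuadraticMap_toBilin (q.comp σ) (Pi.basisFun (ZMod 2) (Fin n)))
    simpa using this
  let C : Idx n →ₗ[ZMod 2] Idx n := LinearMap.pi (fun j => T.flip (Pi.single j 1))
  have hC : ∀ b, dot (C b) b = q (σ b) := by
    intro b
    rw [← hT b]
    have key : ∀ c : Idx n, T b c = ∑ j, C b j * c j := by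
      intro c
      have hc : c = ∑ j, c j • (Pi.single j 1 : Idx n) := by
        ext k; simp [Finset.sum_apply, Pi.single_apply]
      conv_lhs => rw [hc, map_sum]
      refine Finset.sum_congr rfl fun j _ => ?_
      rw [map_smul, smul_eq_mul, mul_comm]
      rfl
    rw [key b]
    rfl
  let σ' : Idx n →ₗ[ZMod 2] U := σ + wmap.comp C
  have hσ'q : ∀ b, q (σ' b) = 0 := by
    intro b
    show q (σ b + wmap (C b)) = 0
    rw [hqadd, hW0 _ (hwmem _), hσw, hC, add_zero, CharTwo.add_self_eq_zero]
  have hσ'w : ∀ a b, QuadraticMap.polarBilin q (σ' b) (wmap a) = dot a b := by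
    intro a b
    show QuadraticMap.polarBilin q (σ b + wmap (C b)) (wmap a) = dot a b
    rw [map_add, LinearMap.add_apply, hσw, hBW _ (hwmem _) _ (hwmem _), add_zero]
  let φ : Idx n × Idx n →ₗ[ZMod 2] U := wmap.coprod σ'
  have hφ : ∀ x, q (φ x) = q0 x := by
    intro x
    show q (wmap x.1 + σ' x.2) = q0 x
    rw [hqadd, hW0 _ (hwmem _), hσ'q, hBsymm, hσ'w, zero_add, zero_add]
    rfl
  have hφinj : Function.Injective φ := by
    rw [← LinearMap.ker_eq_bot, LinearMap.ker_eq_bot']
    intro x hx
    apply hb_q0_nondeg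
    intro y
    rw [← hφ, ← hφ, ← hφ, map_add, hx, zero_add, map_zero, add_zero, CharTwo.add_self_eq_zero]
  have hdim : Module.finrank (ZMod 2) (Idx n × Idx n) = Module.finrank (ZMod 2) U := by
    rw [hn, Module.finrank_prod, Module.finrank_pi]; simp; ring
  refine ⟨(φ.linearEquivOfInjective hφinj hdim).symm, fun u => ?_⟩
  rw [← hφ]
  congr 1
  exact (φ.linearEquivOfInjective hφinj hdim).apply_symm_apply u

end Cfsg.Agent.H83.ES
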