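import Mathlib
import Cfsg.Prelude.Def_Transfer
import Cfsg.Agent.H83.ESDefs

/-!
# S3084 team project (helper83): transport from the standard form to a general one
-/

set_option autoImplicit false

namespace Cfsg.Agent.H83.ES

universe u1 u2

/-- The frozen statement of S3084 from the core construction and the classification of plus-type
forms over `F_2`. -/
theorem main_of_pieces (hCore : StCore.{u1}) (hHyp : StHyp.{u2})
    {K : Type u1} [Group K] {U : Type u2} [AddCommGroup U] [Module (ZMod 2) U]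
    [Module.Finite (ZMod 2) U] (n : ℕ) (hn1 : 1 ≤ n) (hn : Module.finrank (ZMod 2) U = 2 * n)
    (ρ : Representation (ZMod 2) K U) (hρ : Function.Injective ρ) (q : QuadraticForm (ZMod 2) U)
    (hq : ∀ (k : K) (u : U), q (ρ k u) = q u) (hnd : (QuadraticMap.polarBilin q).Nondegenerate)
    (hplus : ∃ W : Submodule (ZMod 2) U, Module.finrank (ZMod 2) ↥W = n ∧ ∀ w ∈ W, q w = 0) :
    ∃ (R : Type) (_ : Group R) (_ : Finite R) (Q : Subgroup R) (hN : Q.Normal) (e : R ⧸ Q ≃* K)
      (χ : ↥Q →* Multiplicative U), Cfsg.IsExtraspecial 2 ↥Q ∧ Nat.card ↥Q = 2 ^ (2 * n + 1) ∧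
      Function.Surjective χ ∧ χ.ker = Subgroup.center ↥Q ∧
      (∀ (r : R) (a : ↥Q), χ ⟨r * a * r⁻¹, hN.conj_mem (a : R) a.2 r⟩ =
        Multiplicative.ofAdd (ρ (e (r : R ⧸ Q)) (Multiplicative.toAdd (χ a)))) ∧
      ∀ a : ↥Q, a * a = 1 ↔ q (Multiplicative.toAdd (χ a)) = 0 := by
  obtain ⟨ι, hι⟩ := hHyp U n q hn hnd hplus
  let γ : K →* Module.End (ZMod 2) (Idx n × Idx n) :=
    { toFun := fun k => ι.toLinearMap ∘ₗ ρ k ∘ₗ ι.symm.toLinearMap
      map_one' := by ext x <;> simp
      map_mul' := by intro k k'; ext x <;> simp }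
  have hγapp : ∀ k v, γ k v = ι (ρ k (ι.symm v)) := fun k v => rfl
  have hγ : Function.Injective γ := by
    intro k k' h
    apply hρ
    apply LinearMap.ext
    intro u
    have := congrArg (fun g : Module.End (ZMod 2) (Idx n × Idx n) => g (ι u)) h
    simp only [hγapp, LinearEquiv.symm_apply_apply] at this
    exact ι.injective this
  have hq' : ∀ k u, q0 (γ k u) = q0 u := by
    intro k u
    rw [hγapp, hι, hq, ← hι, LinearEquiv.apply_symm_apply]
  obtain ⟨R, iG, iF, Q, hN, e, χ, hES, hcard, hsurj, hker, hequiv, hsq⟩ := hCore K n hn1 γ hγ hq'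
  let f : Multiplicative (Idx n × Idx n) →* Multiplicative U :=
    AddMonoidHom.toMultiplicative (ι.symm.toLinearMap.toAddMonoidHom)
  have hf : ∀ x, f x = Multiplicative.ofAdd (ι.symm (Multiplicative.toAdd x)) := fun x => rfl
  have hfinj : Function.Injective f := by
    intro x y h
    rw [hf, hf] at h
    exact Multiplicative.toAdd.injective (ι.symm.injective (Multiplicative.ofAdd.injective h))
  have hfsurj : Function.Surjective f := by
    intro y
    refine ⟨Multiplicative.ofAdd (ι (Multiplicative.toAdd y)), ?_⟩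
    rw [hf, toAdd_ofAdd, LinearEquiv.symm_apply_apply, ofAdd_toAdd]
  refine ⟨R, iG, iF, Q, hN, e, f.comp χ, hES, hcard, hfsurj.comp hsurj, ?_, ?_, ?_⟩
  · rw [← hker]
    ext a
    rw [MonoidHom.mem_ker, MonoidHom.mem_ker, MonoidHom.comp_apply]
    exact map_eq_one_iff f hfinj
  · intro r a
    rw [MonoidHom.comp_apply, MonoidHom.comp_apply, hequiv r a, hf, hf, toAdd_ofAdd, toAdd_ofAdd,
      hγapp, LinearEquiv.symm_apply_apply]
  · intro a
    rw [hsq a, MonoidHom.comp_apply, hf, toAdd_ofAdd, ← hι, LinearEquiv.apply_symm_apply]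

end Cfsg.Agent.H83.ES
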