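import Mathlib
import Cfsg.Prelude.Def_Characters
import Cfsg.Agent.H4.Irr
import Cfsg.Agent.H4.Chars
import Cfsg.Agent.H4.Induction
import Cfsg.Agent.Lib.Clifford

/-!
# Fully ramified characters (helper83, S0900)

For `N ⊴ G`, `χ ∈ Irr(G)` over `ϑ ∈ Irr(N)`:
* `card_mul_classInner_res_add` : `|N| [χ|N, χ|N] + ∑_{g ∉ N} |χ g|² = |G| [χ, χ]`;
* `classInner_res_eq_index_iff` : `[χ|N, χ|N] = [G:N]` iff `χ` vanishes off `N`;
* `classInner_indFun_self_of_invariant` : `[ϑ^G, ϑ^G] = [G:N]` for invariant `ϑ`;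
* `res_eq_smul_of_invariant` : `χ|N = [χ|N, ϑ] • ϑ` for invariant `ϑ`;
* `fully_ramified_iff` : the statement S0900.
-/

set_option autoImplicit false
set_option linter.style.haveILetI false
set_option linter.unusedSectionVars false

namespace Cfsg.Agent.H83

open Cfsg Cfsg.Agent.H4 Cfsg.Agent.Clifford
open scoped ComplexConjugate

universe u

section FullyRamified

variable {G : Type u} [Group G] [Fintype G] (N : Subgroup G) [Fintype N]

open Classical in
theorem card_mul_classInner_res_add (χ : G → ℂ) :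
    (Nat.card N : ℂ) * classInner (fun n : N => χ n) (fun n : N => χ n) +
      ∑ g ∈ Finset.univ.filter (fun g : G => g ∉ N), χ g * conj (χ g) =
      (Nat.card G : ℂ) * classInner χ χ := by
  classical
  unfold classInner
  have hN0 : (Nat.card N : ℂ) ≠ 0 := by exact_mod_cast Nat.card_pos.ne'
  have hG0 : (Nat.card G : ℂ) ≠ 0 := by exact_mod_cast Nat.card_pos.ne'
  rw [mul_inv_cancel_left₀ hN0, mul_inv_cancel_left₀ hG0]
  rw [← Finset.sum_filter_add_sum_filter_not Finset.univ (fun g : G => g ∈ N)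
    (fun g => χ g * conj (χ g))]
  congr 1
  rw [Finset.sum_subtype (Finset.univ.filter (fun g : G => g ∈ N)) (p := fun g : G => g ∈ N)
    (by simp) (fun g => χ g * conj (χ g))]

theorem classInner_res_eq_index_iff {χ : G → ℂ} (hχ : classInner χ χ = 1) :
    classInner (fun n : N => χ n) (fun n : N => χ n) = (N.index : ℂ) ↔
      ∀ g : G, g ∉ N → χ g = 0 := by
  classical
  have key := card_mul_classInner_res_add N χ
  rw [hχ, mul_one] at key
  have hN0 : (Nat.card N : ℂ) ≠ 0 := by exact_mod_cast Nat.card_pos.ne'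
  have hidx : (Nat.card G : ℂ) = (Nat.card N : ℂ) * (N.index : ℂ) := by
    rw [← Subgroup.card_mul_index N]
    push_cast
    rfl
  constructor
  · intro h g hg
    rw [h, hidx] at key
    have hsum : ∑ g ∈ Finset.univ.filter (fun g : G => g ∉ N), χ g * conj (χ g) = 0 := by
      linear_combination key
    have hsum' : ∑ g ∈ Finset.univ.filter (fun g : G => g ∉ N), Complex.normSq (χ g) = 0 := by
      have : ((∑ g ∈ Finset.univ.filter (fun g : G => g ∉ N), Complex.normSq (χ g) : ℝ) : ℂ)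
          = 0 := by
        rw [← hsum]
        push_cast
        exact Finset.sum_congr rfl fun g _ => (Complex.mul_conj (χ g)).symm
      exact_mod_cast this
    have h0 := (Finset.sum_eq_zero_iff_of_nonneg (fun g _ => Complex.normSq_nonneg (χ g))).mp
      hsum' g (by simp [hg])
    exact Complex.normSq_eq_zero.mp h0
  · intro h
    have hsum : ∑ g ∈ Finset.univ.filter (fun g : G => g ∉ N), χ g * conj (χ g) = 0 := by
      apply Finset.sum_eq_zero
      intro g hg
      rw [h g (Finset.mem_filter.mp hg).2, zero_mul]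
    rw [hsum, add_zero, hidx] at key
    exact mul_left_cancel₀ hN0 key

variable [hN : N.Normal]

theorem classInner_indFun_self_of_invariant {ϑ : N → ℂ} (hϑ : IsIrrCharacter N ϑ)
    (hinv : ∀ g : G, conjChar N ϑ g = ϑ) :
    classInner (indFun N ϑ) (indFun N ϑ) = (N.index : ℂ) := by
  rw [frobenius_reciprocity N ϑ (indFun N ϑ) (indFun_isClassFunction N ϑ), indFun_res,
    classInner_smul_right, classInner_sum_right]
  simp only [hinv, classInner_irr_irr hϑ hϑ, if_true, Finset.sum_const, Finset.card_univ,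
    nsmul_eq_mul, mul_one]
  rw [map_inv₀, Complex.conj_natCast, ← Nat.card_eq_fintype_card, ← Subgroup.card_mul_index N]
  have hN0 : (Nat.card N : ℂ) ≠ 0 := by exact_mod_cast Nat.card_pos.ne'
  push_cast
  field_simp

theorem res_eq_smul_of_invariant {χ : G → ℂ} (hχ : IsIrrCharacter G χ) {ϑ : N → ℂ}
    (hϑ : IsIrrCharacter N ϑ) (hcon : classInner (fun n : N => χ n) ϑ ≠ 0)
    (hinv : ∀ g : G, conjChar N ϑ g = ϑ) :
    (fun n : N => χ n) = classInner (fun n : N => χ n) ϑ • ϑ := by
  have hres := clifford_res N hχ hϑ hcon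
  have hset : {ψ : N → ℂ | ∃ g : G, ψ = conjChar N ϑ g} = {ϑ} := by
    ext ψ
    simp only [Set.mem_ofPred_eq, Set.mem_singleton_iff]
    constructor
    · rintro ⟨g, rfl⟩
      exact hinv g
    · rintro rfl
      exact ⟨1, (hinv 1).symm⟩
  rw [hset, finsum_mem_singleton] at hres
  exact hres

theorem classInner_smul_smul_irr {ϑ : N → ℂ} (hϑ : IsIrrCharacter N ϑ) (e : ℕ) :
    classInner ((e : ℂ) • ϑ) ((e : ℂ) • ϑ) = ((e ^ 2 : ℕ) : ℂ) := by
  rw [classInner_smul_left, classInner_smul_right, classInner_irr_irr hϑ hϑ, if_pos rfl,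
    Complex.conj_natCast]
  push_cast
  ring

/-- **S0900**. -/
theorem fully_ramified_iff (χ : G → ℂ) (hχ : IsIrrCharacter G χ) (ϑ : N → ℂ)
    (hϑ : IsIrrCharacter N ϑ) (hcon : classInner (fun n : N => χ n) ϑ ≠ 0) :
    ((∃ e : ℕ, (fun n : N => χ n) = (e : ℂ) • ϑ ∧ e ^ 2 = N.index) ↔
      ((∀ g : G, g ∉ N → χ g = 0) ∧
        ∀ (g : G) (n : N), ϑ ⟨g * n * g⁻¹, hN.conj_mem (n : G) n.2 g⟩ = ϑ n)) ∧
    ((∃ e : ℕ, (fun n : N => χ n) = (e : ℂ) • ϑ ∧ e ^ 2 = N.index) ↔
      (∀ (g : G) (n : N), ϑ ⟨g * n * g⁻¹, hN.conj_mem (n : G) n.2 g⟩ = ϑ n ∧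
        ∀ ψ : G → ℂ, IsIrrCharacter G ψ → classInner (indFun N ϑ) ψ ≠ 0 → ψ = χ)) := by
  classical
  letI := fintypeIrr G
  have hχchar := isCharacter_of_isIrrCharacter hχ
  have hχc : IsClassFunction G χ := isClassFunction_of_isCharacter hχchar
  have hnorm : classInner χ χ = 1 := by
    rw [classInner_irr_irr hχ hχ, if_pos rfl]
  have hidx0 : N.index ≠ 0 := Subgroup.index_ne_zero_of_finite
  obtain ⟨e₀, he₀⟩ := classInner_isCharacter_nat (isCharacter_restrict N hχchar)
    (isCharacter_of_isIrrCharacter hϑ)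
  -- invariance in the two forms
  have hinv_iff : (∀ (g : G) (n : N), ϑ ⟨g * n * g⁻¹, hN.conj_mem (n : G) n.2 g⟩ = ϑ n) ↔
      ∀ g : G, conjChar N ϑ g = ϑ := by
    constructor
    · intro h g
      funext n
      exact h g n
    · intro h g n
      exact congrFun (h g) n
  -- (A) implies invariance
  have hA_inv : (∃ e : ℕ, (fun n : N => χ n) = (e : ℂ) • ϑ ∧ e ^ 2 = N.index) →
      ∀ g : G, conjChar N ϑ g = ϑ := by
    rintro ⟨e, hres, he⟩ g
    have he0 : (e : ℂ) ≠ 0 := by
      have : e ≠ 0 := by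
        rintro rfl
        exact hidx0 (by rw [← he]; simp)
      exact_mod_cast this
    have h1 := conjChar_res N hχc g
    rw [hres] at h1
    funext n
    have h2 := congrFun h1 n
    have h3 : conjChar N ((e : ℂ) • ϑ) g n = (e : ℂ) * conjChar N ϑ g n := rfl
    rw [h3] at h2
    exact mul_left_cancel₀ he0 h2
  -- with invariance, the restriction is `e₀ • ϑ`
  have hres_inv : (∀ g : G, conjChar N ϑ g = ϑ) → (fun n : N => χ n) = (e₀ : ℂ) • ϑ := by
    intro hinv
    have := res_eq_smul_of_invariant N hχ hϑ hcon hinv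
    rw [he₀] at this
    exact this
  -- multiplicities in the induced character
  have hΘ : IsCharacter G (indFun N ϑ) := isCharacter_indFun N ϑ (isCharacter_of_isIrrCharacter hϑ)
  obtain ⟨a, b, ha, hb, hab⟩ := classInner_char_eq_natCast_sum hΘ hΘ
  have hba : ∀ β, b β = a β := by
    intro β
    have h1 := hb β
    rw [← classInner_conj_symm, ha β, Complex.conj_natCast] at h1
    exact_mod_cast h1.symm
  rw [finsum_irr_eq_sum] at hab
  have haχ : ∀ e : ℕ, (fun n : N => χ n) = (e : ℂ) • ϑ → a ⟨χ, hχ⟩ = e := by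
    intro e hres
    have h1 := ha ⟨χ, hχ⟩
    rw [frobenius_reciprocity N ϑ χ hχc, hres, classInner_smul_right, classInner_irr_irr hϑ hϑ,
      if_pos rfl, Complex.conj_natCast, mul_one] at h1
    exact_mod_cast h1.symm
  have hsumsq : (∀ g : G, conjChar N ϑ g = ϑ) → N.index = ∑ β : IrrCharacter G, a β * a β := by
    intro hinv
    rw [classInner_indFun_self_of_invariant N hϑ hinv] at hab
    have : N.index = ∑ β : IrrCharacter G, a β * b β := by exact_mod_cast hab
    rw [this]
    exact Finset.sum_congr rfl fun β _ => by rw [hba]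
  refine ⟨⟨?_, ?_⟩, ⟨?_, ?_⟩⟩
  · -- (A) → (B)
    intro hA
    have hinv := hA_inv hA
    obtain ⟨e, hres, he⟩ := hA
    refine ⟨?_, hinv_iff.mpr hinv⟩
    apply (classInner_res_eq_index_iff N hnorm).mp
    rw [hres, classInner_smul_smul_irr N hϑ, he]
  · -- (B) → (A)
    rintro ⟨hvan, hinv'⟩
    have hinv := hinv_iff.mp hinv'
    have hres := hres_inv hinv
    refine ⟨e₀, hres, ?_⟩
    have h1 := (classInner_res_eq_index_iff N hnorm).mpr hvan
    rw [hres, classInner_smul_smul_irr N hϑ] at h1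
    exact_mod_cast h1
  · -- (A) → (C)
    intro hA
    have hinv := hA_inv hA
    obtain ⟨e, hres, he⟩ := hA
    intro g n
    refine ⟨hinv_iff.mpr hinv g n, ?_⟩
    intro ψ hψ hne
    by_contra hψχ
    have hne' : (⟨ψ, hψ⟩ : IrrCharacter G) ≠ ⟨χ, hχ⟩ := fun h => hψχ (congrArg Subtype.val h)
    have haψ : a ⟨ψ, hψ⟩ ≠ 0 := by
      intro h0
      apply hne
      rw [ha ⟨ψ, hψ⟩, h0]
      simp
    have hpair : ∑ β ∈ ({⟨ψ, hψ⟩, ⟨χ, hχ⟩} : Finset (IrrCharacter G)), a β * a β ≤
        ∑ β : IrrCharacter G, a β * a β :=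
      Finset.sum_le_sum_of_subset (Finset.subset_univ _)
    rw [Finset.sum_pair hne', ← hsumsq hinv, haχ e hres, ← he] at hpair
    have hpos : 0 < a ⟨ψ, hψ⟩ * a ⟨ψ, hψ⟩ := Nat.mul_pos (Nat.pos_of_ne_zero haψ)
      (Nat.pos_of_ne_zero haψ)
    nlinarith
  · -- (C) → (A)
    intro hC
    have hinv : ∀ g : G, conjChar N ϑ g = ϑ := hinv_iff.mp (fun g n => (hC g n).1)
    have huniq := (hC 1 1).2
    have hres := hres_inv hinv
    refine ⟨e₀, hres, ?_⟩
    rw [hsumsq hinv, Finset.sum_eq_single (⟨χ, hχ⟩ : IrrCharacter G), haχ e₀ hres, pow_two]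
    · intro β _ hβ
      have h0 : a β = 0 := by
        by_contra h0
        apply hβ
        apply Subtype.ext
        apply huniq β.1 β.2
        rw [ha β]
        exact_mod_cast h0
      rw [h0, mul_zero]
    · intro h
      exact absurd (Finset.mem_univ _) h

end FullyRamified

end Cfsg.Agent.H83
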