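import Mathlib

/-!
# JZ (S2951/S2952): abstract core of (K2) of the kill

`V = ⨆ W i` with pairwise commuting blocks `W i` (four-groups), subgroups `Kc i` with `Kc j`
centralizing `W i` for `i ≠ j`, and every `w ∈ W i` conjugate under `Kc i` into `Z ⊓ W i`:
then every `u ∈ V` is conjugate under `⨆ Kc i` into `Z ⊓ V`.
Also: a subgroup generated by odd-order elements, normalizing a four-group `W` without
nontrivial fixed points, is transitive on `W ∖ 1`.
-/

set_option autoImplicit false

namespace Cfsg.Agent.H83.JzConj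

open Subgroup

variable {G : Type*} [Group G]

/-- decomposition in a join of two elementwise commuting subgroups -/
theorem mem_sup_comm {A B : Subgroup G} (hAB : ∀ a ∈ A, ∀ b ∈ B, a * b = b * a) {x : G}
    (hx : x ∈ A ⊔ B) : ∃ a ∈ A, ∃ b ∈ B, x = a * b := by
  rw [Subgroup.sup_eq_closure] at hx
  induction hx using Subgroup.closure_induction with
  | mem x hx =>
    rcases hx with h | h
    · exact ⟨x, h, 1, B.one_mem, (mul_one x).symm⟩
    · exact ⟨1, A.one_mem, x, h, (one_mul x).symm⟩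
  | one => exact ⟨1, A.one_mem, 1, B.one_mem, (mul_one 1).symm⟩
  | mul x y _ _ hx hy =>
    obtain ⟨a, ha, b, hb, rfl⟩ := hx
    obtain ⟨a', ha', b', hb', rfl⟩ := hy
    refine ⟨a * a', A.mul_mem ha ha', b * b', B.mul_mem hb hb', ?_⟩
    have h := hAB a' ha' b hb
    calc a * b * (a' * b') = a * (b * a') * b' := by group
      _ = a * (a' * b) * b' := by rw [← h]
      _ = a * a' * (b * b') := by group
  | inv x _ hx =>
    obtain ⟨a, ha, b, hb, rfl⟩ := hx
    refine ⟨a⁻¹, A.inv_mem ha, b⁻¹, B.inv_mem hb, ?_⟩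
    have h := hAB a ha b hb
    rw [h, mul_inv_rev]

/-- (K2) abstract: conjugating every block component into `Z`. -/
theorem conj_into {ι : Type*} [Finite ι] (W Kc : ι → Subgroup G) (Z : Subgroup G)
    (hcomm : ∀ i j, ∀ a ∈ W i, ∀ b ∈ W j, a * b = b * a)
    (hcent : ∀ i j, i ≠ j → ∀ w ∈ W i, ∀ k ∈ Kc j, k * w = w * k)
    (htrans : ∀ i, ∀ w ∈ W i, ∃ k ∈ Kc i, k * w * k⁻¹ ∈ Z ⊓ W i)
    {u : G} (hu : u ∈ ⨆ i, W i) :
    ∃ k ∈ ⨆ i, Kc i, k * u * k⁻¹ ∈ Z ⊓ ⨆ i, W i := by
  classical
  haveI : Fintype ι := Fintype.ofFinite ι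
  have key : ∀ s : Finset ι, ∀ u ∈ ⨆ i ∈ s, W i,
      ∃ k ∈ ⨆ i ∈ s, Kc i, k * u * k⁻¹ ∈ ⨆ i ∈ s, (Z ⊓ W i) := by
    intro s
    induction s using Finset.induction_on with
    | empty =>
      intro u hu
      simp only [Finset.notMem_empty, iSup_false, iSup_bot, Subgroup.mem_bot] at hu ⊢
      exact ⟨1, rfl, by simp [hu]⟩
    | insert j s hj ih =>
      intro u hu
      rw [Finset.iSup_insert] at hu
      -- the blocks in `s` commute with `W j`
      have hcomm' : ∀ a ∈ W j, ∀ b ∈ ⨆ i ∈ s, W i, a * b = b * a := by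
        intro a ha b hb
        have hle : (⨆ i ∈ s, W i) ≤ Subgroup.centralizer ({a} : Set G) := by
          refine iSup₂_le fun i _ => ?_
          intro x hx
          rw [Subgroup.mem_centralizer_iff]
          intro y hy
          rw [Set.mem_singleton_iff] at hy
          rw [hy]; exact hcomm j i a ha x hx
        have := Subgroup.mem_centralizer_iff.mp (hle hb) a (Set.mem_singleton a)
        exact this
      obtain ⟨w, hw, v, hv, rfl⟩ := mem_sup_comm hcomm' hu
      obtain ⟨k₁, hk₁, hk₁v⟩ := ih v hv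
      obtain ⟨k₂, hk₂, hk₂w⟩ := htrans j w hw
      -- `k₁` centralizes `w`
      have h1 : k₁ * w = w * k₁ := by
        have hle : (⨆ i ∈ s, Kc i) ≤ Subgroup.centralizer ({w} : Set G) := by
          refine iSup₂_le fun i hi => ?_
          intro x hx
          rw [Subgroup.mem_centralizer_iff]
          intro y hy
          rw [Set.mem_singleton_iff] at hy
          rw [hy]
          have hne : j ≠ i := fun h => hj (h ▸ hi)
          exact (hcent j i hne w hw x hx).symm
        have := Subgroup.mem_centralizer_iff.mp (hle hk₁) w (Set.mem_singleton w)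
        exact this.symm
      -- `k₂` centralizes `k₁ v k₁⁻¹`
      have h2 : k₂ * (k₁ * v * k₁⁻¹) = (k₁ * v * k₁⁻¹) * k₂ := by
        have hle : (⨆ i ∈ s, (Z ⊓ W i)) ≤ Subgroup.centralizer ({k₂} : Set G) := by
          refine iSup₂_le fun i hi => ?_
          intro x hx
          rw [Subgroup.mem_centralizer_iff]
          intro y hy
          rw [Set.mem_singleton_iff] at hy
          rw [hy]
          have hne : i ≠ j := fun h => hj (h ▸ hi)
          exact hcent i j hne x hx.2 k₂ hk₂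
        have := Subgroup.mem_centralizer_iff.mp (hle hk₁v) k₂ (Set.mem_singleton k₂)
        exact this
      refine ⟨k₂ * k₁, ?_, ?_⟩
      · rw [Finset.iSup_insert]
        exact Subgroup.mul_mem _ (Subgroup.mem_sup_left hk₂) (Subgroup.mem_sup_right hk₁)
      · rw [Finset.iSup_insert]
        have e : k₂ * k₁ * (w * v) * (k₂ * k₁)⁻¹ = (k₂ * w * k₂⁻¹) * (k₁ * v * k₁⁻¹) := by
          have e1 : k₂ * k₁ * (w * v) * (k₂ * k₁)⁻¹ = k₂ * (k₁ * w) * (v * k₁⁻¹) * k₂⁻¹ := by
            group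
          have e2 : k₂ * (w * k₁) * (v * k₁⁻¹) * k₂⁻¹ = k₂ * w * (k₁ * v * k₁⁻¹) * k₂⁻¹ := by
            group
          have e3 : k₂ * w * (k₁ * v * k₁⁻¹) * k₂⁻¹ = k₂ * w * k₂⁻¹ * (k₂ * (k₁ * v * k₁⁻¹)) * k₂⁻¹ := by
            group
          rw [e1, h1, e2, e3, h2]; group
        rw [e]
        exact Subgroup.mul_mem _ (Subgroup.mem_sup_left hk₂w) (Subgroup.mem_sup_right hk₁v)
  have hu' : u ∈ ⨆ i ∈ (Finset.univ : Finset ι), W i := by
    simpa using hu
  obtain ⟨k, hk, hku⟩ := key Finset.univ u hu'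
  refine ⟨k, by simpa using hk, ?_⟩
  have hle : (⨆ i ∈ (Finset.univ : Finset ι), (Z ⊓ W i)) ≤ Z ⊓ ⨆ i, W i := by
    refine iSup₂_le fun i _ => ?_
    exact le_inf inf_le_left (inf_le_right.trans (le_iSup W i))
  exact hle hku

/-- enumeration of a four-group -/
theorem four_enum {W : Subgroup G} (hWcard : Nat.card ↥W = 4) (hW2 : ∀ w ∈ W, w * w = 1)
    {x y : G} (hx : x ∈ W) (hy : y ∈ W) (hx1 : x ≠ 1) (hy1 : y ≠ 1) (hxy : x ≠ y) :
    ∀ v ∈ W, v = 1 ∨ v = x ∨ v = y ∨ v = x * y := by
  classical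
  have h1 : x * y ≠ 1 := by
    intro h
    have hyy : y * y = 1 := hW2 y hy
    exact hxy (mul_right_cancel (h.trans hyy.symm))
  have h2 : x ≠ x * y := fun h => hy1 (left_eq_mul.mp h)
  have h3 : y ≠ x * y := fun h => hx1 (right_eq_mul.mp h)
  have hc : ({1, x, y, x * y} : Finset G).card = 4 := by
    rw [Finset.card_insert_of_notMem, Finset.card_insert_of_notMem,
      Finset.card_insert_of_notMem, Finset.card_singleton]
    · simpa using h3
    · simp only [Finset.mem_insert, Finset.mem_singleton, not_or]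
      exact ⟨hxy, h2⟩
    · simp only [Finset.mem_insert, Finset.mem_singleton, not_or]
      exact ⟨fun h => hx1 h.symm, fun h => hy1 h.symm, fun h => h1 h.symm⟩
  have hsub : ((({1, x, y, x * y} : Finset G) : Set G)) ⊆ (W : Set G) := by
    intro v hv
    simp only [Finset.coe_insert, Finset.coe_singleton, Set.mem_insert_iff,
      Set.mem_singleton_iff] at hv
    rcases hv with rfl | rfl | rfl | rfl
    · exact W.one_mem
    · exact hx
    · exact hy
    · exact W.mul_mem hx hy
  have hWn : (W : Set G).ncard = 4 := by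
    rw [← Nat.card_coe_set_eq]; exact hWcard
  have hfin : (W : Set G).Finite := Set.finite_of_ncard_ne_zero (by rw [hWn]; norm_num)
  have heq : ((({1, x, y, x * y} : Finset G) : Set G)) = (W : Set G) := by
    apply Set.eq_of_subset_of_ncard_le hsub _ hfin
    rw [Set.ncard_coe_finset, hc, hWn]
  intro v hv
  have hv' : v ∈ ((({1, x, y, x * y} : Finset G) : Set G)) := by rw [heq]; exact hv
  simpa using hv'

/-- a subgroup generated by odd-order elements, normalizing a four-group `W` without nontrivial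
fixed points, is transitive on `W ∖ 1`: every `w ∈ W` is conjugate into any nontrivial `Z ⊓ W`. -/
theorem trans_of_odd {W Kc Z : Subgroup G} (hW2 : ∀ w ∈ W, w * w = 1) (hWcard : Nat.card ↥W = 4)
    (hKW : Kc ≤ Subgroup.normalizer (W : Set G))
    (hgen : Subgroup.closure {g : G | g ∈ Kc ∧ Odd (orderOf g)} = Kc)
    (hfix : W ⊓ Subgroup.centralizer (Kc : Set G) = ⊥) (hZ : Z ⊓ W ≠ ⊥) :
    ∀ w ∈ W, ∃ k ∈ Kc, k * w * k⁻¹ ∈ Z ⊓ W := by
  intro w hw
  by_cases hw1 : w = 1
  · exact ⟨1, Kc.one_mem, by rw [hw1]; simp⟩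
  obtain ⟨⟨t, ht⟩, ht1'⟩ := (Subgroup.ne_bot_iff_exists_ne_one).mp hZ
  have ht1 : t ≠ 1 := fun h => ht1' (Subtype.ext h)
  have htW : t ∈ W := ht.2
  by_cases hwt : w = t
  · exact ⟨1, Kc.one_mem, by rw [hwt]; simpa using ht⟩
  -- an odd-order element of `Kc` not centralizing `W`
  have hy : ∃ y ∈ Kc, Odd (orderOf y) ∧ ∃ v ∈ W, y * v ≠ v * y := by
    by_contra hcon
    push_neg at hcon
    have hle : Kc ≤ Subgroup.centralizer (W : Set G) := by
      rw [← hgen, Subgroup.closure_le]
      intro g hg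
      rw [SetLike.mem_coe, Subgroup.mem_centralizer_iff]
      intro v hv
      exact (hcon g hg.1 hg.2 v hv).symm
    have hmem : w ∈ W ⊓ Subgroup.centralizer (Kc : Set G) := by
      refine Subgroup.mem_inf.mpr ⟨hw, ?_⟩
      rw [Subgroup.mem_centralizer_iff]
      intro k hk
      have := Subgroup.mem_centralizer_iff.mp (hle hk) w hw
      exact this.symm
    rw [hfix, Subgroup.mem_bot] at hmem
    exact hw1 hmem
  obtain ⟨y, hyK, hyodd, v0, hv0, hyv0⟩ := hy
  have hyW : ∀ v ∈ W, y * v * y⁻¹ ∈ W := fun v hv =>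
    ((Subgroup.mem_normalizer_iff.mp (hKW hyK)) v).mp hv
  have hconj1 : ∀ v : G, y * v * y⁻¹ = 1 → v = 1 := by
    intro v h
    have : v = y⁻¹ * (y * v * y⁻¹) * y := by group
    rw [this, h]; group
  -- Claim A: `y` fixes no nontrivial element of `W`
  have claimA : ∀ x ∈ W, x ≠ 1 → y * x * y⁻¹ ≠ x := by
    intro x hx hx1 hfixx
    have hyx : y * x = x * y := mul_inv_eq_iff_eq_mul.mp hfixx
    have hv01 : v0 ≠ 1 := by
      rintro rfl
      exact hyv0 (by rw [mul_one, one_mul])
    have hv0x : v0 ≠ x := by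
      rintro rfl
      exact hyv0 hyx
    have henum := four_enum hWcard hW2 hx hv0 hx1 hv01 (Ne.symm hv0x)
    rcases henum _ (hyW v0 hv0) with h | h | h | h
    · exact hv01 (hconj1 v0 h)
    · have h5 : y * v0 * y⁻¹ = y * x * y⁻¹ := by rw [h, hfixx]
      exact hv0x (mul_left_cancel (mul_right_cancel h5))
    · exact hyv0 (mul_inv_eq_iff_eq_mul.mp h)
    · have e : y * y * v0 * (y * y)⁻¹ = (y * (y * v0 * y⁻¹) * y⁻¹) := by group
      have e2 : y * (x * v0) * y⁻¹ = (y * x * y⁻¹) * (y * v0 * y⁻¹) := by group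
      have h2 : y * y * v0 * (y * y)⁻¹ = v0 := by
        rw [e, h, e2, hfixx, h, ← mul_assoc, hW2 x hx, one_mul]
      have hc : Commute (y * y) v0 := mul_inv_eq_iff_eq_mul.mp h2
      obtain ⟨m, hm⟩ := hyodd
      have hy_pow : (y * y) ^ (m + 1) = y := by
        rw [← pow_two, ← pow_mul]
        have : 2 * (m + 1) = orderOf y + 1 := by omega
        rw [this, pow_succ, pow_orderOf_eq_one, one_mul]
      have hc2 := hc.pow_left (m + 1)
      rw [hy_pow] at hc2
      exact hyv0 hc2
  have henum := four_enum hWcard hW2 hw htW hw1 ht1 hwt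
  rcases henum _ (hyW w hw) with h | h | h | h
  · exact absurd (hconj1 w h) hw1
  · exact absurd h (claimA w hw hw1)
  · exact ⟨y, hyK, by rw [h]; exact ht⟩
  · have hwt1 : w * t ≠ 1 := by
      intro h0
      have htt : t * t = 1 := hW2 t htW
      exact hwt (mul_right_cancel (h0.trans htt.symm))
    have hwtW : w * t ∈ W := W.mul_mem hw htW
    rcases henum _ (hyW (w * t) hwtW) with h' | h' | h' | h'
    · exact absurd (hconj1 _ h') hwt1
    · have e : y * (w * t) * y⁻¹ = (y * w * y⁻¹) * (y * t * y⁻¹) := by group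
      rw [e, h] at h'
      have h3 : t * (y * t * y⁻¹) = 1 := by
        rw [mul_assoc] at h'
        exact mul_eq_left.mp h'
      have h4 : t * t = 1 := hW2 t htW
      exact absurd (mul_left_cancel (h3.trans h4.symm)) (claimA t htW ht1)
    · refine ⟨y * y, Kc.mul_mem hyK hyK, ?_⟩
      have e : y * y * w * (y * y)⁻¹ = y * (y * w * y⁻¹) * y⁻¹ := by group
      rw [e, h, h']; exact ht
    · exact absurd h' (claimA (w * t) hwtW hwt1)

end Cfsg.Agent.H83.JzConj
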