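import Mathlib
import Cfsg.Prelude.Def_Characters
import Cfsg.Agent.H4.Irr
import Cfsg.Agent.H78.FrobSchur5
import Cfsg.Agent.H78.FrobSchur3
import Cfsg.Agent.H81.Counting

/-!
# Real representations and the Frobenius–Schur indicator (helper83)

An irreducible character has Frobenius–Schur indicator `1` iff it is afforded by a real
representation.
-/

set_option autoImplicit false
set_option linter.unusedSectionVars false
set_option linter.style.haveILetI false

namespace Cfsg.Agent.H83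

open Matrix Module
open scoped ComplexConjugate

universe u

section IrrOfChar

variable {G : Type u} [Group G] [Finite G]

/-- A complex representation of a finite group whose character is an irreducible character is
irreducible. -/
theorem isIrreducible_of_isIrrCharacter {V : Type*} [AddCommGroup V] [Module ℂ V]
    [FiniteDimensional ℂ V] (ρ : Representation ℂ G V)
    (h : Cfsg.IsIrrCharacter G ρ.character) : ρ.IsIrreducible := by
  classical
  haveI : Fintype G := Fintype.ofFinite G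
  have h1 : ρ.character 1 ≠ 0 := Cfsg.Agent.H81.irr_one_ne_zero ⟨_, h⟩
  have hV : Nontrivial V := by
    by_contra hV
    rw [not_nontrivial_iff_subsingleton] at hV
    apply h1
    rw [Representation.char_one]
    have : Module.finrank ℂ V = 0 := Module.finrank_zero_of_subsingleton
    simp [this]
  obtain ⟨U, hU⟩ := Cfsg.Agent.H4.exists_irreducible_subrep ρ
  haveI := Cfsg.Agent.H4.neZero_card_complex G
  obtain ⟨W, hW⟩ := exists_isCompl U
  have hchar := Cfsg.Agent.H4.character_of_isCompl ρ U W hW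
  let χ : Cfsg.IrrCharacter G := ⟨ρ.character, h⟩
  let χU : Cfsg.IrrCharacter G :=
    ⟨U.toRepresentation.character, Cfsg.Agent.H4.isIrrCharacter_of_irreducible _ hU⟩
  have hin := Cfsg.Agent.H4.irr_inner χ χU
  have hWU := Cfsg.Agent.H4.classInner_character U.toRepresentation W.toRepresentation
  have hUU : Cfsg.classInner U.toRepresentation.character U.toRepresentation.character = 1 :=
    Cfsg.Agent.H4.irr_inner_self χU
  have hsum : Cfsg.classInner ρ.character U.toRepresentation.character =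
      1 + (finrank ℂ (Representation.IntertwiningMap U.toRepresentation W.toRepresentation) : ℂ) := by
    rw [hchar, Cfsg.Agent.H4.classInner_add_left, hWU, hUU]
  have hχ : χ = χU := by
    by_contra hne
    rw [if_neg hne] at hin
    have : (1 : ℂ) + (finrank ℂ
        (Representation.IntertwiningMap U.toRepresentation W.toRepresentation) : ℂ) = 0 := by
      rw [← hsum]; exact hin
    have h2 : ((1 + finrank ℂ
        (Representation.IntertwiningMap U.toRepresentation W.toRepresentation) : ℕ) : ℂ) = 0 := by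
      push_cast; exact this
    exact absurd (Nat.cast_eq_zero.mp h2) (by omega)
  have hχ' : ρ.character = U.toRepresentation.character := congrArg Subtype.val hχ
  have hW0 : W.toRepresentation.character = 0 := by
    have := hchar
    rw [hχ'] at this
    exact left_eq_add.mp this
  have hWfin : finrank ℂ W.toSubmodule = 0 := by
    have := congrFun hW0 1
    rw [Representation.char_one, Pi.zero_apply] at this
    exact_mod_cast this
  have hWbot : W.toSubmodule = ⊥ := Submodule.finrank_eq_zero.mp hWfin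
  have hUtop : U.toSubmodule = ⊤ := by
    have := (Cfsg.Agent.H4.isCompl_toSubmodule hW).2.eq_top
    rw [hWbot, sup_bot_eq] at this
    exact this
  refine (Cfsg.Agent.H4.isIrreducible_iff ρ).mpr ⟨hV, fun U' hU' => ?_⟩
  have hcase := ((Cfsg.Agent.H4.isIrreducible_iff U.toRepresentation).mp hU).2
    (U'.comap U.toSubmodule.subtype) (by
      intro g v hv
      rw [Submodule.mem_comap] at hv ⊢
      exact hU' g _ hv)
  have hmc := Submodule.map_comap_subtype U.toSubmodule U'
  have hU'eq : U' = Submodule.map U.toSubmodule.subtype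
      (Submodule.comap U.toSubmodule.subtype U') := by
    rw [hmc, hUtop, top_inf_eq]
  rcases hcase with h3 | h3
  · left
    rw [hU'eq, h3, Submodule.map_bot]
  · right
    rw [hU'eq, h3, Submodule.map_top, Submodule.range_subtype, hUtop]

end IrrOfChar


section Real

variable {n : ℕ}

/-- Entrywise complex conjugate of a matrix. -/
noncomputable def cj (M : Matrix (Fin n) (Fin n) ℂ) : Matrix (Fin n) (Fin n) ℂ :=
  M.map (starRingEnd ℂ)

theorem cj_apply (M : Matrix (Fin n) (Fin n) ℂ) (i j : Fin n) : cj M i j = conj (M i j) := rfl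

theorem cj_mul (M N : Matrix (Fin n) (Fin n) ℂ) : cj (M * N) = cj M * cj N := by
  ext i j
  simp [cj, Matrix.mul_apply, map_sum]

theorem cj_one : cj (1 : Matrix (Fin n) (Fin n) ℂ) = 1 := by
  ext i j
  by_cases h : i = j <;> simp [cj, Matrix.one_apply, h]

theorem cj_cj (M : Matrix (Fin n) (Fin n) ℂ) : cj (cj M) = M := by
  ext i j
  simp [cj]

theorem cj_smul (c : ℂ) (M : Matrix (Fin n) (Fin n) ℂ) : cj (c • M) = conj c • cj M := by
  ext i j
  simp [cj]

theorem cj_add (M N : Matrix (Fin n) (Fin n) ℂ) : cj (M + N) = cj M + cj N := by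
  ext i j
  simp [cj]

theorem cj_transpose (M : Matrix (Fin n) (Fin n) ℂ) : cj Mᵀ = Mᴴ := by
  ext i j
  simp [cj, Matrix.conjTranspose_apply]

theorem transpose_conjTranspose_eq_cj (M : Matrix (Fin n) (Fin n) ℂ) : Mᴴᵀ = cj M := by
  ext i j
  simp [cj, Matrix.conjTranspose_apply]

theorem conjTranspose_transpose_eq_cj (M : Matrix (Fin n) (Fin n) ℂ) : Mᵀᴴ = cj M := by
  ext i j
  simp [cj, Matrix.conjTranspose_apply]

theorem trace_mul_conjTranspose_self_eq (A : Matrix (Fin n) (Fin n) ℂ) :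
    (A * Aᴴ).trace = ((∑ i, ∑ j, Complex.normSq (A i j) : ℝ) : ℂ) := by
  simp only [Matrix.trace, Matrix.diag_apply, Matrix.mul_apply, Matrix.conjTranspose_apply,
    Complex.star_def, Complex.mul_conj]
  push_cast
  rfl

/-- Hilbert 90 for `GL n ℂ` over `ℝ`: a family of matrices intertwined with its conjugate by
`S` with `S * conj S = 1` is simultaneously conjugate to a family of real matrices. -/
theorem exists_real_conj {G : Type*} (X : G → Matrix (Fin n) (Fin n) ℂ)
    (S : Matrix (Fin n) (Fin n) ℂ) (hS : S * cj S = 1) (hXS : ∀ g, X g * S = S * cj (X g)) :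
    ∃ A : Matrix (Fin n) (Fin n) ℂ, IsUnit A ∧ ∀ g, cj (A⁻¹ * X g * A) = A⁻¹ * X g * A := by
  have key : ∀ a : ℂ, S * cj (a • (1 : Matrix (Fin n) (Fin n) ℂ) + conj a • S) =
      a • (1 : Matrix (Fin n) (Fin n) ℂ) + conj a • S := by
    intro a
    rw [cj_add, cj_smul, cj_smul, cj_one, Complex.conj_conj, Matrix.mul_add, Matrix.mul_smul,
      Matrix.mul_smul, Matrix.mul_one, hS, add_comm]
  obtain ⟨a, ha⟩ : ∃ a : ℂ, IsUnit (a • (1 : Matrix (Fin n) (Fin n) ℂ) + conj a • S) := by
    have hfin := Matrix.finite_spectrum S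
    let f : ℝ → ℂ := fun t => -((1 + t * Complex.I) / (1 - t * Complex.I))
    have hden : ∀ t : ℝ, (1 - t * Complex.I : ℂ) ≠ 0 := by
      intro t h0
      have := congrArg Complex.re h0
      simp at this
    have hf : Function.Injective f := by
      intro t₁ t₂ h
      simp only [f, neg_inj] at h
      rw [div_eq_div_iff (hden t₁) (hden t₂)] at h
      have h2 : (2 * (t₁ - t₂) : ℂ) * Complex.I = 0 := by linear_combination h
      have h3 : ((t₁ - t₂ : ℝ) : ℂ) = 0 := by
        rcases mul_eq_zero.mp h2 with h4 | h4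
        · rcases mul_eq_zero.mp h4 with h5 | h5
          · exact absurd h5 (by norm_num)
          · push_cast; exact h5
        · exact absurd h4 Complex.I_ne_zero
      have h4 : t₁ - t₂ = 0 := by exact_mod_cast h3
      linarith
    obtain ⟨t, ht⟩ : ∃ t : ℝ, f t ∉ spectrum ℂ S := by
      by_contra hcon
      push Not at hcon
      have h1 : (Set.univ : Set ℝ).Finite := by
        have := hfin.preimage (hf.injOn (s := f ⁻¹' spectrum ℂ S))
        have h2 : f ⁻¹' spectrum ℂ S = Set.univ := Set.eq_univ_of_forall hcon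
        rw [h2] at this
        exact this
      exact Set.infinite_univ h1
    refine ⟨1 + t * Complex.I, ?_⟩
    have hu : IsUnit (algebraMap ℂ (Matrix (Fin n) (Fin n) ℂ) (f t) - S) := by
      by_contra h
      exact ht (spectrum.mem_iff.mpr h)
    have hconj : conj (1 + t * Complex.I : ℂ) = 1 - t * Complex.I := by
      simp [sub_eq_add_neg]
    have heq : (1 + t * Complex.I : ℂ) • (1 : Matrix (Fin n) (Fin n) ℂ) +
        conj (1 + t * Complex.I : ℂ) • S =
        (-(1 - t * Complex.I : ℂ)) • (algebraMap ℂ (Matrix (Fin n) (Fin n) ℂ) (f t) - S) := by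
      rw [hconj, Algebra.algebraMap_eq_smul_one, smul_sub, smul_smul]
      have : -(1 - t * Complex.I : ℂ) * f t = 1 + t * Complex.I := by
        simp only [f]
        field_simp [hden t]
      rw [this, neg_smul, sub_neg_eq_add]
    rw [heq, Matrix.isUnit_iff_isUnit_det, Matrix.det_smul]
    refine IsUnit.mul (IsUnit.pow _ ?_) ((Matrix.isUnit_iff_isUnit_det _).mp hu)
    exact isUnit_iff_ne_zero.mpr (neg_ne_zero.mpr (hden t))
  refine ⟨_, ha, fun g => ?_⟩
  set A := a • (1 : Matrix (Fin n) (Fin n) ℂ) + conj a • S with hA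
  have hdet : IsUnit A.det := (Matrix.isUnit_iff_isUnit_det A).mp ha
  have hAY : A * (A⁻¹ * X g * A) = X g * A := by
    rw [← mul_assoc, ← mul_assoc, Matrix.mul_nonsing_inv A hdet, one_mul]
  have h1 : A * cj (A⁻¹ * X g * A) = A * (A⁻¹ * X g * A) := by
    calc A * cj (A⁻¹ * X g * A) = S * cj A * cj (A⁻¹ * X g * A) := by rw [key a]
      _ = S * cj (A * (A⁻¹ * X g * A)) := by rw [mul_assoc, ← cj_mul]
      _ = S * cj (X g * A) := by rw [hAY]
      _ = S * cj (X g) * cj A := by rw [cj_mul, mul_assoc]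
      _ = X g * (S * cj A) := by rw [← hXS g, mul_assoc]
      _ = X g * A := by rw [key a]
      _ = A * (A⁻¹ * X g * A) := hAY.symm
  exact ha.mul_left_cancel h1


open Cfsg.Agent.H78 in
/-- An irreducible matrix representation with Frobenius–Schur indicator `1` is conjugate to a
real matrix representation. -/
theorem exists_real_matrices {G : Type*} [Group G] [Fintype G]
    (ρ : Representation ℂ G (Fin n → ℂ)) (hirr : ρ.IsIrreducible)
    (hind : (Nat.card G : ℂ)⁻¹ * ∑ s : G, ρ.character (s * s) = 1) :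
    ∃ A : Matrix (Fin n) (Fin n) ℂ, IsUnit A ∧
      ∀ g, cj (A⁻¹ * mat ρ g * A) = A⁻¹ * mat ρ g * A := by
  classical
  have hreal : ∀ g, (ρ.character g).im = 0 := by
    by_contra hne
    push Not at hne
    obtain ⟨s, hs⟩ := hne
    have := (frobSchur_indicator ρ hirr).2.mpr ⟨s, hs⟩
    rw [hind] at this
    exact one_ne_zero this
  obtain ⟨⟨M, hM0, hM⟩, hsym⟩ := frobSchur_real ρ hirr hreal
  have hMT : Mᵀ = M := by rw [hsym M hM, hind, one_smul]
  have hMu : IsUnit M := isUnit_of_mem_invForms ρ hirr hM hM0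
  have hMdet : IsUnit M.det := (Matrix.isUnit_iff_isUnit_det M).mp hMu
  obtain ⟨X, hX⟩ : ∃ X : G → Matrix (Fin n) (Fin n) ℂ, X = mat ρ := ⟨_, rfl⟩
  have hXmul : ∀ g h, X (g * h) = X g * X h := by intro g h; rw [hX, mat_mul]
  have hX1 : X 1 = 1 := by rw [hX, mat_one]
  obtain ⟨B, hB⟩ : ∃ B : Matrix (Fin n) (Fin n) ℂ, B = M⁻¹ := ⟨_, rfl⟩
  have hBM : B * M = 1 := by rw [hB]; exact Matrix.nonsing_inv_mul M hMdet
  have hMB : M * B = 1 := by rw [hB]; exact Matrix.mul_nonsing_inv M hMdet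
  have hBT : Bᵀ = B := by rw [hB, Matrix.transpose_nonsing_inv, hMT]
  have hB0 : B ≠ 0 := by
    intro h0
    apply hM0
    calc M = M * (B * M) := by rw [hBM, mul_one]
      _ = 0 := by rw [h0, zero_mul, mul_zero]
  have hXB : ∀ g, X g * B * (X g)ᵀ = B := by
    intro g
    have h1 : (X g)ᵀ * M = M * X g⁻¹ := by
      have := invForms_intertwine ρ hM g⁻¹
      rw [inv_inv] at this
      rw [hX]; exact this.symm
    calc X g * B * (X g)ᵀ = X g * B * (X g)ᵀ * (M * B) := by rw [hMB, mul_one]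
      _ = X g * B * ((X g)ᵀ * M) * B := by simp only [mul_assoc]
      _ = X g * B * (M * X g⁻¹) * B := by rw [h1]
      _ = X g * (B * M) * X g⁻¹ * B := by simp only [mul_assoc]
      _ = B := by rw [hBM, mul_one, ← hXmul, mul_inv_cancel, hX1, one_mul]
  obtain ⟨H, hHdef⟩ : ∃ H : Matrix (Fin n) (Fin n) ℂ, H = ∑ g : G, (X g)ᴴ * X g := ⟨_, rfl⟩
  have hH : ∀ h, (X h)ᴴ * H * X h = H := by
    intro h
    rw [hHdef, Finset.mul_sum, Finset.sum_mul]
    rw [← Equiv.sum_comp (Equiv.mulRight h) (fun g => (X g)ᴴ * X g)]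
    refine Finset.sum_congr rfl fun g _ => ?_
    simp only [Equiv.coe_mulRight, hXmul, Matrix.conjTranspose_mul, mul_assoc]
  have hHH : Hᴴ = H := by
    rw [hHdef, Matrix.conjTranspose_sum]
    refine Finset.sum_congr rfl fun g _ => ?_
    rw [Matrix.conjTranspose_mul, Matrix.conjTranspose_conjTranspose]
  have hHT : ∀ h, (X h)ᵀ * Hᵀ * cj (X h) = Hᵀ := by
    intro h
    have := congrArg Matrix.transpose (hH h)
    rw [Matrix.transpose_mul, Matrix.transpose_mul, transpose_conjTranspose_eq_cj,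
      ← mul_assoc] at this
    exact this
  have hcjHT : cj Hᵀ = H := by rw [cj_transpose, hHH]
  obtain ⟨S, hSdef⟩ : ∃ S : Matrix (Fin n) (Fin n) ℂ, S = B * Hᵀ := ⟨_, rfl⟩
  have hXS : ∀ g, X g * S = S * cj (X g) := by
    intro g
    rw [hSdef]
    calc X g * (B * Hᵀ) = X g * (B * ((X g)ᵀ * Hᵀ * cj (X g))) := by rw [hHT g]
      _ = (X g * B * (X g)ᵀ) * Hᵀ * cj (X g) := by simp only [mul_assoc]
      _ = B * Hᵀ * cj (X g) := by rw [hXB g]
  have hN : Hᵀ * cj B * H ∈ invForms ρ := by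
    rw [mem_invForms]
    intro g
    have hcjB : cj (X g) * cj B * (X g)ᴴ = cj B := by
      have := congrArg cj (hXB g)
      rw [cj_mul, cj_mul, cj_transpose] at this
      exact this
    rw [← hX]
    calc (X g)ᵀ * (Hᵀ * cj B * H) * X g
        = (X g)ᵀ * Hᵀ * cj B * (H * X g) := by simp only [mul_assoc]
      _ = (X g)ᵀ * Hᵀ * (cj (X g) * cj B * (X g)ᴴ) * (H * X g) := by rw [hcjB]
      _ = ((X g)ᵀ * Hᵀ * cj (X g)) * cj B * ((X g)ᴴ * H * X g) := by simp only [mul_assoc]
      _ = Hᵀ * cj B * H := by rw [hHT g, hH g]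
  have hfr := finrank_invForms_of_real ρ hirr hreal
  obtain ⟨c, hc⟩ : ∃ c : ℂ, c • M = Hᵀ * cj B * H := by
    have h0 : (⟨M, hM⟩ : invForms ρ) ≠ 0 := by
      intro h0
      exact hM0 (congrArg Subtype.val h0)
    obtain ⟨c, hc⟩ := (finrank_eq_one_iff_of_nonzero' (⟨M, hM⟩ : invForms ρ) h0).mp hfr
      ⟨_, hN⟩
    exact ⟨c, congrArg Subtype.val hc⟩
  have hSS : S * cj S = c • (1 : Matrix (Fin n) (Fin n) ℂ) := by
    rw [hSdef]
    calc B * Hᵀ * cj (B * Hᵀ) = B * Hᵀ * (cj B * H) := by rw [cj_mul, hcjHT]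
      _ = B * (Hᵀ * cj B * H) := by simp only [mul_assoc]
      _ = c • (1 : Matrix (Fin n) (Fin n) ℂ) := by rw [← hc, Matrix.mul_smul, hBM]
  -- positivity of `c`
  have hSsum : S = ∑ g, B * (X g)ᵀ * cj (X g) := by
    rw [hSdef, hHdef, Matrix.transpose_sum, Finset.mul_sum]
    refine Finset.sum_congr rfl fun g _ => ?_
    rw [Matrix.transpose_mul, transpose_conjTranspose_eq_cj, mul_assoc]
  have hcjSsum : cj S = ∑ h, cj B * (X h)ᴴ * X h := by
    rw [hSdef, cj_mul, hcjHT, hHdef, Finset.mul_sum]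
    refine Finset.sum_congr rfl fun g _ => ?_
    rw [mul_assoc]
  have htr : (S * cj S).trace =
      ((∑ g, ∑ h, ∑ i, ∑ j, Complex.normSq ((X h * B * (X g)ᵀ) i j) : ℝ) : ℂ) := by
    rw [hcjSsum, hSsum, Finset.sum_mul, Matrix.trace_sum]
    push_cast
    refine Finset.sum_congr rfl fun g _ => ?_
    rw [Finset.mul_sum, Matrix.trace_sum]
    refine Finset.sum_congr rfl fun h _ => ?_
    have e : (X h * B * (X g)ᵀ)ᴴ = cj (X g) * cj B * (X h)ᴴ := by
      rw [Matrix.conjTranspose_mul, Matrix.conjTranspose_mul, conjTranspose_transpose_eq_cj,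
        ← cj_transpose B, hBT, mul_assoc]
    have e2 := trace_mul_conjTranspose_self_eq (X h * B * (X g)ᵀ)
    rw [e] at e2
    push_cast at e2
    rw [← e2]
    rw [show B * (X g)ᵀ * cj (X g) * (cj B * (X h)ᴴ * X h) =
      (B * (X g)ᵀ * cj (X g) * cj B * (X h)ᴴ) * X h by simp only [mul_assoc],
      Matrix.trace_mul_comm]
    simp only [mul_assoc]
  obtain ⟨r, hr⟩ : ∃ r : ℝ, r = ∑ g, ∑ h, ∑ i, ∑ j, Complex.normSq ((X h * B * (X g)ᵀ) i j) :=
    ⟨_, rfl⟩
  have hrpos : 0 < r := by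
    have hBpos : 0 < ∑ i, ∑ j, Complex.normSq (B i j) := by
      by_contra hle
      have h0 : ∑ i, ∑ j, Complex.normSq (B i j) = 0 :=
        le_antisymm (not_lt.mp hle)
          (Finset.sum_nonneg fun _ _ => Finset.sum_nonneg fun _ _ => Complex.normSq_nonneg _)
      apply hB0
      ext i j
      have h1 := (Finset.sum_eq_zero_iff_of_nonneg
        (fun i _ => Finset.sum_nonneg fun j _ => Complex.normSq_nonneg (B i j))).mp h0 i
        (Finset.mem_univ i)
      have h2 := (Finset.sum_eq_zero_iff_of_nonneg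
        (fun j _ => Complex.normSq_nonneg (B i j))).mp h1 j (Finset.mem_univ j)
      exact Complex.normSq_eq_zero.mp h2
    have hge : ∑ i, ∑ j, Complex.normSq (B i j) ≤ r := by
      rw [hr]
      calc ∑ i, ∑ j, Complex.normSq (B i j)
          = ∑ i, ∑ j, Complex.normSq ((X 1 * B * (X 1)ᵀ) i j) := by
            rw [hX1, one_mul, Matrix.transpose_one, mul_one]
        _ ≤ ∑ h, ∑ i, ∑ j, Complex.normSq ((X h * B * (X 1)ᵀ) i j) :=
            Finset.single_le_sum
              (f := fun h => ∑ i, ∑ j, Complex.normSq ((X h * B * (X 1)ᵀ) i j))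
              (fun _ _ => Finset.sum_nonneg fun _ _ => Finset.sum_nonneg fun _ _ =>
                Complex.normSq_nonneg _) (Finset.mem_univ 1)
        _ ≤ ∑ g, ∑ h, ∑ i, ∑ j, Complex.normSq ((X h * B * (X g)ᵀ) i j) :=
            Finset.single_le_sum
              (f := fun g => ∑ h, ∑ i, ∑ j, Complex.normSq ((X h * B * (X g)ᵀ) i j))
              (fun _ _ => Finset.sum_nonneg fun _ _ => Finset.sum_nonneg fun _ _ =>
                Finset.sum_nonneg fun _ _ => Complex.normSq_nonneg _) (Finset.mem_univ 1)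
    exact lt_of_lt_of_le hBpos hge
  have hn0 : n ≠ 0 := by
    rintro rfl
    exact hM0 (Subsingleton.elim _ _)
  have hcr : c * (n : ℂ) = (r : ℂ) := by
    have h1 : (S * cj S).trace = c * (n : ℂ) := by
      rw [hSS, Matrix.trace_smul, Matrix.trace_one, Fintype.card_fin, smul_eq_mul]
    rw [← h1, htr, hr]
  obtain ⟨q, hq0, hq⟩ : ∃ q : ℝ, 0 < q ∧ c = (q : ℂ) := by
    refine ⟨r / n, div_pos hrpos (by exact_mod_cast Nat.pos_of_ne_zero hn0), ?_⟩
    have hnC : (n : ℂ) ≠ 0 := by exact_mod_cast hn0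
    push_cast
    rw [← hcr]
    field_simp
  -- rescale
  have hsq : ((Real.sqrt q : ℝ) : ℂ) ≠ 0 := by
    have : Real.sqrt q ≠ 0 := (Real.sqrt_pos.mpr hq0).ne'
    exact_mod_cast this
  have hsq2 : ((Real.sqrt q : ℝ) : ℂ) * ((Real.sqrt q : ℝ) : ℂ) = (q : ℂ) := by
    have := Real.mul_self_sqrt hq0.le
    exact_mod_cast this
  have hscal : (((Real.sqrt q : ℝ) : ℂ))⁻¹ * conj ((((Real.sqrt q : ℝ) : ℂ))⁻¹) * c = 1 := by
    rw [map_inv₀, Complex.conj_ofReal, hq, ← hsq2]
    field_simp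
  obtain ⟨A, hA, hAX⟩ := exists_real_conj X ((((Real.sqrt q : ℝ) : ℂ))⁻¹ • S) (by
      rw [cj_smul, Matrix.smul_mul, Matrix.mul_smul, smul_smul, hSS, smul_smul, hscal,
        one_smul]) (by
      intro g
      rw [Matrix.mul_smul, Matrix.smul_mul, hXS g])
  exact ⟨A, hA, fun g => by rw [← hX]; exact hAX g⟩


/-- An irreducible representation with Frobenius–Schur indicator `1` has a real form. -/
theorem exists_real_rep {G : Type*} [Group G] [Fintype G]
    (ρ : Representation ℂ G (Fin n → ℂ)) (hirr : ρ.IsIrreducible)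
    (hind : (Nat.card G : ℂ)⁻¹ * ∑ s : G, ρ.character (s * s) = 1) :
    ∃ ρ' : Representation ℝ G (Fin n → ℝ),
      ∀ g : G, ((LinearMap.trace ℝ (Fin n → ℝ) (ρ' g) : ℝ) : ℂ) = ρ.character g := by
  classical
  obtain ⟨A, hA, hAX⟩ := exists_real_matrices ρ hirr hind
  have hdet : IsUnit A.det := (Matrix.isUnit_iff_isUnit_det A).mp hA
  obtain ⟨Y, hY⟩ : ∃ Y : G → Matrix (Fin n) (Fin n) ℂ,
      Y = fun g => A⁻¹ * Cfsg.Agent.H78.mat ρ g * A := ⟨_, rfl⟩
  have hY1 : Y 1 = 1 := by
    rw [hY]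
    show A⁻¹ * Cfsg.Agent.H78.mat ρ 1 * A = 1
    rw [Cfsg.Agent.H78.mat_one, mul_one, Matrix.nonsing_inv_mul A hdet]
  have hYmul : ∀ g h, Y (g * h) = Y g * Y h := by
    intro g h
    rw [hY]
    show A⁻¹ * Cfsg.Agent.H78.mat ρ (g * h) * A =
      A⁻¹ * Cfsg.Agent.H78.mat ρ g * A * (A⁻¹ * Cfsg.Agent.H78.mat ρ h * A)
    rw [Cfsg.Agent.H78.mat_mul]
    calc A⁻¹ * (Cfsg.Agent.H78.mat ρ g * Cfsg.Agent.H78.mat ρ h) * A
        = A⁻¹ * Cfsg.Agent.H78.mat ρ g * (A * A⁻¹) * Cfsg.Agent.H78.mat ρ h * A := by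
          rw [Matrix.mul_nonsing_inv A hdet, mul_one]; simp only [mul_assoc]
      _ = A⁻¹ * Cfsg.Agent.H78.mat ρ g * A * (A⁻¹ * Cfsg.Agent.H78.mat ρ h * A) := by
          simp only [mul_assoc]
  have hYreal : ∀ g, cj (Y g) = Y g := by
    intro g
    rw [hY]
    exact hAX g
  obtain ⟨R, hR⟩ : ∃ R : G → Matrix (Fin n) (Fin n) ℝ, R = fun g => (Y g).map Complex.re :=
    ⟨_, rfl⟩
  have hRY : ∀ g, (R g).map Complex.ofRealHom = Y g := by
    intro g
    ext i j
    rw [hR]
    simp only [Matrix.map_apply, Complex.ofRealHom_eq_coe]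
    have := congrFun (congrFun (hYreal g) i) j
    rw [cj_apply] at this
    exact Complex.conj_eq_iff_re.mp this
  have hinj : ∀ M N : Matrix (Fin n) (Fin n) ℝ,
      M.map Complex.ofRealHom = N.map Complex.ofRealHom → M = N := by
    intro M N h
    ext i j
    have := congrFun (congrFun h i) j
    simpa using this
  have hR1 : R 1 = 1 := by
    apply hinj
    rw [hRY, hY1, Matrix.map_one _ (map_zero _) (map_one _)]
  have hRmul : ∀ g h, R (g * h) = R g * R h := by
    intro g h
    apply hinj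
    rw [hRY, hYmul, Matrix.map_mul, hRY, hRY]
  refine ⟨{ toFun := fun g => Matrix.toLin' (R g)
            map_one' := by rw [hR1, Matrix.toLin'_one]; rfl
            map_mul' := fun g h => by rw [hRmul, Matrix.toLin'_mul]; rfl }, fun g => ?_⟩
  show ((LinearMap.trace ℝ (Fin n → ℝ) (Matrix.toLin' (R g)) : ℝ) : ℂ) = ρ.character g
  rw [LinearMap.trace_eq_matrix_trace ℝ (Pi.basisFun ℝ (Fin n)),
    LinearMap.toMatrix_eq_toMatrix', LinearMap.toMatrix'_toLin']
  have h1 : ((R g).trace : ℂ) = (Y g).trace := by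
    rw [← hRY g]
    simp [Matrix.trace]
  rw [h1, hY]
  show (A⁻¹ * Cfsg.Agent.H78.mat ρ g * A).trace = ρ.character g
  rw [Matrix.trace_mul_comm, ← mul_assoc, Matrix.mul_nonsing_inv A hdet, one_mul,
    Cfsg.Agent.H78.trace_mat]

/-- An irreducible character afforded by a real representation has Frobenius–Schur
indicator `1`. -/
theorem indicator_eq_one_of_real_rep {G : Type u} [Group G] [Fintype G]
    (χ : Cfsg.IrrCharacter G) (ρ' : Representation ℝ G (Fin n → ℝ))
    (h : ∀ g : G, ((LinearMap.trace ℝ (Fin n → ℝ) (ρ' g) : ℝ) : ℂ) = (χ : G → ℂ) g) :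
    (Nat.card G : ℂ)⁻¹ * ∑ s : G, (χ : G → ℂ) (s * s) = 1 := by
  classical
  obtain ⟨R, hR⟩ : ∃ R : G → Matrix (Fin n) (Fin n) ℝ,
      R = fun g => LinearMap.toMatrix' (ρ' g) := ⟨_, rfl⟩
  have hR1 : R 1 = 1 := by rw [hR]; simp
  have hRmul : ∀ g h, R (g * h) = R g * R h := by
    intro g h
    rw [hR]
    simp [LinearMap.toMatrix'_mul]
  obtain ⟨Xc, hXc⟩ : ∃ Xc : G → Matrix (Fin n) (Fin n) ℂ,
      Xc = fun g => (R g).map Complex.ofRealHom := ⟨_, rfl⟩
  have hX1 : Xc 1 = 1 := by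
    rw [hXc]
    show (R 1).map Complex.ofRealHom = 1
    rw [hR1, Matrix.map_one _ (map_zero _) (map_one _)]
  have hXmul : ∀ g h, Xc (g * h) = Xc g * Xc h := by
    intro g h
    rw [hXc]
    show (R (g * h)).map Complex.ofRealHom = (R g).map Complex.ofRealHom * (R h).map Complex.ofRealHom
    rw [hRmul, Matrix.map_mul]
  let ρ : Representation ℂ G (Fin n → ℂ) :=
    { toFun := fun g => Matrix.toLin' (Xc g)
      map_one' := by rw [hX1, Matrix.toLin'_one]; rfl
      map_mul' := fun g h => by rw [hXmul, Matrix.toLin'_mul]; rfl }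
  have hmat : ∀ g, Cfsg.Agent.H78.mat ρ g = Xc g := fun g => LinearMap.toMatrix'_toLin' _
  have hchar : ρ.character = (χ : G → ℂ) := by
    ext g
    rw [← Cfsg.Agent.H78.trace_mat, hmat, ← h g,
      LinearMap.trace_eq_matrix_trace ℝ (Pi.basisFun ℝ (Fin n)), LinearMap.toMatrix_eq_toMatrix']
    rw [hXc, hR]
    simp [Matrix.trace]
  have hirr : ρ.IsIrreducible := isIrreducible_of_isIrrCharacter ρ (by rw [hchar]; exact χ.2)
  have hreal : ∀ g, (ρ.character g).im = 0 := by
    intro g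
    rw [hchar, ← h g]
    exact Complex.ofReal_im _
  obtain ⟨-, hsym⟩ := Cfsg.Agent.H78.frobSchur_real ρ hirr hreal
  obtain ⟨M, hMdef⟩ : ∃ M : Matrix (Fin n) (Fin n) ℂ, M = ∑ g : G, (Xc g)ᵀ * Xc g := ⟨_, rfl⟩
  have hM : M ∈ Cfsg.Agent.H78.invForms ρ := by
    rw [Cfsg.Agent.H78.mem_invForms]
    intro h'
    rw [hmat, hMdef, Finset.mul_sum, Finset.sum_mul]
    rw [← Equiv.sum_comp (Equiv.mulRight h') (fun g => (Xc g)ᵀ * Xc g)]
    refine Finset.sum_congr rfl fun g _ => ?_
    simp only [Equiv.coe_mulRight, hXmul, Matrix.transpose_mul, mul_assoc]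
  have hMT : Mᵀ = M := by
    rw [hMdef, Matrix.transpose_sum]
    refine Finset.sum_congr rfl fun g _ => ?_
    rw [Matrix.transpose_mul, Matrix.transpose_transpose]
  have hn : Nontrivial (Fin n → ℂ) := ((Cfsg.Agent.H4.isIrreducible_iff ρ).mp hirr).1
  have hM0 : M ≠ 0 := by
    have hn0 : n ≠ 0 := by
      rintro rfl
      exact not_subsingleton (Fin 0 → ℂ) inferInstance
    obtain ⟨i⟩ : Nonempty (Fin n) := ⟨⟨0, Nat.pos_of_ne_zero hn0⟩⟩
    intro h0
    have h1 : M i i = 0 := by rw [h0]; rfl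
    have h2 : M i i = ((∑ g : G, ∑ k, (R g k i) ^ 2 : ℝ) : ℂ) := by
      rw [hMdef, hXc]
      simp only [Matrix.sum_apply, Matrix.mul_apply, Matrix.transpose_apply, Matrix.map_apply]
      push_cast
      refine Finset.sum_congr rfl fun g _ => Finset.sum_congr rfl fun k _ => ?_
      simp [sq]
    rw [h2] at h1
    have h3 : (∑ g : G, ∑ k, (R g k i) ^ 2 : ℝ) = 0 := by exact_mod_cast h1
    have h4 : (1 : ℝ) ≤ ∑ g : G, ∑ k, (R g k i) ^ 2 := by
      calc (1 : ℝ) = (R 1 i i) ^ 2 := by rw [hR1]; simp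
        _ ≤ ∑ k, (R 1 k i) ^ 2 :=
            Finset.single_le_sum (f := fun k => (R 1 k i) ^ 2) (fun _ _ => sq_nonneg _)
              (Finset.mem_univ i)
        _ ≤ ∑ g : G, ∑ k, (R g k i) ^ 2 :=
            Finset.single_le_sum (f := fun g => ∑ k, (R g k i) ^ 2)
              (fun _ _ => Finset.sum_nonneg fun _ _ => sq_nonneg _) (Finset.mem_univ 1)
    linarith
  have h5 := hsym M hM
  rw [hMT, hchar] at h5
  have h6 : ((1 : ℂ) - ((Nat.card G : ℂ)⁻¹ * ∑ s : G, (χ : G → ℂ) (s * s))) • M = 0 := by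
    rw [sub_smul, one_smul, ← h5, sub_self]
  rcases smul_eq_zero.mp h6 with h7 | h7
  · exact (sub_eq_zero.mp h7).symm
  · exact absurd h7 hM0

/-- **Frobenius–Schur**: an irreducible character has indicator `1` iff it is afforded by a
real representation. -/
theorem indicator_eq_one_iff_real {G : Type u} [Group G] [Fintype G] (χ : Cfsg.IrrCharacter G) :
    ((Nat.card G : ℂ)⁻¹ * ∑ s : G, (χ : G → ℂ) (s * s)) = 1 ↔
      ∃ (n : ℕ) (ρ : Representation ℝ G (Fin n → ℝ)),
        ∀ g : G, ((LinearMap.trace ℝ (Fin n → ℝ) (ρ g) : ℝ) : ℂ) = (χ : G → ℂ) g := by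
  constructor
  · intro hind
    obtain ⟨n, ρ, hirr, hχ⟩ := χ.2
    rw [← hχ] at hind
    obtain ⟨ρ', hρ'⟩ := exists_real_rep ρ hirr hind
    exact ⟨n, ρ', fun g => by rw [hρ' g, hχ]⟩
  · rintro ⟨n, ρ', h⟩
    exact indicator_eq_one_of_real_rep χ ρ' h

end Real

end Cfsg.Agent.H83
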