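import Mathlib
import Cfsg.Prelude.Def_Characters
import Cfsg.Agent.H83.MinNormal
import Cfsg.Agent.H83.Basic
import Cfsg.Agent.H82.CanonExt
import Cfsg.Agent.H82.Irr
import Cfsg.Agent.H4.RealClasses
import Cfsg.Agent.H4.Chars
import Cfsg.Agent.H4.Irr
import Cfsg.Agent.H4.MaxDeg
import Cfsg.Agent.Lib.Clifford

/-!
# Three character degrees: the case with no solvable nonabelian quotient (helper83)

Let `cd(G) = {1, m, n}` with `1 < m < n` coprime, and suppose every nonlinear irreducible
character of `G` is faithful while `G' ≠ 1`.  We derive a contradiction by a computation in the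
character ring:

* `ring_r1`: for `χ` of degree `m` and `ψ` of degree `n`, all constituents of `χ ψ` have the same
  degree;
* `ring_r2`: `[χ χ'ᶜ, ψ] = 0` for `χ, χ'` of degree `m` and `ψ` of degree `n`;
* `ring_false`: the sum `σ` of the characters of degree `n` satisfies `χ σ = m σ`, hence vanishes
  off the identity, which is absurd.
-/

set_option autoImplicit false
set_option linter.unusedSectionVars false
set_option linter.style.haveILetI false

namespace Cfsg.Agent.H83

open Cfsg Cfsg.Agent.H4 Cfsg.Agent.Clifford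
open scoped ComplexConjugate

universe u

section Ring

variable {G : Type u} [Group G] [Fintype G] [Fintype (IrrCharacter G)]

theorem classInner_mul_adj (α β γ : G → ℂ) :
    classInner (fun g => α g * β g) γ = classInner α (fun g => γ g * conj (β g)) := by
  unfold classInner
  congr 1
  refine Finset.sum_congr rfl fun g _ => ?_
  rw [map_mul, Complex.conj_conj]
  ring

theorem inner_zero_of_deg_ne {α β : G → ℂ} (hα : IsIrrCharacter G α) (hβ : IsIrrCharacter G β)
    (h : charDegree α ≠ charDegree β) : classInner α β = 0 := by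
  rw [classInner_irr_irr hα hβ, if_neg]
  intro e
  exact h (by rw [e])

theorem char_decomp {Φ : G → ℂ} (hΦ : IsCharacter G Φ) :
    ∃ a : IrrCharacter G → ℕ, (∀ η : IrrCharacter G, classInner Φ η.1 = a η) ∧
      (∀ g : G, Φ g = ∑ η : IrrCharacter G, (a η : ℂ) * η.1 g) := by
  obtain ⟨a, ha⟩ := isCharacter_iff.mp hΦ
  refine ⟨a, fun η => ?_, fun g => ?_⟩
  · rw [ha, classInner_finsum_irr]
  · have := congrFun ha g
    rw [finsum_eq_sum_of_fintype, Finset.sum_apply] at this
    rw [this]
    rfl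

theorem one_of_deg_one {l : IrrCharacter G} (h : charDegree l.1 = 1) : l.1 1 = 1 := by
  rw [H82.irr_one_eq_charDegree, h]
  simp

theorem deg_linear_mul (l χ : IrrCharacter G) (h : charDegree l.1 = 1) :
    charDegree (fun g => l.1 g * χ.1 g) = charDegree χ.1 := by
  apply H82.charDegree_eq_of_one_eq
  show l.1 1 * χ.1 1 = χ.1 1
  rw [one_of_deg_one h, one_mul]

theorem deg_irrConj (χ : IrrCharacter G) : charDegree (irrConj χ).1 = charDegree χ.1 := by
  apply H82.charDegree_eq_of_one_eq
  show conj (χ.1 1) = χ.1 1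
  rw [H82.irr_one_eq_charDegree]
  simp

theorem prod_no_linear (α β l : IrrCharacter G) (hne : charDegree α.1 ≠ charDegree β.1)
    (hl : charDegree l.1 = 1) : classInner (fun g => α.1 g * β.1 g) l.1 = 0 := by
  rw [classInner_mul_adj]
  have hirr : IsIrrCharacter G (fun g => l.1 g * conj (β.1 g)) :=
    isIrrCharacter_linear_mul l (irrConj β) (one_of_deg_one hl)
  apply inner_zero_of_deg_ne α.2 hirr
  have : charDegree (fun g => l.1 g * conj (β.1 g)) = charDegree β.1 := by
    rw [← deg_irrConj β]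
    exact deg_linear_mul l (irrConj β) hl
  rw [this]
  exact hne

theorem le_sum_ite (a : IrrCharacter G → ℕ) (k : ℕ) (ξ : IrrCharacter G)
    (hξ : charDegree ξ.1 = k) :
    a ξ ≤ ∑ η : IrrCharacter G, if charDegree η.1 = k then a η else 0 := by
  classical
  have hle : (if charDegree ξ.1 = k then a ξ else 0) ≤
      ∑ η : IrrCharacter G, if charDegree η.1 = k then a η else 0 :=
    Finset.single_le_sum (f := fun η : IrrCharacter G => if charDegree η.1 = k then a η else 0)
      (fun _ _ => Nat.zero_le _) (Finset.mem_univ ξ)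
  rwa [if_pos hξ] at hle

theorem sum_ite_eq_zero (a : IrrCharacter G → ℕ) (k : ℕ)
    (h : ∀ η : IrrCharacter G, charDegree η.1 = k → a η = 0) :
    (∑ η : IrrCharacter G, if charDegree η.1 = k then a η else 0) = 0 := by
  classical
  apply Finset.sum_eq_zero
  intro η _
  split_ifs with hη
  · exact h η hη
  · rfl

variable {m n : ℕ}

theorem deg_sum
    (hcd : ∀ χ : IrrCharacter G, charDegree χ.1 = 1 ∨ charDegree χ.1 = m ∨ charDegree χ.1 = n)
    (hm1 : m ≠ 1) (hn1 : n ≠ 1) (hmn : m ≠ n) {Φ : G → ℂ} (a : IrrCharacter G → ℕ)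
    (hΦ : ∀ g : G, Φ g = ∑ η : IrrCharacter G, (a η : ℂ) * η.1 g) (d : ℕ) (hd : Φ 1 = d) :
    d = (∑ η : IrrCharacter G, if charDegree η.1 = 1 then a η else 0) +
        m * (∑ η : IrrCharacter G, if charDegree η.1 = m then a η else 0) +
        n * (∑ η : IrrCharacter G, if charDegree η.1 = n then a η else 0) := by
  classical
  have h1 : (d : ℂ) = ((∑ η : IrrCharacter G, a η * charDegree η.1 : ℕ) : ℂ) := by
    rw [← hd, hΦ 1]
    push_cast
    refine Finset.sum_congr rfl fun η _ => ?_
    rw [H82.irr_one_eq_charDegree]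
  have h2 : d = ∑ η : IrrCharacter G, a η * charDegree η.1 := by exact_mod_cast h1
  rw [h2, Finset.mul_sum, Finset.mul_sum, ← Finset.sum_add_distrib, ← Finset.sum_add_distrib]
  refine Finset.sum_congr rfl fun η _ => ?_
  rcases hcd η with h | h | h
  · rw [h, if_pos rfl, if_neg (Ne.symm hm1), if_neg (Ne.symm hn1)]
    ring
  · rw [h, if_neg hm1, if_pos rfl, if_neg hmn]
    ring
  · rw [h, if_neg hn1, if_neg (Ne.symm hmn), if_pos rfl]
    ring

theorem ring_r1
    (hcd : ∀ χ : IrrCharacter G, charDegree χ.1 = 1 ∨ charDegree χ.1 = m ∨ charDegree χ.1 = n)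
    (hm1 : 1 < m) (hmn : m < n) (hcop : Nat.Coprime m n)
    (χ ψ ξ η : IrrCharacter G) (hχ : charDegree χ.1 = m) (hψ : charDegree ψ.1 = n)
    (hξ : charDegree ξ.1 = m) (hη : charDegree η.1 = n)
    (h1 : classInner (fun g => χ.1 g * ψ.1 g) ξ.1 ≠ 0)
    (h2 : classInner (fun g => χ.1 g * ψ.1 g) η.1 ≠ 0) : False := by
  classical
  have hchar : IsCharacter G (fun g => χ.1 g * ψ.1 g) :=
    isCharacter_mul (isCharacter_of_isIrrCharacter χ.2) (isCharacter_of_isIrrCharacter ψ.2)
  obtain ⟨a, ha, hval⟩ := char_decomp hchar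
  have hd : (fun g => χ.1 g * ψ.1 g) 1 = ((m * n : ℕ) : ℂ) := by
    show χ.1 1 * ψ.1 1 = _
    rw [H82.irr_one_eq_charDegree, H82.irr_one_eq_charDegree, hχ, hψ]
    push_cast
    rfl
  have hsum := deg_sum hcd (by omega) (by omega) (by omega) a hval (m * n) hd
  have hS1 := sum_ite_eq_zero a 1 (fun l hl => by
    have := prod_no_linear χ ψ l (by rw [hχ, hψ]; omega) hl
    rw [ha] at this
    exact_mod_cast this)
  have haξ : a ξ ≠ 0 := by
    intro h0; apply h1; rw [ha, h0]; simp
  have haη : a η ≠ 0 := by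
    intro h0; apply h2; rw [ha, h0]; simp
  have hSm1 := le_sum_ite a m ξ hξ
  have hSn1 := le_sum_ite a n η hη
  obtain ⟨Sm, hSm⟩ : ∃ s, s = ∑ η : IrrCharacter G, if charDegree η.1 = m then a η else 0 :=
    ⟨_, rfl⟩
  obtain ⟨Sn, hSn⟩ : ∃ s, s = ∑ η : IrrCharacter G, if charDegree η.1 = n then a η else 0 :=
    ⟨_, rfl⟩
  rw [hS1, ← hSm, ← hSn, zero_add] at hsum
  rw [← hSm] at hSm1
  rw [← hSn] at hSn1
  have h3 : m ∣ n * Sn := (Nat.dvd_add_right (dvd_mul_right m Sm)).mp (hsum ▸ dvd_mul_right m n)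
  have h4 : m ∣ Sn := hcop.dvd_of_dvd_mul_left h3
  have h5 : m ≤ Sn := Nat.le_of_dvd (by omega) h4
  have h6 : n ∣ m * Sm := (Nat.dvd_add_left (dvd_mul_right n Sn)).mp (hsum ▸ dvd_mul_left n m)
  have h7 : n ∣ Sm := hcop.symm.dvd_of_dvd_mul_left h6
  have h8 : n ≤ Sm := Nat.le_of_dvd (by omega) h7
  have h9 : m * n ≤ m * Sm := Nat.mul_le_mul_left m h8
  have h10 : n * m ≤ n * Sn := Nat.mul_le_mul_left n h5
  have h11 : 0 < m * n := Nat.mul_pos (by omega) (by omega)
  nlinarith

theorem ring_twist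
    (hcd : ∀ χ : IrrCharacter G, charDegree χ.1 = 1 ∨ charDegree χ.1 = m ∨ charDegree χ.1 = n)
    (hm1 : 1 < m) (hmn : m < n) (hcop : Nat.Coprime m n)
    (χ' ψ ξ : IrrCharacter G) (hχ' : charDegree χ'.1 = m) (hψ : charDegree ψ.1 = n)
    (hξ : charDegree ξ.1 = m) (h : classInner (fun g => χ'.1 g * ψ.1 g) ξ.1 ≠ 0) :
    ∃ l : IrrCharacter G, charDegree l.1 = 1 ∧ ∀ g : G, ξ.1 g = l.1 g * χ'.1 g := by
  classical
  have hchar : IsCharacter G (fun g => ξ.1 g * conj (χ'.1 g)) :=
    isCharacter_mul (isCharacter_of_isIrrCharacter ξ.2)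
      (isCharacter_conj (isCharacter_of_isIrrCharacter χ'.2))
  obtain ⟨a, ha, hval⟩ := char_decomp hchar
  have hfun : ∀ γ : G → ℂ, (fun g => γ g * conj (conj (χ'.1 g))) = fun g => γ g * χ'.1 g := by
    intro γ
    funext g
    rw [Complex.conj_conj]
  have haψ : a ψ ≠ 0 := by
    intro h0
    apply h
    have h1 := ha ψ
    rw [h0, classInner_mul_adj, hfun] at h1
    rw [← classInner_conj_symm]
    have e : (fun g => χ'.1 g * ψ.1 g) = fun g => ψ.1 g * χ'.1 g := by
      funext g
      ring
    rw [e, h1]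
    simp
  have hd : (fun g => ξ.1 g * conj (χ'.1 g)) 1 = ((m * m : ℕ) : ℂ) := by
    show ξ.1 1 * conj (χ'.1 1) = _
    rw [H82.irr_one_eq_charDegree, H82.irr_one_eq_charDegree, hξ, hχ']
    simp
  have hsum := deg_sum hcd (by omega) (by omega) (by omega) a hval (m * m) hd
  have hSn1 := le_sum_ite a n ψ hψ
  obtain ⟨S1, hS1⟩ : ∃ s, s = ∑ η : IrrCharacter G, if charDegree η.1 = 1 then a η else 0 :=
    ⟨_, rfl⟩
  obtain ⟨Sm, hSm⟩ : ∃ s, s = ∑ η : IrrCharacter G, if charDegree η.1 = m then a η else 0 :=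
    ⟨_, rfl⟩
  obtain ⟨Sn, hSn⟩ : ∃ s, s = ∑ η : IrrCharacter G, if charDegree η.1 = n then a η else 0 :=
    ⟨_, rfl⟩
  rw [← hS1, ← hSm, ← hSn] at hsum
  rw [← hSn] at hSn1
  have hS1ne : S1 ≠ 0 := by
    intro h0
    rw [h0, zero_add] at hsum
    have h3 : m ∣ n * Sn := (Nat.dvd_add_right (dvd_mul_right m Sm)).mp (hsum ▸ dvd_mul_right m m)
    have h4 : m ∣ Sn := hcop.dvd_of_dvd_mul_left h3
    have h5 : m ≤ Sn := Nat.le_of_dvd (by omega) h4
    have h6 : n * m ≤ n * Sn := Nat.mul_le_mul_left n h5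
    have h7 : m * m < n * m := Nat.mul_lt_mul_of_pos_right hmn (by omega)
    nlinarith
  rw [hS1] at hS1ne
  obtain ⟨l, -, hl⟩ := Finset.exists_ne_zero_of_sum_ne_zero hS1ne
  have hl1 : charDegree l.1 = 1 := by
    by_contra hne
    exact hl (if_neg hne)
  rw [if_pos hl1] at hl
  refine ⟨l, hl1, ?_⟩
  have h1 := ha l
  rw [classInner_mul_adj, hfun] at h1
  have hirr : IsIrrCharacter G (fun g => l.1 g * χ'.1 g) :=
    isIrrCharacter_linear_mul l χ' (one_of_deg_one hl1)
  have hne : classInner ξ.1 (fun g => l.1 g * χ'.1 g) ≠ 0 := by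
    rw [h1]
    exact_mod_cast hl
  have := eq_of_classInner_ne_zero ξ.2 hirr hne
  exact fun g => congrFun this g

theorem ring_r2
    (hcd : ∀ χ : IrrCharacter G, charDegree χ.1 = 1 ∨ charDegree χ.1 = m ∨ charDegree χ.1 = n)
    (hm1 : 1 < m) (hmn : m < n) (hcop : Nat.Coprime m n)
    (hfaith : ∀ χ : IrrCharacter G, charDegree χ.1 ≠ 1 → ∀ g : G, χ.1 g = χ.1 1 → g = 1)
    (hD : commutator G ≠ ⊥)
    (χ χ' ψ : IrrCharacter G) (hχ : charDegree χ.1 = m) (hχ' : charDegree χ'.1 = m)
    (hψ : charDegree ψ.1 = n) :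
    classInner (fun g => χ.1 g * conj (χ'.1 g)) ψ.1 = 0 := by
  classical
  by_contra h
  have hfun : (fun g => ψ.1 g * conj (conj (χ'.1 g))) = fun g => χ'.1 g * ψ.1 g := by
    funext g
    rw [Complex.conj_conj]
    ring
  have h' : classInner (fun g => χ'.1 g * ψ.1 g) χ.1 ≠ 0 := by
    intro h0
    apply h
    rw [classInner_mul_adj, hfun, ← classInner_conj_symm, h0, map_zero]
  have hchar : IsCharacter G (fun g => χ'.1 g * ψ.1 g) :=
    isCharacter_mul (isCharacter_of_isIrrCharacter χ'.2) (isCharacter_of_isIrrCharacter ψ.2)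
  obtain ⟨a, ha, hval⟩ := char_decomp hchar
  have hBz : ∀ η : IrrCharacter G, charDegree η.1 = n → a η = 0 := by
    intro η hη
    by_contra hne
    exact ring_r1 hcd hm1 hmn hcop χ' ψ χ η hχ' hψ hχ hη h' (by rw [ha]; exact_mod_cast hne)
  have hLz : ∀ l : IrrCharacter G, charDegree l.1 = 1 → a l = 0 := by
    intro l hl
    have := prod_no_linear χ' ψ l (by rw [hχ', hψ]; omega) hl
    rw [ha] at this
    exact_mod_cast this
  have hterm : ∀ d ∈ commutator G, ∀ η : IrrCharacter G,
      (a η : ℂ) * η.1 d = (a η : ℂ) * χ'.1 d := by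
    intro d hd η
    by_cases h0 : a η = 0
    · rw [h0]
      simp
    · have hηm : charDegree η.1 = m := by
        rcases hcd η with h1 | h1 | h1
        · exact absurd (hLz η h1) h0
        · exact h1
        · exact absurd (hBz η h1) h0
      obtain ⟨l, hl1, hl⟩ := ring_twist hcd hm1 hmn hcop χ' ψ η hχ' hψ hηm
        (by rw [ha]; exact_mod_cast h0)
      rw [hl d, linear_eq_one_of_mem_commutator l (one_of_deg_one hl1) hd, one_mul]
  have hvalD : ∀ d ∈ commutator G,
      χ'.1 d * ψ.1 d = (∑ η : IrrCharacter G, (a η : ℂ)) * χ'.1 d := by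
    intro d hd
    rw [Finset.sum_mul]
    have := hval d
    rw [this]
    exact Finset.sum_congr rfl fun η _ => hterm d hd η
  have hχ'1 : χ'.1 1 ≠ 0 := H82.irr_one_ne_zero χ'
  have hSum : (∑ η : IrrCharacter G, (a η : ℂ)) = ψ.1 1 := by
    have := hvalD 1 (Subgroup.one_mem _)
    have h3 : χ'.1 1 * ψ.1 1 = χ'.1 1 * (∑ η : IrrCharacter G, (a η : ℂ)) := by
      rw [this]
      ring
    exact (mul_left_cancel₀ hχ'1 h3).symm
  have hvan : ∀ d ∈ commutator G, d ≠ 1 → χ'.1 d = 0 := by
    intro d hd hd1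
    have h3 := hvalD d hd
    rw [hSum] at h3
    have h4 : χ'.1 d * (ψ.1 d - ψ.1 1) = 0 := by
      rw [mul_sub, h3]
      ring
    rcases mul_eq_zero.mp h4 with h5 | h5
    · exact h5
    · exfalso
      exact hd1 (hfaith ψ (by rw [hψ]; omega) d (sub_eq_zero.mp h5))
  haveI : Fintype (commutator G) := Fintype.ofFinite _
  have hover : classInner (fun d : commutator G => χ'.1 d) (1 : commutator G → ℂ) ≠ 0 := by
    unfold classInner
    have hs : ∑ d : commutator G, χ'.1 d * conj ((1 : commutator G → ℂ) d) = χ'.1 1 := by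
      rw [Finset.sum_eq_single (1 : commutator G)]
      · simp
      · intro d _ hd1
        rw [hvan d d.2 (fun h => hd1 (Subtype.ext h))]
        simp
      · intro h
        exact absurd (Finset.mem_univ _) h
    rw [hs]
    apply mul_ne_zero _ hχ'1
    apply inv_ne_zero
    have : 0 < Nat.card (commutator G) := Nat.card_pos
    exact_mod_cast this.ne'
  have hconst := H82.const_of_over_one (M := commutator G) χ'.2 hover
  obtain ⟨d, hd1⟩ := Subgroup.ne_bot_iff_exists_ne_one.mp hD
  have := hfaith χ' (by rw [hχ']; omega) d (hconst d)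
  exact hd1 (Subtype.ext this)

theorem ring_false
    (hcd : ∀ χ : IrrCharacter G, charDegree χ.1 = 1 ∨ charDegree χ.1 = m ∨ charDegree χ.1 = n)
    (hm1 : 1 < m) (hmn : m < n) (hcop : Nat.Coprime m n)
    (hA : ∃ χ : IrrCharacter G, charDegree χ.1 = m)
    (hB : ∃ χ : IrrCharacter G, charDegree χ.1 = n)
    (hfaith : ∀ χ : IrrCharacter G, charDegree χ.1 ≠ 1 → ∀ g : G, χ.1 g = χ.1 1 → g = 1)
    (hD : commutator G ≠ ⊥) : False := by
  classical
  obtain ⟨χ, hχ⟩ := hA
  obtain ⟨ψ₀, hψ₀⟩ := hB
  obtain ⟨σ, hσ⟩ : ∃ σ : G → ℂ,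
      σ = ∑ ψ : IrrCharacter G, (if charDegree ψ.1 = n then ψ.1 else 0) := ⟨_, rfl⟩
  have hσapp : ∀ g, σ g = ∑ ψ : IrrCharacter G, (if charDegree ψ.1 = n then ψ.1 g else 0) := by
    intro g
    rw [hσ, Finset.sum_apply]
    refine Finset.sum_congr rfl fun ψ _ => ?_
    split_ifs <;> rfl
  have hσinner : ∀ η : IrrCharacter G,
      classInner σ η.1 = if charDegree η.1 = n then 1 else 0 := by
    intro η
    rw [hσ, classInner_sum_left]
    have : ∀ ψ : IrrCharacter G, classInner (if charDegree ψ.1 = n then ψ.1 else 0) η.1 =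
        if ψ = η then (if charDegree η.1 = n then (1 : ℂ) else 0) else 0 := by
      intro ψ
      by_cases hψη : ψ = η
      · subst hψη
        rw [if_pos rfl]
        split_ifs with h
        · exact irr_inner_self ψ
        · exact classInner_zero_left _
      · rw [if_neg hψη]
        split_ifs with h
        · rw [classInner_irr_irr ψ.2 η.2, if_neg (fun e => hψη (Subtype.ext e))]
        · exact classInner_zero_left _
    rw [Finset.sum_congr rfl (fun ψ _ => this ψ)]
    simp
  have hkey : ∀ η : IrrCharacter G,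
      classInner (fun g => χ.1 g * σ g) η.1 = (m : ℂ) * classInner σ η.1 := by
    intro η
    have hprod : (fun g => χ.1 g * σ g) =
        ∑ ψ : IrrCharacter G, (if charDegree ψ.1 = n then (fun g => ψ.1 g * χ.1 g) else 0) := by
      funext g
      rw [hσapp, Finset.sum_apply, Finset.mul_sum]
      refine Finset.sum_congr rfl fun ψ _ => ?_
      split_ifs
      · show χ.1 g * ψ.1 g = ψ.1 g * χ.1 g
        ring
      · simp
    have hchar : IsCharacter G (fun g => η.1 g * conj (χ.1 g)) :=
      isCharacter_mul (isCharacter_of_isIrrCharacter η.2)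
        (isCharacter_conj (isCharacter_of_isIrrCharacter χ.2))
    obtain ⟨c, hc, hcval⟩ := char_decomp hchar
    have hterm : ∀ ψ : IrrCharacter G,
        classInner (fun g => ψ.1 g * χ.1 g) η.1 = (c ψ : ℂ) := by
      intro ψ
      rw [classInner_mul_adj, ← classInner_conj_symm, hc ψ]
      simp
    rw [hprod, classInner_sum_left]
    have hsumc : ∑ ψ : IrrCharacter G,
        classInner (if charDegree ψ.1 = n then (fun g => ψ.1 g * χ.1 g) else 0) η.1 =
        ((∑ ψ : IrrCharacter G, if charDegree ψ.1 = n then c ψ else 0 : ℕ) : ℂ) := by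
      push_cast
      refine Finset.sum_congr rfl fun ψ _ => ?_
      split_ifs
      · exact hterm ψ
      · exact classInner_zero_left _
    rw [hsumc, hσinner]
    by_cases hηn : charDegree η.1 = n
    · rw [if_pos hηn, mul_one]
      have hd : (fun g => η.1 g * conj (χ.1 g)) 1 = ((n * m : ℕ) : ℂ) := by
        show η.1 1 * conj (χ.1 1) = _
        rw [H82.irr_one_eq_charDegree, H82.irr_one_eq_charDegree, hηn, hχ]
        simp
      have hsum := deg_sum hcd (by omega) (by omega) (by omega) c hcval (n * m) hd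
      have hS1 := sum_ite_eq_zero c 1 (fun l hl => by
        have h0 := prod_no_linear η (irrConj χ) l (by rw [deg_irrConj, hηn, hχ]; omega) hl
        have h1 : classInner (fun g => η.1 g * conj (χ.1 g)) l.1 = 0 := h0
        rw [hc] at h1
        exact_mod_cast h1)
      have hSm := sum_ite_eq_zero c m (fun ξ hξ => by
        have h0 := ring_r2 hcd hm1 hmn hcop hfaith hD ξ (irrConj χ) η hξ
          (by rw [deg_irrConj, hχ]) hηn
        have h1 : classInner (fun g => η.1 g * conj (χ.1 g)) ξ.1 = 0 := by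
          rw [classInner_mul_adj, ← classInner_conj_symm]
          have h2 : classInner (fun g => ξ.1 g * conj (conj (χ.1 g))) η.1 = 0 := h0
          rw [h2, map_zero]
        rw [hc] at h1
        exact_mod_cast h1)
      rw [hS1, hSm] at hsum
      have hn0 : 0 < n := by omega
      have : (∑ ψ : IrrCharacter G, if charDegree ψ.1 = n then c ψ else 0) = m :=
        Nat.eq_of_mul_eq_mul_left hn0 (by linarith)
      rw [this]
    · rw [if_neg hηn, mul_zero]
      have hSn := sum_ite_eq_zero c n (fun ψ hψ => by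
        have h1 : classInner (fun g => η.1 g * conj (χ.1 g)) ψ.1 = 0 := by
          rcases hcd η with h | h | h
          · have hirr : IsIrrCharacter G (fun g => η.1 g * conj (χ.1 g)) :=
              isIrrCharacter_linear_mul η (irrConj χ) (one_of_deg_one h)
            apply inner_zero_of_deg_ne hirr ψ.2
            have h3 : charDegree (fun g => η.1 g * conj (χ.1 g)) = m := by
              rw [← hχ, ← deg_irrConj χ]
              exact deg_linear_mul η (irrConj χ) h
            rw [h3, hψ]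
            omega
          · exact ring_r2 hcd hm1 hmn hcop hfaith hD η χ ψ h hχ hψ
          · exact absurd h hηn
        rw [hc] at h1
        exact_mod_cast h1)
      rw [hSn]
      simp
  have hσcf : ∀ x y : G, σ (y * x * y⁻¹) = σ x := by
    intro x y
    rw [hσapp, hσapp]
    refine Finset.sum_congr rfl fun ψ _ => ?_
    split_ifs
    · exact irr_isClassFunction ψ x y
    · rfl
  have hzero : (fun g => χ.1 g * σ g) - (m : ℂ) • σ = 0 := by
    apply eq_zero_of_inner_irr_eq_zero
    · intro x y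
      show χ.1 (y * x * y⁻¹) * σ (y * x * y⁻¹) - (m : ℂ) * σ (y * x * y⁻¹) =
        χ.1 x * σ x - (m : ℂ) * σ x
      rw [hσcf, irr_isClassFunction χ x y]
    · intro η
      rw [classInner_sub_left, classInner_smul_left, hkey, sub_self]
  have hχ1 : χ.1 1 = (m : ℂ) := by rw [H82.irr_one_eq_charDegree, hχ]
  have hvanish : ∀ g : G, g ≠ 1 → σ g = 0 := by
    intro g hg
    have h1 := congrFun hzero g
    have h2 : χ.1 g * σ g - (m : ℂ) * σ g = 0 := h1
    have h3 : (χ.1 g - χ.1 1) * σ g = 0 := by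
      rw [hχ1, sub_mul]
      exact h2
    rcases mul_eq_zero.mp h3 with h4 | h4
    · exact absurd (hfaith χ (by rw [hχ]; omega) g (sub_eq_zero.mp h4)) hg
    · exact h4
  have htriv : classInner σ (trivChar G).1 = 0 := by
    rw [hσinner, if_neg]
    have h1 : charDegree (trivChar G).1 = 1 :=
      charDegree_of_natCast (by show (1 : ℂ) = ((1 : ℕ) : ℂ); simp)
    rw [h1]
    omega
  have hσ1 : σ 1 = ((∑ ψ : IrrCharacter G, if charDegree ψ.1 = n then n else 0 : ℕ) : ℂ) := by
    rw [hσapp]
    push_cast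
    refine Finset.sum_congr rfl fun ψ _ => ?_
    split_ifs with h
    · rw [H82.irr_one_eq_charDegree, h]
    · rfl
  have hpos : 0 < ∑ ψ : IrrCharacter G, if charDegree ψ.1 = n then n else 0 := by
    have := le_sum_ite (fun _ => n) n ψ₀ hψ₀
    omega
  apply (show σ 1 ≠ 0 by rw [hσ1]; exact_mod_cast hpos.ne')
  unfold classInner at htriv
  have hs : ∑ g : G, σ g * conj ((trivChar G).1 g) = σ 1 := by
    rw [Finset.sum_eq_single (1 : G)]
    · show σ 1 * conj (1 : ℂ) = σ 1
      simp
    · intro g _ hg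
      rw [hvanish g hg, zero_mul]
    · intro h
      exact absurd (Finset.mem_univ _) h
  rw [hs] at htriv
  rcases mul_eq_zero.mp htriv with h | h
  · exfalso
    have : 0 < Nat.card G := Nat.card_pos
    exact (inv_ne_zero (by exact_mod_cast this.ne')) h
  · exact h

end Ring

end Cfsg.Agent.H83
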