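import Mathlib
import Cfsg.Prelude.Def_Characters
import Cfsg.Agent.H4.Monomial
import Cfsg.Agent.H4.BrauerExtra
import Cfsg.Agent.H4.MaxDeg
import Cfsg.Agent.H4.IrrCount
import Cfsg.Agent.H82.Irr
import Cfsg.Agent.H83.Basic
import Cfsg.Agent.H83.PowDeg
import Cfsg.Agent.S0175

/-!
# Three character degrees: monomial groups (helper83)

* `exists_induced_of_ab_pow`, `monomial_of_ab_pow`: a group with an abelian normal subgroup of
  prime power index is an M-group.
* `taketa_step`, `derived_three_of_monomial`: Taketa's argument for an M-group with at most three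
  character degrees.
* `degree_pow_prime_aux`: over a normal subgroup of `p`-power index, degrees grow by powers of `p`.
-/

set_option autoImplicit false
set_option linter.unusedSectionVars false
set_option linter.style.haveILetI false

namespace Cfsg.Agent.H83

open Cfsg Cfsg.Agent.H4 Cfsg.Agent.Clifford Module Representation
open scoped ComplexConjugate commutatorElement

universe u v

section MonoAb

variable {G : Type u} [Group G] {V : Type v} [AddCommGroup V] [Module ℂ V]

/-- A nonlinear irreducible character of a group with an abelian normal subgroup of prime power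
index is induced from a proper subgroup. -/
theorem exists_induced_of_ab_pow [Fintype G] [FiniteDimensional ℂ V] {p : ℕ} (hp : p.Prime)
    (C : Subgroup G) [C.Normal] (hab : ∀ a ∈ C, ∀ b ∈ C, a * b = b * a) {k : ℕ}
    (hidx : C.index = p ^ k)
    (ρ : Representation ℂ G V) [ρ.IsIrreducible] (hdim : 1 < finrank ℂ V) :
    ∃ (T : Subgroup G) (ψ : T → ℂ), T ≠ ⊤ ∧ IsIrrCharacter T ψ ∧ ρ.character = indFun T ψ := by
  haveI := Fact.mk hp
  by_cases hC : C ≤ scalarSubgroup ρ
  · let P : Sylow p G := default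
    have hCP : C ⊔ (P : Subgroup G) = ⊤ := by
      rw [← Subgroup.index_eq_one]
      have h1 : (C ⊔ (P : Subgroup G)).index ∣ p ^ k :=
        hidx ▸ Subgroup.index_dvd_of_le le_sup_left
      have h2 : (C ⊔ (P : Subgroup G)).index ∣ (P : Subgroup G).index :=
        Subgroup.index_dvd_of_le le_sup_right
      obtain ⟨j, -, hj⟩ := (Nat.dvd_prime_pow hp).mp h1
      rcases Nat.eq_zero_or_pos j with h0 | hpos
      · rw [hj, h0, pow_zero]
      · exfalso
        have : p ∣ (P : Subgroup G).index := dvd_trans (hj ▸ dvd_pow_self p hpos.ne') h2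
        exact P.not_dvd_index this
    haveI : Group.IsNilpotent P := P.isPGroup'.isNilpotent
    have hZ : (scalarSubgroup ρ).subgroupOf P ≠ ⊤ := by
      intro h
      have hPle : (P : Subgroup G) ≤ scalarSubgroup ρ := Subgroup.subgroupOf_eq_top.mp h
      apply scalarSubgroup_ne_top ρ hdim
      rw [eq_top_iff, ← hCP]
      exact sup_le hC hPle
    obtain ⟨x, hx, hxy⟩ := exists_central_mod _ hZ
    refine exists_induced_of_conj_smul ρ (x : G)
      (fun h => hx (Subgroup.mem_subgroupOf.mpr h)) fun g => ?_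
    have hg : g ∈ ((C ⊔ (P : Subgroup G) : Subgroup G) : Set G) := by rw [hCP]; trivial
    rw [Subgroup.normal_mul] at hg
    obtain ⟨c, hc, y, hy, rfl⟩ := Set.mem_mul.mp hg
    obtain ⟨s, hs⟩ := conj_smul_of_commutator_mem ρ (x : G) y (by
      have := ((scalarSubgroup ρ).subgroupOf P).inv_mem (hxy ⟨y, hy⟩)
      rw [commutatorElement_inv] at this
      exact Subgroup.mem_subgroupOf.mp this)
    obtain ⟨t, ht⟩ := hC hc
    refine ⟨s, ?_⟩
    have e : c * y * (x : G) * (c * y)⁻¹ = c * (y * x * y⁻¹) * c⁻¹ := by group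
    rw [e, map_mul, map_mul]
    have hcomm : ρ c * ρ (y * x * y⁻¹) = ρ (y * x * y⁻¹) * ρ c := by
      rw [ht]; ext v; simp
    rw [hcomm, mul_assoc, ← map_mul, mul_inv_cancel, map_one, mul_one, hs]
  · obtain ⟨c, hc, hcns⟩ := SetLike.not_le_iff_exists.mp hC
    refine exists_induced_of_comm ρ C ?_ ⟨c, hc, hcns⟩
    intro a ha b hb
    change ρ a * ρ b = ρ b * ρ a
    rw [← map_mul, ← map_mul, hab a ha b hb]

end MonoAb

section MonoAb2

/-- Irreducible characters of a finite group with an abelian normal subgroup of prime power index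
are monomial. -/
theorem monomial_of_ab_pow (p : ℕ) (hp : p.Prime) : ∀ (n : ℕ) (G : Type u) [Group G] [Fintype G]
    (A : Subgroup G) [A.Normal], (∀ a ∈ A, ∀ b ∈ A, a * b = b * a) →
    (∃ k : ℕ, A.index = p ^ k) → Nat.card G = n → ∀ χ : G → ℂ, IsIrrCharacter G χ →
    ∃ (H : Subgroup G) (lam : H →* ℂˣ), χ = indFun H (fun h => ((lam h : ℂˣ) : ℂ)) := by
  intro n
  induction n using Nat.strong_induction_on with
  | _ n ih =>
    intro G _ _ A _ hab hidx hn χ hχ
    by_cases h1 : χ 1 = 1
    · obtain ⟨lamχ, hlamχ⟩ := exists_hom_of_linear (isCharacter_of_isIrrCharacter hχ) h1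
      refine ⟨⊤, lamχ.comp (⊤ : Subgroup G).subtype, ?_⟩
      have := indFun_top χ (irr_isClassFunction ⟨χ, hχ⟩)
      rw [← this, hlamχ]
      rfl
    · obtain ⟨m, ρ, hρ, rfl⟩ := hχ
      haveI := hρ
      have hpos := finrank_pos_of_irreducible ρ
      have hdim : 1 < finrank ℂ (Fin m → ℂ) := by
        rw [Representation.char_one] at h1
        have : finrank ℂ (Fin m → ℂ) ≠ 1 := fun h => h1 (by rw [h]; simp)
        omega
      obtain ⟨k, hk⟩ := hidx
      obtain ⟨T, ψ, hT, hψ, hχeq⟩ := exists_induced_of_ab_pow hp A hab hk ρ hdim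
      haveI : Fintype T := Fintype.ofFinite T
      have hcard : Nat.card T < n := by
        rw [← hn]
        exact lt_of_le_of_ne (Subgroup.card_le_card_group T)
          (fun h => hT (Subgroup.eq_top_of_card_eq T h))
      have habT : ∀ a ∈ A.subgroupOf T, ∀ b ∈ A.subgroupOf T, a * b = b * a := by
        intro a ha b hb
        apply Subtype.ext
        exact hab a (Subgroup.mem_subgroupOf.mp ha) b (Subgroup.mem_subgroupOf.mp hb)
      have hidxT : ∃ j : ℕ, (A.subgroupOf T).index = p ^ j := by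
        have hd : (A.subgroupOf T).index ∣ p ^ k := by
          rw [← hk]
          exact Subgroup.relIndex_dvd_index_of_normal A T
        obtain ⟨j, -, hj⟩ := (Nat.dvd_prime_pow hp).mp hd
        exact ⟨j, hj⟩
      obtain ⟨H', lam', hψeq⟩ := ih (Nat.card T) hcard T (A.subgroupOf T) habT hidxT rfl ψ hψ
      refine ⟨H'.map T.subtype,
        lam'.comp (H'.equivMapOfInjective T.subtype T.subtype_injective).symm.toMonoidHom, ?_⟩
      rw [hχeq, hψeq, indFun_indFun]
      rfl

end MonoAb2

section Taketa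

variable {G : Type u} [Group G] [Fintype G]

/-- One step of Taketa's argument. -/
theorem taketa_step (j : ℕ) (χ : IrrCharacter G) (H : Subgroup G) (lam : H →* ℂˣ)
    (hχ : χ.1 = indFun H (fun h => ((lam h : ℂˣ) : ℂ)))
    (hlt : ∀ ψ : IrrCharacter G, charDegree ψ.1 < charDegree χ.1 →
      ∀ x ∈ derivedSeries G j, ψ.1 x = ψ.1 1) :
    ∀ g ∈ derivedSeries G (j + 1), χ.1 g = χ.1 1 := by
  classical
  letI := fintypeIrr G
  intro g hg
  set π : G → ℂ := indFun H (fun _ => (1 : ℂ)) with hπ
  have hπ1 : π 1 = χ.1 1 := by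
    rw [hπ, Cfsg.Agent.S0175.indFun_triv_one, hχ, Cfsg.Agent.S0175.indFun_lin_one]
  have hπchar : IsCharacter G π :=
    isCharacter_indFun H _ (isCharacter_of_isIrrCharacter (Cfsg.Agent.H83.isIrrCharacter_one H))
  obtain ⟨a, ha⟩ := isCharacter_iff.mp hπchar
  set triv : IrrCharacter G := Cfsg.Agent.H83.trivChar G with htriv
  have ha_triv : a triv = 1 := by
    have h1 : classInner π triv.1 = a triv := by rw [ha, classInner_finsum_irr]
    have h2 : classInner π triv.1 = 1 := by
      haveI : Fintype H := Fintype.ofFinite H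
      have hcf : IsClassFunction G triv.1 := irr_isClassFunction triv
      rw [hπ, frobenius_reciprocity H _ _ hcf]
      exact irr_inner_self (Cfsg.Agent.H83.trivChar H)
    rw [h2] at h1
    exact_mod_cast h1.symm
  have hπapp : ∀ x : G, π x = ∑ ψ : IrrCharacter G, (a ψ : ℂ) * ψ.1 x := by
    intro x
    have := congrFun ha x
    rw [finsum_irr_eq_sum, Finset.sum_apply] at this
    rw [this]
    rfl
  have hsum : ∑ ψ : IrrCharacter G, a ψ * charDegree ψ.1 = charDegree χ.1 := by
    have h1 := hπapp 1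
    rw [hπ1] at h1
    have h2 : ((charDegree χ.1 : ℕ) : ℂ) =
        ((∑ ψ : IrrCharacter G, a ψ * charDegree ψ.1 : ℕ) : ℂ) := by
      rw [← H82.irr_one_eq_charDegree χ, h1]
      push_cast
      refine Finset.sum_congr rfl fun ψ _ => ?_
      rw [H82.irr_one_eq_charDegree]
    exact_mod_cast h2.symm
  have hdeg_triv : charDegree triv.1 = 1 :=
    charDegree_of_natCast (by show (1 : ℂ) = ((1 : ℕ) : ℂ); simp)
  have hconst : ∀ ψ : IrrCharacter G, a ψ ≠ 0 → ∀ x ∈ derivedSeries G j, ψ.1 x = ψ.1 1 := by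
    intro ψ hψ x hx
    by_cases hψt : ψ = triv
    · rw [hψt]; rfl
    · have h1 : a triv * charDegree triv.1 + a ψ * charDegree ψ.1 ≤ charDegree χ.1 := by
        rw [← hsum, ← Finset.add_sum_erase Finset.univ _ (Finset.mem_univ triv)]
        apply Nat.add_le_add_left
        exact Finset.single_le_sum (f := fun ψ => a ψ * charDegree ψ.1)
          (fun _ _ => Nat.zero_le _) (Finset.mem_erase.mpr ⟨hψt, Finset.mem_univ ψ⟩)
      rw [ha_triv, hdeg_triv] at h1
      have h2 : charDegree ψ.1 ≤ a ψ * charDegree ψ.1 :=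
        Nat.le_mul_of_pos_left _ (Nat.pos_of_ne_zero hψ)
      exact hlt ψ (by omega) x hx
  have hπconst : ∀ x ∈ derivedSeries G j, π x = π 1 := by
    intro x hx
    rw [hπapp x, hπapp 1]
    refine Finset.sum_congr rfl fun ψ _ => ?_
    by_cases hψ : a ψ = 0
    · rw [hψ]; simp
    · rw [hconst ψ hψ x hx]
  have hDH : ∀ x ∈ derivedSeries G j, x ∈ H := fun x hx =>
    Cfsg.Agent.S0175.mem_of_indFun_one_eq H (hπconst x hx)
  have hK : ∀ k ∈ derivedSeries G (j + 1), ∃ hk : k ∈ H, lam ⟨k, hk⟩ = 1 := by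
    have hle2 : derivedSeries G (j + 1) ≤ (lam.ker).map H.subtype := by
      rw [derivedSeries_succ, Subgroup.commutator_le]
      intro x hx y hy
      refine ⟨(⟨x, hDH x hx⟩ : H) * ⟨y, hDH y hy⟩ * (⟨x, hDH x hx⟩ : H)⁻¹ *
        (⟨y, hDH y hy⟩ : H)⁻¹, ?_, rfl⟩
      rw [SetLike.mem_coe, MonoidHom.mem_ker]
      simp only [map_mul, map_inv]
      rw [mul_comm (lam ⟨x, hDH x hx⟩), mul_inv_cancel_right, mul_inv_cancel]
    intro k hk
    obtain ⟨k', hk', rfl⟩ := hle2 hk
    exact ⟨k'.2, hk'⟩
  haveI := derivedSeries_normal G (j + 1)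
  have := Cfsg.Agent.S0175.indFun_lin_of_mem H lam (derivedSeries G (j + 1)) hK hg
  rw [← hχ] at this
  exact this

/-- Taketa: an M-group with character degrees in `{1, m, n}` has derived length at most 3. -/
theorem derived_three_of_monomial (m n : ℕ) (hm : 1 ≤ m) (hmn : m ≤ n)
    (hcd : ∀ χ : IrrCharacter G, charDegree χ.1 = 1 ∨ charDegree χ.1 = m ∨ charDegree χ.1 = n)
    (hM : ∀ χ : G → ℂ, IsIrrCharacter G χ →
      ∃ (H : Subgroup G) (lam : H →* ℂˣ), χ = indFun H (fun h => ((lam h : ℂˣ) : ℂ))) :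
    derivedSeries G 3 = ⊥ := by
  have hle : ∀ j, derivedSeries G (j + 1) ≤ derivedSeries G j := fun j => by
    rw [derivedSeries_succ]
    haveI := derivedSeries_normal G j
    exact Subgroup.commutator_le_right _ _
  have c1 : ∀ χ : IrrCharacter G, charDegree χ.1 = 1 →
      ∀ x ∈ derivedSeries G 1, χ.1 x = χ.1 1 := by
    intro χ h1
    obtain ⟨H, lam, hχ⟩ := hM χ.1 χ.2
    exact taketa_step 0 χ H lam hχ (fun ψ hψ => by
      have := H82.charDegree_pos ψ
      omega)
  have c2 : ∀ χ : IrrCharacter G, charDegree χ.1 ≤ m →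
      ∀ x ∈ derivedSeries G 2, χ.1 x = χ.1 1 := by
    intro χ hχm
    by_cases h1 : charDegree χ.1 = 1
    · intro x hx
      exact c1 χ h1 x (hle 1 hx)
    · obtain ⟨H, lam, hχ⟩ := hM χ.1 χ.2
      exact taketa_step 1 χ H lam hχ (fun ψ hψ => by
        apply c1 ψ
        rcases hcd ψ with h | h | h
        · exact h
        · omega
        · omega)
  have c3 : ∀ χ : IrrCharacter G, ∀ x ∈ derivedSeries G 3, χ.1 x = χ.1 1 := by
    intro χ
    by_cases h1 : charDegree χ.1 ≤ m
    · intro x hx
      exact c2 χ h1 x (hle 2 hx)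
    · obtain ⟨H, lam, hχ⟩ := hM χ.1 χ.2
      exact taketa_step 2 χ H lam hχ (fun ψ hψ => by
        apply c2 ψ
        rcases hcd ψ with h | h | h
        · omega
        · omega
        · rcases hcd χ with h' | h' | h' <;> omega)
  rw [eq_bot_iff]
  intro g hg
  rw [Subgroup.mem_bot]
  have h1 : IsConj g 1 := by
    rw [isConj_iff_irr]
    intro χ
    exact c3 χ g hg
  exact isConj_one_left.mp h1

end Taketa

section PowDegP

/-- If `[G : N] = p^k` and `χ ∈ Irr(G)` lies over `φ ∈ Irr(N)`, then `χ(1) / φ(1)` is a power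
of `p`. -/
theorem degree_pow_prime_aux (p : ℕ) (hp : p.Prime) : ∀ (k : ℕ) (G : Type u) [Group G]
    [Fintype G] (N : Subgroup G)
    [N.Normal] [Fintype N], N.index = p ^ k → ∀ (χ : G → ℂ) (φ : N → ℂ), IsIrrCharacter G χ →
    IsIrrCharacter N φ → classInner (fun n : N => χ n) φ ≠ 0 →
    ∃ j : ℕ, charDegree χ = p ^ j * charDegree φ := by
  intro k
  induction k with
  | zero =>
    intro G _ _ N _ _ hk χ φ hχ hφ h
    have hN : N = ⊤ := Subgroup.index_eq_one.mp (by simpa using hk)
    refine ⟨0, ?_⟩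
    rw [pow_zero, one_mul]
    have hres : IsIrrCharacter N (fun n : N => χ n) := by
      obtain ⟨e, he⟩ : ∃ e : N ≃* G, ∀ n : N, e n = (n : G) :=
        ⟨(MulEquiv.subgroupCongr hN).trans Subgroup.topEquiv, fun n => rfl⟩
      have := isIrrCharacter_comp_equiv e hχ
      simpa only [he] using this
    have heq := eq_of_classInner_ne_zero hres hφ h
    apply H82.charDegree_eq_of_one_eq
    have h1 := congrFun heq 1
    simpa using h1
  | succ k ih =>
    intro G _ _ N _ _ hk χ φ hχ hφ h
    classical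
    haveI : Fact p.Prime := ⟨hp⟩
    obtain ⟨M, hMn, hNM, hMidx⟩ : ∃ M : Subgroup G, M.Normal ∧ N ≤ M ∧ M.index = p := by
      have hcard : Nat.card (G ⧸ N) = p ^ (k + 1) := by rw [← Subgroup.index_eq_card, hk]
      obtain ⟨K, hK⟩ := Sylow.exists_subgroup_card_pow_prime (G := G ⧸ N) p (n := k)
        (by rw [hcard]; exact pow_dvd_pow p (Nat.le_succ k))
      have hKidx : K.index = p := by
        have := Subgroup.card_mul_index K
        rw [hK, hcard, pow_succ] at this
        exact Nat.eq_of_mul_eq_mul_left (pow_pos hp.pos k) this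
      refine ⟨K.comap (QuotientGroup.mk' N), ?_, ?_, ?_⟩
      · haveI : K.Normal := Subgroup.normal_of_index_eq_minFac_card (by
          rw [hKidx, hcard, Nat.Prime.pow_minFac hp (Nat.succ_ne_zero k)])
        infer_instance
      · intro n hn
        rw [Subgroup.mem_comap]
        have : (QuotientGroup.mk' N) n = 1 := by
          rw [QuotientGroup.mk'_apply, QuotientGroup.eq_one_iff]; exact hn
        rw [this]; exact K.one_mem
      · rw [Subgroup.index_comap_of_surjective K (QuotientGroup.mk'_surjective N), hKidx]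
    haveI := hMn
    haveI : Fintype M := Fintype.ofFinite M
    haveI : Fintype (N.subgroupOf M) := Fintype.ofFinite _
    have hrel : (N.subgroupOf M).index = p ^ k := by
      have := Subgroup.relIndex_mul_index hNM
      rw [hMidx, hk, pow_succ] at this
      exact Nat.eq_of_mul_eq_mul_right hp.pos this
    let e : N.subgroupOf M ≃* N := Subgroup.subgroupOfEquivOfLe hNM
    have hφ' : IsIrrCharacter (N.subgroupOf M) (fun x => φ (e x)) :=
      isIrrCharacter_comp_equiv e hφ
    have hχM : IsCharacter M (fun m : M => χ m) :=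
      isCharacter_restrict M (isCharacter_of_isIrrCharacter hχ)
    have hexp := classInner_comp_expand (isClassFunction_of_isCharacter hχM)
      (fun x : N.subgroupOf M => (x : M)) (fun x => φ (e x))
    have hL : classInner (fun x : N.subgroupOf M => (fun m : M => χ m) (x : M))
        (fun x => φ (e x)) = classInner (fun n : N => χ n) φ :=
      classInner_comp_equiv e (fun n : N => χ n) φ
    rw [hL] at hexp
    have hne : ∑ᶠ ξ : IrrCharacter M, classInner (fun m : M => χ m) ξ.1 *
        classInner (fun x : N.subgroupOf M => ξ.1 (x : M)) (fun x => φ (e x)) ≠ 0 := by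
      rw [← hexp]; exact h
    obtain ⟨ξ, hξ⟩ : ∃ ξ : IrrCharacter M, classInner (fun m : M => χ m) ξ.1 *
        classInner (fun x : N.subgroupOf M => ξ.1 (x : M)) (fun x => φ (e x)) ≠ 0 := by
      by_contra hall
      push Not at hall
      exact hne (finsum_eq_zero_of_forall_eq_zero hall)
    have hξ1 : classInner (fun m : M => χ m) ξ.1 ≠ 0 := left_ne_zero_of_mul hξ
    have hξ2 := right_ne_zero_of_mul hξ
    obtain ⟨j, hj⟩ := ih M (N.subgroupOf M) hrel ξ.1 (fun x => φ (e x)) ξ.2 hφ' hξ2
    have hdeg : charDegree (fun x : N.subgroupOf M => φ (e x)) = charDegree φ :=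
      H82.charDegree_eq_of_one_eq (by simp)
    rw [hdeg] at hj
    rcases degree_of_prime_index M hp hMidx hχ ξ.2 hξ1 with h1 | h1
    · exact ⟨j, by rw [h1, hj]⟩
    · exact ⟨j + 1, by rw [h1, hj, pow_succ]; ring⟩

theorem pprime_part_unique {p : ℕ} (hp : p.Prime) {j a d d' : ℕ} (hd : ¬ p ∣ d)
    (hd' : ¬ p ∣ d') (h : p ^ j * d = p ^ a * d') : d = d' := by
  have c1 : d.Coprime (p ^ a) :=
    Nat.Coprime.pow_right a ((Nat.Prime.coprime_iff_not_dvd hp).mpr hd).symm
  have c2 : d'.Coprime (p ^ j) :=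
    Nat.Coprime.pow_right j ((Nat.Prime.coprime_iff_not_dvd hp).mpr hd').symm
  have h1 : d ∣ d' := c1.dvd_of_dvd_mul_left (Dvd.intro_left _ h)
  have h2 : d' ∣ d := c2.dvd_of_dvd_mul_left (Dvd.intro_left _ h.symm)
  exact Nat.dvd_antisymm h1 h2

end PowDegP

end Cfsg.Agent.H83
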