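import Mathlib
import Cfsg.Prelude.Def_Characters
import Cfsg.Agent.H83.ThreeDegA
import Cfsg.Agent.H83.ThreeDegB
import Cfsg.Agent.H83.ThreeDegM
import Cfsg.Agent.S4458
import Cfsg.Agent.S4456
import Cfsg.Agent.S0855

/-!
# Three character degrees imply derived length at most three (helper83)

Isaacs, Theorem 12.15 (without assuming solvability).  Strong induction on `|G|` for the
statement "`cd(G) ⊆ {1, m, n}` implies `G''' = 1`":

* `three_deg_of_solvable_quot`: coprime degrees and a solvable nonabelian quotient;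
* `ring_false` (file `ThreeDegB`): coprime degrees and no such quotient is impossible;
* `three_deg_common_prime`: a common prime divisor `p` (Thompson's normal `p`-complement);
* `three_deg_main`: the induction.
-/

set_option autoImplicit false
set_option linter.unusedSectionVars false
set_option linter.style.haveILetI false

namespace Cfsg.Agent.H83

open Cfsg Cfsg.Agent.H4 Cfsg.Agent.Clifford
open scoped ComplexConjugate commutatorElement

universe u

section DerHelpers

variable {G : Type u} [Group G]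

theorem derived_three_of_abelian_two (A : Subgroup G) (h2 : derivedSeries G 2 ≤ A)
    (hA : ∀ a ∈ A, ∀ b ∈ A, a * b = b * a) : derivedSeries G 3 = ⊥ := by
  rw [derivedSeries_succ, eq_bot_iff, Subgroup.commutator_le]
  intro x hx y hy
  rw [Subgroup.mem_bot, commutatorElement_eq_one_iff_commute]
  exact hA x (h2 hx) y (h2 hy)

theorem commutator_le_map_commutator (H : Subgroup G) :
    ⁅H, H⁆ ≤ (commutator H).map H.subtype := by
  rw [Subgroup.commutator_le]
  intro x hx y hy
  refine ⟨⁅(⟨x, hx⟩ : H), ⟨y, hy⟩⁆, ?_, rfl⟩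
  rw [SetLike.mem_coe, commutator_def]
  exact Subgroup.commutator_mem_commutator (Subgroup.mem_top _) (Subgroup.mem_top _)

theorem derived_three_of_le (N : Subgroup G) (hGN : commutator G ≤ N)
    (hN : ∀ a ∈ commutator N, ∀ b ∈ commutator N, a * b = b * a) : derivedSeries G 3 = ⊥ := by
  apply derived_three_of_abelian_two ((commutator N).map N.subtype)
  · have h1 : derivedSeries G 1 ≤ N := by rw [derivedSeries_one]; exact hGN
    rw [derivedSeries_succ]
    exact (Subgroup.commutator_mono h1 h1).trans (commutator_le_map_commutator N)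
  · intro a ha b hb
    obtain ⟨a', ha', rfl⟩ := ha
    obtain ⟨b', hb', rfl⟩ := hb
    exact congrArg Subtype.val (hN a' ha' b' hb')

theorem derived_three_of_comm_le (H : Subgroup G) (hle : commutator G ≤ ⁅H, H⁆)
    (hH : derivedSeries H 3 = ⊥) : derivedSeries G 3 = ⊥ := by
  have key : ∀ j, derivedSeries G (j + 1) ≤ (derivedSeries H (j + 1)).map H.subtype := by
    intro j
    induction j with
    | zero =>
      show derivedSeries G 1 ≤ (derivedSeries H 1).map H.subtype
      rw [derivedSeries_one, derivedSeries_one]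
      exact hle.trans (commutator_le_map_commutator H)
    | succ j ih =>
      rw [derivedSeries_succ G (j + 1), derivedSeries_succ H (j + 1), Subgroup.map_commutator]
      exact Subgroup.commutator_mono ih ih
  have := key 2
  rw [hH, Subgroup.map_bot] at this
  exact le_bot_iff.mp this

/-- At most two character degrees: the derived subgroup is abelian. -/
theorem comm_of_two_deg {Q : Type u} [Group Q] [Finite Q] (f : ℕ)
    (hcdQ : ∀ χ : IrrCharacter Q, charDegree χ.1 = 1 ∨ charDegree χ.1 = f) :
    ∀ a ∈ commutator Q, ∀ b ∈ commutator Q, a * b = b * a := by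
  by_cases hlin : ∀ χ : IrrCharacter Q, charDegree χ.1 = 1
  · intro a _ b _
    exact Cfsg.Agent.S0855.comm_of_all_linear hlin a b
  · push Not at hlin
    obtain ⟨χ₀, hχ₀⟩ := hlin
    have hf : charDegree χ₀.1 = f := (hcdQ χ₀).resolve_left hχ₀
    exact Cfsg.Agent.S4458.result f hcdQ ⟨χ₀, hf⟩ (fun h => hχ₀ (hf.trans h))

theorem derived_three_of_two [Finite G] (f : ℕ)
    (hcd2 : ∀ χ : IrrCharacter G, charDegree χ.1 = 1 ∨ charDegree χ.1 = f) :
    derivedSeries G 3 = ⊥ := by
  apply derived_three_of_abelian_two (commutator G)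
  · rw [derivedSeries_succ, derivedSeries_one]
    exact Subgroup.commutator_le_right _ _
  · exact comm_of_two_deg f hcd2

theorem comm_derived_of_two_deg (H : Subgroup G) [Finite H] (f : ℕ)
    (hcdH : ∀ ϑ : IrrCharacter H, charDegree ϑ.1 = 1 ∨ charDegree ϑ.1 = f) :
    ∀ a ∈ ⁅H, H⁆, ∀ b ∈ ⁅H, H⁆, a * b = b * a := by
  have h := comm_of_two_deg f hcdH
  intro a ha b hb
  obtain ⟨a', ha', rfl⟩ := commutator_le_map_commutator H ha
  obtain ⟨b', hb', rfl⟩ := commutator_le_map_commutator H hb
  exact congrArg Subtype.val (h a' ha' b' hb')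

theorem two_step [Finite G] (A : Subgroup G) [A.Normal]
    (hAab : ∀ a ∈ A, ∀ b ∈ A, a * b = b * a) (f : ℕ)
    (hcdQ : ∀ χ : IrrCharacter G, A ≤ H82.irrKer χ → charDegree χ.1 = 1 ∨ charDegree χ.1 = f) :
    derivedSeries G 3 = ⊥ := by
  have hcdQ' : ∀ χ' : IrrCharacter (G ⧸ A), charDegree χ'.1 = 1 ∨ charDegree χ'.1 = f := by
    intro χ'
    have := hcdQ (H82.inflate A χ')
      (fun x hx => (H82.mem_irrKer _ x).mpr (H82.inflate_mem A χ' x hx))
    rwa [H82.charDegree_inflate] at this
  have hQ := comm_of_two_deg f hcdQ'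
  have hD2Q : derivedSeries (G ⧸ A) 2 = ⊥ := by
    rw [derivedSeries_succ, derivedSeries_one, eq_bot_iff, Subgroup.commutator_le]
    intro x hx y hy
    rw [Subgroup.mem_bot, commutatorElement_eq_one_iff_commute]
    exact hQ x hx y hy
  have h2 : derivedSeries G 2 ≤ A := by
    have := map_derivedSeries_eq (QuotientGroup.mk'_surjective A) 2
    rw [hD2Q, Subgroup.map_eq_bot_iff, QuotientGroup.ker_mk'] at this
    exact this
  exact derived_three_of_abelian_two A h2 hAab

end DerHelpers

section Frob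

variable {G : Type u} [Group G]

theorem three_deg_frob_core [Finite G] {f g : ℕ}
    (hcd : ∀ χ : IrrCharacter G, charDegree χ.1 = 1 ∨ charDegree χ.1 = f ∨ charDegree χ.1 = g)
    (hf1 : 1 < f) (hg1 : 1 < g) (hcop : Nat.Coprime f g)
    (χg : IrrCharacter G) (hχg : charDegree χg.1 = g)
    (K N : Subgroup G) (t : ℕ) [hK : K.Normal] [hN : N.Normal] (ht : t.Prime) (hKN : K ≤ N)
    (hne : K ≠ N) (hGN : commutator G ≤ N)
    (hmax : ∀ L : Subgroup G, L.Normal → K ≤ L → L ≠ K → N ≤ L)
    (hab : ∀ a ∈ N, ∀ b ∈ N, a * b * a⁻¹ * b⁻¹ ∈ K)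
    (hidx : ∃ mm : ℕ, K.relIndex N = t ^ mm)
    (hcase : (∃ k : ℕ, K.index = t ^ k) ∨
        ((∀ n ∈ N, (∀ x : G, x * n * x⁻¹ * n⁻¹ ∈ K) → n ∈ K) ∧
         (∀ x : G, (∀ n ∈ N, x * n * x⁻¹ * n⁻¹ ∈ K) → x ∈ N)))
    (β : IrrCharacter G) (hβf : charDegree β.1 = f) (hβK : K ≤ H82.irrKer β) :
    derivedSeries G 3 = ⊥ := by
  classical
  haveI : Fintype G := Fintype.ofFinite G
  haveI : Fintype N := Fintype.ofFinite N
  have hgcd : ∀ q : ℕ, q.Prime → q ∣ f → q ∣ g → False := by
    intro q hq h1 h2
    have := Nat.dvd_gcd h1 h2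
    rw [hcop.gcd_eq_one] at this
    exact hq.not_dvd_one this
  rcases hcase with ⟨k, hk⟩ | ⟨hZ, hC⟩
  · exfalso
    have h1 : f ∣ t ^ k := by
      rw [← hk, ← hβf]
      exact (H82.charDegree_dvd_index_irrKer β).trans (Subgroup.index_dvd_of_le hβK)
    obtain ⟨j, -, hj⟩ := (Nat.dvd_prime_pow ht).mp h1
    have hj0 : j ≠ 0 := by
      intro h0
      rw [h0, pow_zero] at hj
      omega
    have htf : t ∣ f := by rw [hj]; exact dvd_pow_self t hj0
    have htg : ¬ t ∣ g := fun h => hgcd t ht htf h
    have hres : IsIrrCharacter K (fun k : K => χg.1 k) :=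
      res_irr_of_index_pow K t k ht hk χg.2 (by rw [hχg]; exact htg)
    have hirr := mul_irr_of_res_irr K χg β hres (fun x hx => (H82.mem_irrKer β x).mp (hβK hx))
    have hdeg : charDegree (β.1 * χg.1) = f * g := by
      apply charDegree_of_natCast
      show β.1 1 * χg.1 1 = _
      rw [H82.irr_one_eq_charDegree, H82.irr_one_eq_charDegree, hβf, hχg]
      push_cast
      rfl
    have h3 : charDegree (β.1 * χg.1) = 1 ∨ charDegree (β.1 * χg.1) = f ∨
        charDegree (β.1 * χg.1) = g := hcd ⟨β.1 * χg.1, hirr⟩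
    rw [hdeg] at h3
    have h4 : 2 * 2 ≤ f * g := Nat.mul_le_mul hf1 hg1
    have h5 : f * 2 ≤ f * g := Nat.mul_le_mul_left f hg1
    have h6 : 2 * g ≤ f * g := Nat.mul_le_mul_right g hf1
    rcases h3 with h | h | h <;> omega
  · have hfN : f = N.index := by
      rw [← hβf]
      exact degree_eq_index K N hKN hGN hmax hab hC β (by rw [hβf]; omega) hβK
    obtain ⟨q, hq, hqg⟩ := Nat.exists_prime_and_dvd (show g ≠ 1 by omega)
    have hqf : ¬ q ∣ f := fun h => hgcd q hq h hqg
    obtain ⟨mm, hmm⟩ := hidx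
    have htg : t ∣ g := by
      have := dvd_of_vanish_ab K N hKN hne hGN hab ht hmm hZ q (fun χ hχ => by
        rcases hcd χ with h | h | h
        · rw [h] at hχ
          exact absurd hχ hq.not_dvd_one
        · rw [h] at hχ
          exact absurd hχ hqf
        · rw [h, ← hfN]
          exact hcop.symm) χg (by rw [hχg]; exact hqg)
      rwa [hχg] at this
    have htf : ¬ t ∣ f := fun h => hgcd t ht h htg
    have hf0 : 0 < f := by omega
    have hcdN : ∀ ϑ : IrrCharacter N, charDegree ϑ.1 = 1 ∨ charDegree ϑ.1 = g := by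
      intro ϑ
      obtain ⟨χ, hχ, hχne⟩ := ItoConv.exists_irr_over N ϑ.2
      obtain ⟨e, he⟩ := ItoConv.degree_over N ϑ ⟨χ, hχ⟩ hχne
      have hdvd : charDegree ϑ.1 ∣ charDegree χ := Dvd.intro_left _ he.symm
      have h3 : charDegree χ = 1 ∨ charDegree χ = f ∨ charDegree χ = g := hcd ⟨χ, hχ⟩
      rcases h3 with h | h | h
      · left
        rw [h] at hdvd
        exact Nat.dvd_one.mp hdvd
      · left
        rw [h] at hdvd
        have hnt : ¬ t ∣ charDegree ϑ.1 := fun h' => htf (h'.trans hdvd)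
        haveI : Fintype (K.subgroupOf N) := Fintype.ofFinite _
        have hresK : IsIrrCharacter (K.subgroupOf N) (fun k : K.subgroupOf N => ϑ.1 k) :=
          res_irr_of_index_pow (K.subgroupOf N) t mm ht hmm ϑ.2 hnt
        obtain ⟨μ, hμK, hμT⟩ := exists_twist_inertia K N hKN hne hGN hmax hab hC ϑ.2 hresK
        have hθ' : IsIrrCharacter N (fun n : N => ((μ n : ℂˣ) : ℂ) * ϑ.1 n) :=
          isIrrCharacter_hom_mul μ ϑ.2
        have hT : N = Clifford.inertia N (fun n : N => ((μ n : ℂˣ) : ℂ) * ϑ.1 n) :=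
          le_antisymm (le_inertia N (isClassFunction_of_isCharacter
            (isCharacter_of_isIrrCharacter hθ'))) hμT
        have h1' : classInner (fun n : N => (fun n : N => ((μ n : ℂˣ) : ℂ) * ϑ.1 n)
            ⟨n, (le_refl N) n.2⟩) (fun n : N => ((μ n : ℂˣ) : ℂ) * ϑ.1 n) ≠ 0 := by
          have : (fun n : N => (fun n : N => ((μ n : ℂˣ) : ℂ) * ϑ.1 n) ⟨n, (le_refl N) n.2⟩) =
              (fun n : N => ((μ n : ℂˣ) : ℂ) * ϑ.1 n) := rfl
          rw [this, classInner_irr_irr hθ' hθ', if_pos rfl]
          exact one_ne_zero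
        obtain ⟨hind, -⟩ := clifford_corr_irr hθ' (le_refl N) hT hθ' h1'
        have hdegind : charDegree (indFun N (fun n : N => ((μ n : ℂˣ) : ℂ) * ϑ.1 n)) =
            f * charDegree ϑ.1 := by
          apply charDegree_of_natCast
          rw [H82.indFun_one, map_one, Units.val_one, one_mul, H82.irr_one_eq_charDegree, hfN]
          push_cast
          rfl
        have h4 : charDegree (indFun N (fun n : N => ((μ n : ℂˣ) : ℂ) * ϑ.1 n)) = 1 ∨
            charDegree (indFun N (fun n : N => ((μ n : ℂˣ) : ℂ) * ϑ.1 n)) = f ∨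
            charDegree (indFun N (fun n : N => ((μ n : ℂˣ) : ℂ) * ϑ.1 n)) = g := hcd ⟨_, hind⟩
        rw [hdegind] at h4
        rcases h4 with h5 | h5 | h5
        · exact Nat.dvd_one.mp (Dvd.intro_left f h5)
        · exact Nat.eq_of_mul_eq_mul_left hf0 (h5.trans (mul_one f).symm)
        · exfalso
          have h6 : f ∣ g := Dvd.intro _ h5
          have h7 := Nat.dvd_gcd (dvd_refl f) h6
          rw [hcop.gcd_eq_one] at h7
          have := Nat.dvd_one.mp h7
          omega
      · right
        have hresN : IsIrrCharacter N (fun n : N => χ n) :=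
          res_irr_of_coprime_ab N hGN hχ (by rw [h, ← hfN]; exact hcop.symm)
        have heq := eq_of_classInner_ne_zero hresN ϑ.2 hχne
        rw [← h, ← heq]
        exact H82.charDegree_eq_of_one_eq rfl
    exact derived_three_of_le N hGN (comm_of_two_deg g hcdN)

/-- Coprime degrees `m, n` and a solvable nonabelian quotient: `G''' = 1`. -/
theorem three_deg_of_solvable_quot [Finite G] {m n : ℕ}
    (hcd : ∀ χ : IrrCharacter G, charDegree χ.1 = 1 ∨ charDegree χ.1 = m ∨ charDegree χ.1 = n)
    (hm1 : 1 < m) (hn1 : 1 < n) (hcop : Nat.Coprime m n)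
    (hA : ∃ χ : IrrCharacter G, charDegree χ.1 = m)
    (hB : ∃ χ : IrrCharacter G, charDegree χ.1 = n)
    (K₀ : Subgroup G) [K₀.Normal] [Group.IsSolvable (G ⧸ K₀)] (hK₀ : ¬ commutator G ≤ K₀) :
    derivedSeries G 3 = ⊥ := by
  obtain ⟨K, N, t, hKn, hNn, ht, hKN, hne, hGN, hKc, hmax, hab, hidx, hcase⟩ :=
    threeDeg_struct K₀ hK₀
  haveI := hKn
  haveI := hNn
  obtain ⟨β, hβ1, hβK⟩ := H16.exists_nonlinear_of_not_le K hKc
  obtain ⟨χm, hχm⟩ := hA
  obtain ⟨χn, hχn⟩ := hB
  rcases hcd β with h | h | h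
  · exact absurd h hβ1
  · exact three_deg_frob_core hcd hm1 hn1 hcop χn hχn K N t ht hKN hne hGN hmax hab hidx hcase
      β h hβK
  · exact three_deg_frob_core (fun χ => by
      rcases hcd χ with h | h | h
      exacts [Or.inl h, Or.inr (Or.inr h), Or.inr (Or.inl h)]) hn1 hm1 hcop.symm χm hχm K N t ht
      hKN hne hGN hmax hab hidx hcase β h hβK

end Frob

section CommonPrime

variable {G : Type u} [Group G]

/-- A common prime divisor of the two nonlinear degrees. -/
theorem three_deg_common_prime [Finite G] {m n : ℕ} (p : ℕ) (hp : p.Prime)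
    (hcd : ∀ χ : IrrCharacter G, charDegree χ.1 = 1 ∨ charDegree χ.1 = m ∨ charDegree χ.1 = n)
    (hm1 : 1 < m) (hmn : m < n) (hpm : p ∣ m) (hpn : p ∣ n)
    (hA : ∃ χ : IrrCharacter G, charDegree χ.1 = m)
    (IH : ∀ H : Subgroup G, H ≠ ⊤ → ∀ m' n' : ℕ,
      (∀ ϑ : IrrCharacter H, charDegree ϑ.1 = 1 ∨ charDegree ϑ.1 = m' ∨ charDegree ϑ.1 = n') →
      derivedSeries H 3 = ⊥) :
    derivedSeries G 3 = ⊥ := by
  classical
  haveI : Fintype G := Fintype.ofFinite G
  obtain ⟨H, hHn, hHcop, k, hk⟩ := Cfsg.Agent.S4456.result p hp (fun χ hχ => by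
    rcases hcd χ with h | h | h
    · exact absurd h hχ
    · rw [h]; exact hpm
    · rw [h]; exact hpn)
  haveI := hHn
  haveI : Fintype H := Fintype.ofFinite H
  have hnotdvd : ∀ c : ℕ, c.Coprime p → ¬ p ∣ c := by
    intro c hc h
    have := Nat.dvd_gcd h (dvd_refl p)
    rw [hc.gcd_eq_one] at this
    exact hp.not_dvd_one this
  have hHtop : H ≠ ⊤ := by
    intro h
    obtain ⟨χ, hχ⟩ := hA
    have h1 : p ∣ Nat.card G := (hχ ▸ hpm).trans (H82.charDegree_dvd_card χ)
    rw [h, Subgroup.card_top] at hHcop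
    exact hnotdvd _ hHcop h1
  obtain ⟨a, m', hm', hma⟩ := Nat.exists_eq_pow_mul_and_not_dvd (show m ≠ 0 by omega) p hp.ne_one
  obtain ⟨b, n', hn', hnb⟩ := Nat.exists_eq_pow_mul_and_not_dvd (show n ≠ 0 by omega) p hp.ne_one
  have hF2 : ∀ ϑ : IrrCharacter H, ¬ p ∣ charDegree ϑ.1 := by
    intro ϑ h
    exact hnotdvd _ hHcop (h.trans (H82.charDegree_dvd_card ϑ))
  have hover : ∀ (χ : IrrCharacter G) (ϑ : IrrCharacter H),
      classInner (fun x : H => χ.1 x) ϑ.1 ≠ 0 →
      ∃ j : ℕ, charDegree χ.1 = p ^ j * charDegree ϑ.1 := fun χ ϑ h =>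
    degree_pow_prime_aux p hp k G H hk χ.1 ϑ.1 χ.2 ϑ.2 h
  have hcdH : ∀ ϑ : IrrCharacter H,
      charDegree ϑ.1 = 1 ∨ charDegree ϑ.1 = m' ∨ charDegree ϑ.1 = n' := by
    intro ϑ
    obtain ⟨χ, hχ, hχne⟩ := ItoConv.exists_irr_over H ϑ.2
    obtain ⟨j, hj⟩ := hover ⟨χ, hχ⟩ ϑ hχne
    have hj' : charDegree χ = p ^ j * charDegree ϑ.1 := hj
    have h3 : charDegree χ = 1 ∨ charDegree χ = m ∨ charDegree χ = n := hcd ⟨χ, hχ⟩
    rcases h3 with h | h | h
    · left
      rw [h] at hj'
      exact Nat.dvd_one.mp (Dvd.intro_left _ hj'.symm)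
    · right; left
      rw [h, hma] at hj'
      exact (pprime_part_unique hp hm' (hF2 ϑ) hj').symm
    · right; right
      rw [h, hnb] at hj'
      exact (pprime_part_unique hp hn' (hF2 ϑ) hj').symm
  obtain ⟨A, hAdef⟩ : ∃ A : Subgroup G, A = ⁅H, H⁆ := ⟨_, rfl⟩
  haveI hAn : A.Normal := by
    rw [hAdef]
    exact Subgroup.commutator_normal H H
  have hpowA : ∀ χ : IrrCharacter G, A ≤ H82.irrKer χ →
      charDegree χ.1 = 1 ∨ (charDegree χ.1 = m ∧ m' = 1) ∨ (charDegree χ.1 = n ∧ n' = 1) := by
    intro χ hχA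
    obtain ⟨ϑ, hϑ, hne⟩ := H82.exists_constituent_res' H χ.2
    have hlin : charDegree ϑ = 1 := by
      apply H16.linear_of_commutator_le_irrKer ⟨ϑ, hϑ⟩
      rw [commutator_def, Subgroup.commutator_le]
      intro x _ y _
      rw [H82.mem_irrKer]
      apply constituent_mem_ker H χ ⟨ϑ, hϑ⟩ hne
      apply (H82.mem_irrKer χ _).mp
      apply hχA
      rw [hAdef]
      exact Subgroup.commutator_mem_commutator x.2 y.2
    obtain ⟨j, hj⟩ := hover χ ⟨ϑ, hϑ⟩ hne
    have hj' : charDegree χ.1 = p ^ j * charDegree ϑ := hj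
    rw [hlin] at hj'
    rcases hcd χ with h | h | h
    · left; exact h
    · right; left
      refine ⟨h, ?_⟩
      rw [h, hma] at hj'
      exact pprime_part_unique hp hm' hp.not_dvd_one hj'
    · right; right
      refine ⟨h, ?_⟩
      rw [h, hnb] at hj'
      exact pprime_part_unique hp hn' hp.not_dvd_one hj'
  by_cases hm'1 : m' = 1
  · by_cases hn'1 : n' = 1
    · have hlinH : ∀ ϑ : IrrCharacter H, charDegree ϑ.1 = 1 := by
        intro ϑ
        rcases hcdH ϑ with h | h | h
        · exact h
        · rw [h, hm'1]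
        · rw [h, hn'1]
      have hHab := Cfsg.Agent.S0855.comm_of_all_linear hlinH
      have hM := monomial_of_ab_pow p hp (Nat.card G) G H
        (fun x hx y hy => congrArg Subtype.val (hHab ⟨x, hx⟩ ⟨y, hy⟩)) ⟨k, hk⟩ rfl
      exact derived_three_of_monomial m n (by omega) hmn.le hcd hM
    · apply two_step A ?_ m ?_
      · rw [hAdef]
        exact comm_derived_of_two_deg H n' (fun ϑ => by
          rcases hcdH ϑ with h | h | h
          exacts [Or.inl h, Or.inl (by rw [h, hm'1]), Or.inr h])
      · intro χ hχ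
        rcases hpowA χ hχ with h | h | h
        · exact Or.inl h
        · exact Or.inr h.1
        · exact absurd h.2 hn'1
  · by_cases hn'1 : n' = 1
    · apply two_step A ?_ n ?_
      · rw [hAdef]
        exact comm_derived_of_two_deg H m' (fun ϑ => by
          rcases hcdH ϑ with h | h | h
          exacts [Or.inl h, Or.inr h, Or.inl (by rw [h, hn'1])])
      · intro χ hχ
        rcases hpowA χ hχ with h | h | h
        · exact Or.inl h
        · exact absurd h.2 hm'1
        · exact Or.inr h.1
    · have hGA : commutator G ≤ A := by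
        by_contra hcon
        obtain ⟨χ, hχ1, hχA⟩ := H16.exists_nonlinear_of_not_le A hcon
        rcases hpowA χ hχA with h | h | h
        · exact hχ1 h
        · exact hm'1 h.2
        · exact hn'1 h.2
      rw [hAdef] at hGA
      exact derived_three_of_comm_le H hGA (IH H hHtop m' n' hcdH)

end CommonPrime

section Main

/-- Isaacs 12.15: character degrees in `{1, m, n}` force derived length at most 3. -/
theorem three_deg_main : ∀ (N : ℕ) (G : Type u) [Group G] [Finite G], Nat.card G = N →
    ∀ m n : ℕ,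
    (∀ χ : IrrCharacter G, charDegree χ.1 = 1 ∨ charDegree χ.1 = m ∨ charDegree χ.1 = n) →
    derivedSeries G 3 = ⊥ := by
  intro N
  induction N using Nat.strong_induction_on with
  | _ N ih =>
    intro G _ _ hN m n hcd
    classical
    haveI : Fintype G := Fintype.ofFinite G
    letI := fintypeIrr G
    by_cases hm : ∃ χ : IrrCharacter G, charDegree χ.1 = m
    swap
    · exact derived_three_of_two n (fun χ => by
        rcases hcd χ with h | h | h
        exacts [Or.inl h, absurd ⟨χ, h⟩ hm, Or.inr h])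
    by_cases hn : ∃ χ : IrrCharacter G, charDegree χ.1 = n
    swap
    · exact derived_three_of_two m (fun χ => by
        rcases hcd χ with h | h | h
        exacts [Or.inl h, Or.inr h, absurd ⟨χ, h⟩ hn])
    by_cases hm1 : m = 1
    · exact derived_three_of_two n (fun χ => by
        rcases hcd χ with h | h | h
        exacts [Or.inl h, Or.inl (h.trans hm1), Or.inr h])
    by_cases hn1 : n = 1
    · exact derived_three_of_two m (fun χ => by
        rcases hcd χ with h | h | h
        exacts [Or.inl h, Or.inr h, Or.inl (h.trans hn1)])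
    by_cases hmn : m = n
    · exact derived_three_of_two m (fun χ => by
        rcases hcd χ with h | h | h
        exacts [Or.inl h, Or.inr h, Or.inr (h.trans hmn.symm)])
    have hm0 : 0 < m := by
      obtain ⟨χ, hχ⟩ := hm
      rw [← hχ]
      exact H82.charDegree_pos χ
    have hn0 : 0 < n := by
      obtain ⟨χ, hχ⟩ := hn
      rw [← hχ]
      exact H82.charDegree_pos χ
    have main : ∀ m n : ℕ,
        (∀ χ : IrrCharacter G, charDegree χ.1 = 1 ∨ charDegree χ.1 = m ∨ charDegree χ.1 = n) →
        (∃ χ : IrrCharacter G, charDegree χ.1 = m) → (∃ χ : IrrCharacter G, charDegree χ.1 = n) →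
        1 < m → m < n → derivedSeries G 3 = ⊥ := by
      intro m n hcd hm hn hm1 hmn
      by_cases hcop : Nat.Coprime m n
      · by_cases hK₀ : ∃ (K₀ : Subgroup G) (_ : K₀.Normal),
            Group.IsSolvable (G ⧸ K₀) ∧ ¬ commutator G ≤ K₀
        · obtain ⟨K₀, hK₀n, hK₀s, hK₀c⟩ := hK₀
          haveI := hK₀n
          haveI := hK₀s
          exact three_deg_of_solvable_quot hcd hm1 (by omega) hcop hm hn K₀ hK₀c
        · exfalso
          have hmin : ∀ L : Subgroup G, L.Normal → L ≠ ⊥ → commutator G ≤ L := by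
            intro L hL hLne
            haveI := hL
            by_contra hcL
            apply hK₀
            refine ⟨L, hL, ?_, hcL⟩
            have hcardlt : Nat.card (G ⧸ L) < N := by
              rw [← hN, ← Subgroup.index_eq_card]
              have h1 := Subgroup.card_mul_index L
              have h2 : 1 < Nat.card L := (Subgroup.one_lt_card_iff_ne_bot L).mpr hLne
              have h3 : 0 < L.index := Nat.pos_of_ne_zero Subgroup.index_ne_zero_of_finite
              nlinarith
            have hcdQ : ∀ χ' : IrrCharacter (G ⧸ L),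
                charDegree χ'.1 = 1 ∨ charDegree χ'.1 = m ∨ charDegree χ'.1 = n := by
              intro χ'
              have := hcd (H82.inflate L χ')
              rwa [H82.charDegree_inflate] at this
            have hD := ih (Nat.card (G ⧸ L)) hcardlt (G ⧸ L) rfl m n hcdQ
            exact (Group.isSolvable_def _).mpr ⟨3, hD⟩
          have hDne : commutator G ≠ ⊥ := by
            intro h0
            obtain ⟨χ, hχ⟩ := hm
            have h1 : commutator G ≤ H82.irrKer χ := by rw [h0]; exact bot_le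
            have := H16.linear_of_commutator_le_irrKer χ h1
            omega
          have hfaith : ∀ χ : IrrCharacter G, charDegree χ.1 ≠ 1 →
              ∀ g : G, χ.1 g = χ.1 1 → g = 1 := by
            intro χ hχ1 g hg
            by_contra hg1
            have hker : H82.irrKer χ ≠ ⊥ := fun h0 =>
              hg1 (Subgroup.mem_bot.mp (h0 ▸ (H82.mem_irrKer χ g).mpr hg))
            exact hχ1 (H16.linear_of_commutator_le_irrKer χ (hmin _ inferInstance hker))
          exact ring_false hcd hm1 hmn hcop hm hn hfaith hDne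
      · obtain ⟨p, hp, hpm, hpn⟩ := Nat.Prime.not_coprime_iff_dvd.mp hcop
        apply three_deg_common_prime p hp hcd hm1 hmn hpm hpn hm
        intro H hH m' n' hcdH
        have hlt : Nat.card H < N := by
          rw [← hN]
          exact lt_of_le_of_ne (Subgroup.card_le_card_group H)
            (fun h => hH (Subgroup.eq_top_of_card_eq H h))
        exact ih (Nat.card H) hlt H rfl m' n' hcdH
    rcases Nat.lt_or_gt_of_ne hmn with h | h
    · exact main m n hcd hm hn (by omega) h
    · exact main n m (fun χ => by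
        rcases hcd χ with h | h | h
        exacts [Or.inl h, Or.inr (Or.inr h), Or.inr (Or.inl h)]) hn hm (by omega) h

/-- Exactly three character degrees: derived length at most 3. -/
theorem three_deg_derived {G : Type u} [Group G] [Finite G]
    (hcd : Nat.card {n : ℕ // ∃ χ : IrrCharacter G, charDegree (χ : G → ℂ) = n} = 3) :
    derivedSeries G 3 = ⊥ := by
  have h3 : ({n : ℕ | ∃ χ : IrrCharacter G, charDegree (χ : G → ℂ) = n}).ncard = 3 := by
    rw [← Nat.card_coe_set_eq]
    exact hcd
  obtain ⟨x, y, z, -, -, -, hS⟩ := Set.ncard_eq_three.mp h3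
  have hmem : ∀ χ : IrrCharacter G, charDegree χ.1 = x ∨ charDegree χ.1 = y ∨
      charDegree χ.1 = z := by
    intro χ
    have : charDegree χ.1 ∈ ({x, y, z} : Set ℕ) := by
      rw [← hS]
      exact ⟨χ, rfl⟩
    simpa using this
  have h1 : (1 : ℕ) = x ∨ (1 : ℕ) = y ∨ (1 : ℕ) = z := by
    have ht : charDegree (trivChar G).1 = 1 :=
      charDegree_of_natCast (by show (1 : ℂ) = ((1 : ℕ) : ℂ); simp)
    have := hmem (trivChar G)
    rw [ht] at this
    exact this
  rcases h1 with h | h | h
  · exact three_deg_main (Nat.card G) G rfl y z (fun χ => by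
      rcases hmem χ with h' | h' | h'
      exacts [Or.inl (h'.trans h.symm), Or.inr (Or.inl h'), Or.inr (Or.inr h')])
  · exact three_deg_main (Nat.card G) G rfl x z (fun χ => by
      rcases hmem χ with h' | h' | h'
      exacts [Or.inr (Or.inl h'), Or.inl (h'.trans h.symm), Or.inr (Or.inr h')])
  · exact three_deg_main (Nat.card G) G rfl x y (fun χ => by
      rcases hmem χ with h' | h' | h'
      exacts [Or.inr (Or.inl h'), Or.inr (Or.inr h'), Or.inl (h'.trans h.symm)])

end Main

end Cfsg.Agent.H83
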