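import Mathlib
import Cfsg.Agent.H7.Unitary

/-!
# S6001 (helper83): small field facts for the unitary pieces
-/

set_option autoImplicit false

namespace Cfsg.Agent.H83.UP

universe u

/-- A field with `p^2` elements (`p` prime) has characteristic `p`. -/
theorem charP_of_card {F : Type u} [Field F] [Fintype F] {p : ℕ} (hp : p.Prime)
    (hF : Fintype.card F = p ^ 2) : CharP F p := by
  obtain ⟨p', k, hp', hc, hk⟩ := Cfsg.Agent.H7.exists_char_pow hF
  have hk0 : k ≠ 0 := by
    rintro rfl
    rw [pow_zero] at hk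
    exact hp.one_lt.ne' hk
  have hdvd : p' ∣ p := by rw [hk]; exact dvd_pow_self p' hk0
  have h : p' = p := (Nat.prime_dvd_prime_iff_eq hp' hp).mp hdvd
  subst h
  exact hc

/-- Natural numbers not divisible by `p` are nonzero in the field. -/
theorem natCast_ne_zero_of_card {F : Type u} [Field F] [Fintype F] {p : ℕ} (hp : p.Prime)
    (hF : Fintype.card F = p ^ 2) (n : ℕ) (hn : ¬ p ∣ n) : ((n : ℕ) : F) ≠ 0 := by
  have := charP_of_card hp hF
  exact fun h => hn ((CharP.cast_eq_zero_iff F p n).mp h)

end Cfsg.Agent.H83.UP
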