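import Mathlib

/-!
# S6001 (helper83): determinant and trace of an involution of `F^4`
-/

set_option autoImplicit false

namespace Cfsg.Agent.H83.UP

open Matrix

universe u

/-- An involution of `F^4` (`2 ≠ 0`): determinant and trace in terms of the dimension `m` of the
`-1`-eigenspace. -/
theorem invol_det_trace {F : Type u} [Field F] (h2 : (2 : F) ≠ 0) (s : Matrix (Fin 4) (Fin 4) F)
    (hs : s * s = 1) : ∃ m : ℕ, m ≤ 4 ∧ s.det = (-1) ^ m ∧ s.trace + 2 * (m : F) = 4 := by
  classical
  set f : (Fin 4 → F) →ₗ[F] (Fin 4 → F) := Matrix.toLin' s with hf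
  have hff : ∀ v, f (f v) = v := by
    intro v
    rw [hf, Matrix.toLin'_apply, Matrix.toLin'_apply, Matrix.mulVec_mulVec, hs, Matrix.one_mulVec]
  set Vp : Submodule F (Fin 4 → F) := LinearMap.ker (f - LinearMap.id) with hVp
  set Vm : Submodule F (Fin 4 → F) := LinearMap.ker (f + LinearMap.id) with hVm
  have hp : ∀ v, v ∈ Vp ↔ f v = v := by
    intro v
    rw [hVp, LinearMap.mem_ker, LinearMap.sub_apply, sub_eq_zero, LinearMap.id_apply]
  have hm : ∀ v, v ∈ Vm ↔ f v = -v := by
    intro v
    rw [hVm, LinearMap.mem_ker, LinearMap.add_apply, add_eq_zero_iff_eq_neg, LinearMap.id_apply]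
  have hc : IsCompl Vp Vm := by
    constructor
    · rw [Submodule.disjoint_def]
      intro v h1 h2'
      rw [hp] at h1
      rw [hm] at h2'
      have h3 : (2 : F) • v = 0 := by
        have h4 : v = -v := by rw [← h2']; exact h1.symm
        rw [two_smul]
        nth_rewrite 1 [h4]
        exact neg_add_cancel v
      exact (smul_eq_zero.mp h3).resolve_left h2
    · rw [codisjoint_iff, eq_top_iff]
      intro v _
      have h3 : v = (2 : F)⁻¹ • (v + f v) + (2 : F)⁻¹ • (v - f v) := by
        rw [← smul_add]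
        have h4 : v + f v + (v - f v) = (2 : F) • v := by rw [two_smul]; abel
        rw [h4, smul_smul, inv_mul_cancel₀ h2, one_smul]
      rw [h3]
      apply Submodule.add_mem_sup
      · apply Submodule.smul_mem
        rw [hp, map_add, hff, add_comm]
      · apply Submodule.smul_mem
        rw [hm, map_sub, hff]
        abel
  set e : (Vp × Vm) ≃ₗ[F] (Fin 4 → F) := Vp.prodEquivOfIsCompl Vm hc with he
  set g : (Vp × Vm) →ₗ[F] (Vp × Vm) :=
    LinearMap.prodMap (LinearMap.id : Vp →ₗ[F] Vp) (-(LinearMap.id : Vm →ₗ[F] Vm)) with hg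
  have hconj : f = (e : (Vp × Vm) →ₗ[F] (Fin 4 → F)) ∘ₗ g ∘ₗ (e.symm : (Fin 4 → F) →ₗ[F] (Vp × Vm)) := by
    apply LinearMap.ext
    intro v
    obtain ⟨⟨a, b⟩, rfl⟩ := e.surjective v
    rw [LinearMap.comp_apply, LinearMap.comp_apply, LinearEquiv.coe_coe, LinearEquiv.coe_coe,
      LinearEquiv.symm_apply_apply, he, Submodule.coe_prodEquivOfIsCompl',
      Submodule.coe_prodEquivOfIsCompl', hg, LinearMap.prodMap_apply, map_add]
    have ha : f (a : Fin 4 → F) = a := (hp _).mp a.2
    have hb : f (b : Fin 4 → F) = -b := (hm _).mp b.2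
    rw [ha, hb]
    simp
  have hfr : Module.finrank F Vp + Module.finrank F Vm = 4 := by
    rw [Submodule.finrank_add_eq_of_isCompl hc, Module.finrank_fin_fun]
  refine ⟨Module.finrank F Vm, by omega, ?_, ?_⟩
  · rw [← LinearMap.det_toLin', ← hf, hconj, LinearMap.det_conj, hg, LinearMap.det_prodMap,
      LinearMap.det_id, one_mul]
    have h5 : (-(LinearMap.id : Vm →ₗ[F] Vm)) = (-1 : F) • (LinearMap.id : Vm →ₗ[F] Vm) := by
      apply LinearMap.ext
      intro v
      simp
    rw [h5, LinearMap.det_smul, LinearMap.det_id, mul_one]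
  · rw [← Matrix.trace_toLin'_eq, ← hf, hconj, ← LinearMap.comp_assoc, LinearMap.trace_comp_comm',
      ← LinearMap.comp_assoc]
    have h6 : (e.symm : (Fin 4 → F) →ₗ[F] (Vp × Vm)) ∘ₗ (e : (Vp × Vm) →ₗ[F] (Fin 4 → F)) =
        LinearMap.id := by
      apply LinearMap.ext
      intro v
      simp
    have h8 : LinearMap.trace F Vm (-(LinearMap.id : Vm →ₗ[F] Vm)) =
        -LinearMap.trace F Vm (LinearMap.id : Vm →ₗ[F] Vm) := by
      have h5 : (-(LinearMap.id : Vm →ₗ[F] Vm)) = (-1 : F) • (LinearMap.id : Vm →ₗ[F] Vm) := by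
        apply LinearMap.ext
        intro v
        simp
      rw [h5, map_smul, smul_eq_mul, neg_one_mul]
    rw [h6, LinearMap.id_comp, hg, LinearMap.trace_prodMap', h8, LinearMap.trace_id,
      LinearMap.trace_id]
    have h7 : (Module.finrank F Vp : F) + (Module.finrank F Vm : F) = 4 := by
      exact_mod_cast congrArg (fun n : ℕ => (n : F)) hfr
    linear_combination h7

end Cfsg.Agent.H83.UP
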