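import Mathlib
import Cfsg.Agent.H83.UPDefs
import Cfsg.Agent.H7.Unitary
import Cfsg.Agent.H61.GU2Sylow
import Cfsg.Agent.H99.HeisNorm

/-!
# S6001 team project (helper83): the assembly from the pieces
-/

set_option autoImplicit false
open scoped MatrixGroups

namespace Cfsg.Agent.H83.UP

open Matrix

universe u

section Glue

variable {F : Type u} [Field F]

theorem isU_of_mem_GU [Fintype F] {p : ℕ} (hp : p ≠ 0) (g : GL (Fin 4) F)
    (hg : g ∈ Cfsg.GU 4 F p) : IsU p (g : Matrix (Fin 4) (Fin 4) F) :=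
  Cfsg.Agent.H7.GUI_transpose_mul_map hp g hg

theorem mem_GU_of_isU [Fintype F] (p : ℕ) [Fact p.Prime] [CharP F p] (g : GL (Fin 4) F)
    (h : IsU p (g : Matrix (Fin 4) (Fin 4) F)) : g ∈ Cfsg.GU 4 F p := by
  apply Cfsg.Agent.H61.mem_GU_of_gram (frobenius F p) (fun a => frobenius_def p a) g
  have h1 : (g : Matrix (Fin 4) (Fin 4) F).map (frobenius F p) =
      (g : Matrix (Fin 4) (Fin 4) F).map (fun a => a ^ p) := by
    ext i j
    simp [frobenius_def]
  rw [h1]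
  exact h

theorem conj_pow_mat (h x : Matrix (Fin 4) (Fin 4) F) (hh : IsUnit h.det) (n : ℕ) :
    (h⁻¹ * x * h) ^ n = h⁻¹ * x ^ n * h := by
  induction n with
  | zero => simp [Matrix.nonsing_inv_mul h hh]
  | succ n ih =>
    rw [pow_succ, ih, pow_succ]
    calc h⁻¹ * x ^ n * h * (h⁻¹ * x * h) = h⁻¹ * x ^ n * (h * h⁻¹) * x * h := by
          simp only [Matrix.mul_assoc]
      _ = h⁻¹ * (x ^ n * x) * h := by
          rw [Matrix.mul_nonsing_inv h hh, Matrix.mul_one]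
          simp only [Matrix.mul_assoc]

theorem conj_trace (h x : Matrix (Fin 4) (Fin 4) F) (hh : IsUnit h.det) :
    Matrix.trace (h⁻¹ * x * h) = Matrix.trace x := by
  rw [Matrix.trace_mul_comm, ← Matrix.mul_assoc, Matrix.mul_nonsing_inv h hh, Matrix.one_mul]

theorem conj_inv_mat (h x : Matrix (Fin 4) (Fin 4) F) (hh : IsUnit h.det) :
    (h⁻¹ * x * h)⁻¹ = h⁻¹ * x⁻¹ * h := by
  rw [Matrix.mul_inv_rev, Matrix.mul_inv_rev, Matrix.nonsing_inv_nonsing_inv h hh,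
    Matrix.mul_assoc]

theorem conj_back (h x : Matrix (Fin 4) (Fin 4) F) (hh : IsUnit h.det) :
    x = h * (h⁻¹ * x * h) * h⁻¹ := by
  have h1 : h * (h⁻¹ * x * h) * h⁻¹ = (h * h⁻¹) * x * (h * h⁻¹) := by
    simp only [Matrix.mul_assoc]
  rw [h1, Matrix.mul_nonsing_inv h hh, Matrix.one_mul, Matrix.mul_one]

theorem conj_scalar (h x : Matrix (Fin 4) (Fin 4) F) (hh : IsUnit h.det) (c : F)
    (hc : h⁻¹ * x * h = c • (1 : Matrix (Fin 4) (Fin 4) F)) :
    x = c • (1 : Matrix (Fin 4) (Fin 4) F) := by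
  rw [conj_back h x hh, hc, Matrix.mul_smul, Matrix.mul_one, Matrix.smul_mul,
    Matrix.mul_nonsing_inv h hh]

theorem trace_of_conj (M E D : Matrix (Fin 4) (Fin 4) F) (hE : IsUnit E.det)
    (h : M * E = E * D) : Matrix.trace M = Matrix.trace D := by
  have h1 : M = E * D * E⁻¹ := by
    rw [← h, Matrix.mul_assoc, Matrix.mul_nonsing_inv E hE, Matrix.mul_one]
  rw [h1, Matrix.trace_mul_comm, ← Matrix.mul_assoc, Matrix.nonsing_inv_mul E hE, Matrix.one_mul]

theorem det_gram (p : ℕ) [Fact p.Prime] [CharP F p] (E : Matrix (Fin 4) (Fin 4) F) :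
    (Eᵀ * E.map (fun a => a ^ p)).det = E.det ^ (p + 1) := by
  have h1 : E.map (fun a => a ^ p) = (frobenius F p).mapMatrix E := by
    ext i j
    simp [frobenius_def]
  rw [Matrix.det_mul, Matrix.det_transpose, h1, ← RingHom.map_det, frobenius_def, pow_succ']

theorem det_ratio (p : ℕ) [Fact p.Prime] [CharP F p] (J E₁ E₂ : Matrix (Fin 4) (Fin 4) F)
    (h1 : IsUnit E₁.det) (hJ1 : E₁ᵀ * E₁.map (fun a => a ^ p) = J)
    (hJ2 : E₂ᵀ * E₂.map (fun a => a ^ p) = J) : (E₂.det / E₁.det) ^ (p + 1) = 1 := by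
  have e1 := det_gram p E₁
  have e2 := det_gram p E₂
  rw [hJ1] at e1
  rw [hJ2] at e2
  have h10 : E₁.det ≠ 0 := h1.ne_zero
  rw [div_pow, ← e1, ← e2]
  exact div_self (by rw [e1]; exact pow_ne_zero _ h10)

theorem isU_smul (p : ℕ) (z : F) (M : Matrix (Fin 4) (Fin 4) F) (hz : z ^ (p + 1) = 1)
    (hM : IsU p M) : IsU p (z • M) := by
  unfold IsU at hM ⊢
  have h1 : (z • M).map (fun a => a ^ p) = z ^ p • M.map (fun a => a ^ p) := by
    ext i j
    simp [mul_pow]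
  rw [h1, Matrix.transpose_smul, Matrix.smul_mul, Matrix.mul_smul, smul_smul, hM]
  have h2 : z * z ^ p = 1 := by rw [← pow_succ']; exact hz
  rw [h2, one_smul]

theorem smul_finish (ι : F) (hSm : ∀ (y : Matrix (Fin 4) (Fin 4) F) (c : F), c ≠ 0 → Nrm ι y →
    Nrm ι (c • y)) (X' x2 y₀ g : Matrix (Fin 4) (Fin 4) F) (c : F) (hc : c ≠ 0)
    (hx2 : x2 = c • X') (hy : Nrm ι y₀) (hg : x2 * g = g * y₀) :
    X' * g = g * (c⁻¹ • y₀) ∧ Nrm ι (c⁻¹ • y₀) := by
  refine ⟨?_, hSm y₀ c⁻¹ (inv_ne_zero hc) hy⟩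
  have h1 : X' * g = c⁻¹ • (x2 * g) := by
    rw [hx2, Matrix.smul_mul, smul_smul, inv_mul_cancel₀ hc, one_smul]
  rw [h1, hg, Matrix.mul_smul]

end Glue

theorem main_of_pieces
    (hFix : StFix.{u}) (hTV3 : StTV3.{u}) (hNDiag : StNDiag.{u}) (hN3 : StN3.{u})
    (hN5 : StN5.{u}) (hW3 : StW3.{u}) (hW5 : StW5.{u}) (hWTV : StWTV.{u})
    (hStruct : StStruct.{u}) (hCent : StCent.{u}) (hGens : StGens.{u}) (hBasis : StBasis.{u})
    (hStdCount : StStdCount.{u}) (hStdU : StStdU.{u}) (hNGlue : StNGlue.{u})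
    (hRoots : StRoots.{u}) (hInvA : StUInvA.{u}) (hInvB : StUInvB.{u}) (hHyp3 : StUHyp3.{u})
    (hHyp5 : StUHyp5.{u}) (hTDet : StTDet.{u}) (hUGlue : StUGlue.{u})
    {F : Type u} [Field F] [Fintype F] {p : ℕ} [Fact p.Prime] [CharP F p]
    (hF : Fintype.card F = p ^ 2) (hp4 : p % 4 = 3)
    (R : Subgroup (GL (Fin 4) F)) (hRs : Cfsg.Geo.IsSymplecticTypeGroup 2 R)
    (hRi : Cfsg.Geo.ActsAbsolutelyIrreducibly (Cfsg.Geo.matrixSet R))
    (hRU : R ≤ Cfsg.GU 4 F p) (hR6 : Nat.card R = 2 ^ 6) (hRZ : Nat.card (Subgroup.center R) = 4)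
    (r : ℕ) [Fact r.Prime]
    (hΩ : r ∣ (Cfsg.Geo.subgroupNormalizer R).relIndex (Cfsg.GU 4 F p ⊓ Cfsg.Geo.specialLinear (Fin 4) F)) :
    (∀ x ∈ Cfsg.GU 4 F p ⊓ Cfsg.Geo.specialLinear (Fin 4) F, (∃ z : F, ((x ^ r : GL (Fin 4) F) : Matrix (Fin 4) (Fin 4) F) = z • (1 : Matrix (Fin 4) (Fin 4) F)) →
      (∀ z : F, (x : Matrix (Fin 4) (Fin 4) F) ≠ z • (1 : Matrix (Fin 4) (Fin 4) F)) →
      ∃ g ∈ Cfsg.GU 4 F p ⊓ Cfsg.Geo.specialLinear (Fin 4) F, g⁻¹ * x * g ∈ Cfsg.Geo.subgroupNormalizer R) ↔ (r = 2 ∨ (r = 3 ∧ p % 3 = 1) ∨ (r = 5 ∧ orderOf (p : ZMod 5) = 4)) := by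
  classical
  have hpP : p.Prime := Fact.out
  have hrP : r.Prime := Fact.out
  have hp3 : 3 ≤ p := by
    have := hpP.two_le
    omega
  have hp0 : p ≠ 0 := by omega
  have hcast : ∀ n : ℕ, ¬ p ∣ n → ((n : ℕ) : F) ≠ 0 :=
    fun n hn h => hn ((CharP.cast_eq_zero_iff F p n).mp h)
  have h2F : (2 : F) ≠ 0 := by
    have h := hcast 2 (fun h => by have := Nat.le_of_dvd (by norm_num) h; omega)
    exact_mod_cast h
  have hexp : Monoid.exponent R = 4 := by
    have h := hRs.exponent_eq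
    rw [h]
    decide
  have hR64 : Nat.card R = 64 := by rw [hR6]; norm_num
  have hS := hStruct (↥R) hR64 hRZ hexp hRs.cyclic_of_characteristic
  obtain ⟨ι, hι, hcen, hιR⟩ := hCent F R hRi hRZ
  obtain ⟨a1, b1, a2, b2, ha1, hb1, ha2, hb2, ha1s, hb1s, ha2s, hb2s, hab1, hab2, h12, h1b2,
    hb1a2, hbb⟩ := hGens F R ι hι hR64 hexp hcen hιR hS
  have m1 : ∀ g : GL (Fin 4) F, g * g = 1 →
      (g : Matrix (Fin 4) (Fin 4) F) * (g : Matrix (Fin 4) (Fin 4) F) = 1 := by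
    intro g hg
    rw [← Units.val_mul, hg, Units.val_one]
  have m2 : ∀ g h : GL (Fin 4) F, g * h = h * g →
      (g : Matrix (Fin 4) (Fin 4) F) * (h : Matrix (Fin 4) (Fin 4) F) =
        (h : Matrix (Fin 4) (Fin 4) F) * (g : Matrix (Fin 4) (Fin 4) F) := by
    intro g h hgh
    rw [← Units.val_mul, hgh, Units.val_mul]
  obtain ⟨P₀, hP₀u, hPa1, hPb1, hPa2, hPb2⟩ := hBasis F (a1 : Matrix (Fin 4) (Fin 4) F)
    (b1 : Matrix (Fin 4) (Fin 4) F) (a2 : Matrix (Fin 4) (Fin 4) F)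
    (b2 : Matrix (Fin 4) (Fin 4) F) h2F (m1 a1 ha1s) (m1 b1 hb1s) (m1 a2 ha2s) (m1 b2 hb2s)
    hab1 hab2 (m2 _ _ h12) (m2 _ _ h1b2) (m2 _ _ hb1a2) (m2 _ _ hbb)
  obtain ⟨Pg, hPg⟩ : ∃ Pg : GL (Fin 4) F, (Pg : Matrix (Fin 4) (Fin 4) F) = P₀ :=
    ⟨Matrix.nonsingInvUnit P₀ hP₀u, rfl⟩
  have hstd₀ := hStdCount F R ι a1 b1 a2 b2 Pg h2F hι hR64 hιR ha1 hb1 ha2 hb2
    (by rw [hPg]; exact hPa1) (by rw [hPg]; exact hPb1) (by rw [hPg]; exact hPa2)
    (by rw [hPg]; exact hPb2)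
  obtain ⟨P, hPU, hstd⟩ := hStdU F p R ι Pg hpP hF hp4 hι hRU hstd₀
  have hN := hNGlue F R ι P h2F hι hstd
  obtain ⟨hND, hSm⟩ := hNDiag F ι h2F hι
  -- the ambient group
  have hSmem : ∀ g : GL (Fin 4) F,
      g ∈ Cfsg.GU 4 F p ⊓ Cfsg.Geo.specialLinear (Fin 4) F ↔
        IsU p (g : Matrix (Fin 4) (Fin 4) F) ∧ (g : Matrix (Fin 4) (Fin 4) F).det = 1 := by
    intro g
    rw [Subgroup.mem_inf, Cfsg.Agent.H99.mem_sl_iff]
    constructor
    · rintro ⟨h1, h2⟩
      exact ⟨isU_of_mem_GU hp0 g h1, h2⟩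
    · rintro ⟨h1, h2⟩
      exact ⟨mem_GU_of_isU p g h1, h2⟩
  have hconjS : ∀ g : GL (Fin 4) F, g ∈ Cfsg.GU 4 F p ⊓ Cfsg.Geo.specialLinear (Fin 4) F →
      P⁻¹ * g * P ∈ Cfsg.GU 4 F p ⊓ Cfsg.Geo.specialLinear (Fin 4) F ∧
        P * g * P⁻¹ ∈ Cfsg.GU 4 F p ⊓ Cfsg.Geo.specialLinear (Fin 4) F := by
    intro g hg
    have hPinv : P⁻¹ ∈ Cfsg.GU 4 F p := Subgroup.inv_mem _ hPU
    have hsl : (Cfsg.Geo.specialLinear (Fin 4) F).Normal := by
      unfold Cfsg.Geo.specialLinear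
      infer_instance
    refine ⟨⟨Subgroup.mul_mem _ (Subgroup.mul_mem _ hPinv hg.1) hPU, ?_⟩,
      ⟨Subgroup.mul_mem _ (Subgroup.mul_mem _ hPU hg.1) hPinv, ?_⟩⟩
    · have h := hsl.conj_mem g hg.2 P⁻¹
      rwa [inv_inv] at h
    · exact hsl.conj_mem g hg.2 P
  -- facts on ι
  have hι4 : ι ^ 4 = 1 := by
    have h : ι ^ 4 = (ι ^ 2) ^ 2 := by ring
    rw [h, hι]
    ring
  have hιp : ι ^ p = -ι := by
    have hpk : p = 4 * (p / 4) + 3 := by omega
    rw [hpk, pow_add, pow_mul, hι4, one_pow, one_mul]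
    have h : ι ^ 3 = ι ^ 2 * ι := by ring
    rw [h, hι]
    ring
  have hunit4 : ∀ z : F, z ^ 4 = 1 → z ^ (p + 1) = 1 := by
    intro z hz
    have hpk : p + 1 = 4 * ((p + 1) / 4) := by omega
    rw [hpk, pow_mul, hz, one_pow]
  -- the negative tool
  have keyNeg : (∀ x ∈ Cfsg.GU 4 F p ⊓ Cfsg.Geo.specialLinear (Fin 4) F, (∃ z : F, ((x ^ r : GL (Fin 4) F) : Matrix (Fin 4) (Fin 4) F) = z • (1 : Matrix (Fin 4) (Fin 4) F)) →
      (∀ z : F, (x : Matrix (Fin 4) (Fin 4) F) ≠ z • (1 : Matrix (Fin 4) (Fin 4) F)) →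
      ∃ g ∈ Cfsg.GU 4 F p ⊓ Cfsg.Geo.specialLinear (Fin 4) F, g⁻¹ * x * g ∈ Cfsg.Geo.subgroupNormalizer R) →
      ∀ X₀ : Matrix (Fin 4) (Fin 4) F, X₀.det = 1 → IsU p X₀ → X₀ ^ r = 1 →
        (∀ c : F, X₀ ≠ c • (1 : Matrix (Fin 4) (Fin 4) F)) →
        ∃ h : Matrix (Fin 4) (Fin 4) F, IsUnit h.det ∧ Nrm ι (h⁻¹ * X₀ * h) := by
    intro hall X₀ hdet hU hpow hns
    obtain ⟨Xg, hXg⟩ : ∃ Xg : GL (Fin 4) F, (Xg : Matrix (Fin 4) (Fin 4) F) = X₀ :=
      ⟨Matrix.nonsingInvUnit X₀ (by rw [hdet]; exact isUnit_one), rfl⟩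
    have hXS : Xg ∈ Cfsg.GU 4 F p ⊓ Cfsg.Geo.specialLinear (Fin 4) F :=
      (hSmem Xg).mpr ⟨by rw [hXg]; exact hU, by rw [hXg]; exact hdet⟩
    have hxS := (hconjS Xg hXS).2
    have hXr : Xg ^ r = 1 := by
      apply Units.ext
      rw [Units.val_pow_eq_pow_val, hXg, hpow, Units.val_one]
    have hxr : (P * Xg * P⁻¹) ^ r = 1 := by
      rw [conj_pow, hXr, mul_one, mul_inv_cancel]
    have hxns : ∀ z : F, ((P * Xg * P⁻¹ : GL (Fin 4) F) : Matrix (Fin 4) (Fin 4) F) ≠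
        z • (1 : Matrix (Fin 4) (Fin 4) F) := by
      intro z hz
      apply hns z
      have h1 : Xg = P⁻¹ * (P * Xg * P⁻¹) * P := by group
      rw [← hXg, h1, Units.val_mul, Units.val_mul, hz, Matrix.mul_smul, Matrix.mul_one,
        Matrix.smul_mul, ← Units.val_mul, inv_mul_cancel, Units.val_one]
    obtain ⟨g, hgS, hgN⟩ := hall (P * Xg * P⁻¹) hxS
      ⟨1, by rw [hxr, one_smul, Units.val_one]⟩ hxns
    have h1 := (hN (g⁻¹ * (P * Xg * P⁻¹) * g)).mp hgN
    have h2 : P⁻¹ * (g⁻¹ * (P * Xg * P⁻¹) * g) * P = (P⁻¹ * g * P)⁻¹ * Xg * (P⁻¹ * g * P) := by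
      group
    rw [h2] at h1
    refine ⟨((P⁻¹ * g * P : GL (Fin 4) F) : Matrix (Fin 4) (Fin 4) F),
      Matrix.isUnits_det_units _, ?_⟩
    have h3 : (((P⁻¹ * g * P)⁻¹ * Xg * (P⁻¹ * g * P) : GL (Fin 4) F) :
        Matrix (Fin 4) (Fin 4) F) =
        ((P⁻¹ * g * P : GL (Fin 4) F) : Matrix (Fin 4) (Fin 4) F)⁻¹ * X₀ *
          ((P⁻¹ * g * P : GL (Fin 4) F) : Matrix (Fin 4) (Fin 4) F) := by
      rw [Units.val_mul, Units.val_mul, Matrix.coe_units_inv, hXg]
    rw [h3] at h1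
    exact h1
  -- the positive tool
  have keyPos : ∀ x : GL (Fin 4) F, (∃ g y : Matrix (Fin 4) (Fin 4) F, g.det = 1 ∧ IsU p g ∧
      ((P⁻¹ * x * P : GL (Fin 4) F) : Matrix (Fin 4) (Fin 4) F) * g = g * y ∧ Nrm ι y) →
      ∃ g ∈ Cfsg.GU 4 F p ⊓ Cfsg.Geo.specialLinear (Fin 4) F,
        g⁻¹ * x * g ∈ Cfsg.Geo.subgroupNormalizer R := by
    rintro x ⟨g, y, hgd, hgU, hxg, hy⟩
    have hgu : IsUnit g.det := by rw [hgd]; exact isUnit_one
    obtain ⟨G, hG⟩ : ∃ G : GL (Fin 4) F, (G : Matrix (Fin 4) (Fin 4) F) = g :=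
      ⟨Matrix.nonsingInvUnit g hgu, rfl⟩
    have hGS : G ∈ Cfsg.GU 4 F p ⊓ Cfsg.Geo.specialLinear (Fin 4) F :=
      (hSmem G).mpr ⟨by rw [hG]; exact hgU, by rw [hG]; exact hgd⟩
    refine ⟨P * G * P⁻¹, (hconjS G hGS).2, ?_⟩
    rw [hN]
    have h2 : P⁻¹ * ((P * G * P⁻¹)⁻¹ * x * (P * G * P⁻¹)) * P = G⁻¹ * (P⁻¹ * x * P) * G := by
      group
    rw [h2]
    have h3 : ((G⁻¹ * (P⁻¹ * x * P) * G : GL (Fin 4) F) : Matrix (Fin 4) (Fin 4) F) = y := by
      rw [Units.val_mul, Units.val_mul, Matrix.coe_units_inv, hG, Matrix.mul_assoc, hxg,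
        ← Matrix.mul_assoc, Matrix.nonsing_inv_mul g hgu, Matrix.one_mul]
    rw [h3]
    exact hy
  -- data of an element x of S with x^k scalar, transported by P
  have transport : ∀ (x : GL (Fin 4) F) (k : ℕ) (z : F),
      x ∈ Cfsg.GU 4 F p ⊓ Cfsg.Geo.specialLinear (Fin 4) F →
      ((x ^ k : GL (Fin 4) F) : Matrix (Fin 4) (Fin 4) F) = z • (1 : Matrix (Fin 4) (Fin 4) F) →
      (∀ z : F, (x : Matrix (Fin 4) (Fin 4) F) ≠ z • (1 : Matrix (Fin 4) (Fin 4) F)) →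
      IsU p ((P⁻¹ * x * P : GL (Fin 4) F) : Matrix (Fin 4) (Fin 4) F) ∧
      ((P⁻¹ * x * P : GL (Fin 4) F) : Matrix (Fin 4) (Fin 4) F).det = 1 ∧
      ((P⁻¹ * x * P : GL (Fin 4) F) : Matrix (Fin 4) (Fin 4) F) ^ k =
        z • (1 : Matrix (Fin 4) (Fin 4) F) ∧
      (∀ c : F, ((P⁻¹ * x * P : GL (Fin 4) F) : Matrix (Fin 4) (Fin 4) F) ≠
        c • (1 : Matrix (Fin 4) (Fin 4) F)) ∧ (4 ≤ k + 4 → z ^ 4 = 1 ∨ k = 0) := by
    intro x k z hx hz hns
    have h1 := (hSmem (P⁻¹ * x * P)).mp (hconjS x hx).1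
    have hpow : ((P⁻¹ * x * P : GL (Fin 4) F) : Matrix (Fin 4) (Fin 4) F) ^ k =
        z • (1 : Matrix (Fin 4) (Fin 4) F) := by
      have h2 : (P⁻¹ * x * P) ^ k = P⁻¹ * x ^ k * P := by
        have h3 : P⁻¹ * x * P = P⁻¹ * x * P⁻¹⁻¹ := by rw [inv_inv]
        rw [h3, conj_pow, inv_inv]
      rw [← Units.val_pow_eq_pow_val, h2, Units.val_mul, Units.val_mul, hz, Matrix.mul_smul,
        Matrix.mul_one, Matrix.smul_mul, ← Units.val_mul, inv_mul_cancel, Units.val_one]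
    refine ⟨h1.1, h1.2, hpow, ?_, ?_⟩
    · intro c hc
      apply hns c
      have h4 : x = P * (P⁻¹ * x * P) * P⁻¹ := by group
      rw [h4, Units.val_mul, Units.val_mul, hc, Matrix.mul_smul, Matrix.mul_one,
        Matrix.smul_mul, ← Units.val_mul, mul_inv_cancel, Units.val_one]
    · intro _
      by_cases hk : k = 0
      · exact Or.inr hk
      · left
        have h5 := congrArg Matrix.det hpow
        rw [Matrix.det_pow, h1.2, one_pow, Matrix.det_smul, Matrix.det_one, Fintype.card_fin,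
          mul_one] at h5
        exact h5.symm
  constructor
  · intro hall
    by_contra hcon
    push Not at hcon
    obtain ⟨hr2, hr3, hr5⟩ := hcon
    have key := keyNeg hall
    by_cases h3 : r = 3
    · subst h3
      have hp31 : p % 3 ≠ 1 := hr3 rfl
      by_cases hp3e : p = 3
      · subst hp3e
        obtain ⟨x₀, hdet, hU, hsq, hrk, hne⟩ := hWTV F 3 hpP hF hp4
        have hx3 : x₀ ^ 3 = 1 := by
          have hN : x₀ = 1 + (x₀ - 1) := by abel
          have hcomm : Commute (1 : Matrix (Fin 4) (Fin 4) F) (x₀ - 1) := Commute.one_left _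
          have h4 := add_pow_char_of_commute 3 hcomm
          rw [← hN] at h4
          rw [h4, one_pow]
          have h5 : (x₀ - 1) ^ 3 = (x₀ - 1) * (x₀ - 1) * (x₀ - 1) := by
            rw [pow_succ, pow_two]
          rw [h5, hsq, Matrix.zero_mul, add_zero]
        have hns : ∀ c : F, x₀ ≠ c • (1 : Matrix (Fin 4) (Fin 4) F) := by
          intro c hc
          apply hne
          have h4 : (x₀ - 1) * (x₀ - 1) = ((c - 1) * (c - 1)) • (1 : Matrix (Fin 4) (Fin 4) F) := by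
            rw [hc]
            have h5 : c • (1 : Matrix (Fin 4) (Fin 4) F) - 1 = (c - 1) • (1 : Matrix (Fin 4) (Fin 4) F) := by
              rw [sub_smul, one_smul]
            rw [h5, Matrix.smul_mul, Matrix.mul_smul, Matrix.one_mul, smul_smul]
          rw [hsq] at h4
          have h6 : (c - 1) * (c - 1) = 0 := by
            have h7 := congrFun (congrFun h4 0) 0
            simpa using h7.symm
          have hc1 : c = 1 := by
            have h8 : c - 1 = 0 := by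
              rcases mul_eq_zero.mp h6 with h | h <;> exact h
            linear_combination h8
          rw [hc, hc1, one_smul]
        obtain ⟨h, hhu, hNrm⟩ := key x₀ hdet hU hx3 hns
        have hy1 : h⁻¹ * x₀ * h - 1 = h⁻¹ * (x₀ - 1) * h := by
          rw [Matrix.mul_sub, Matrix.sub_mul, Matrix.mul_one, Matrix.nonsing_inv_mul h hhu]
        have hysq : (h⁻¹ * x₀ * h - 1) * (h⁻¹ * x₀ * h - 1) = 0 := by
          rw [hy1]
          calc h⁻¹ * (x₀ - 1) * h * (h⁻¹ * (x₀ - 1) * h)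
              = h⁻¹ * (x₀ - 1) * (h * h⁻¹) * (x₀ - 1) * h := by simp only [Matrix.mul_assoc]
            _ = h⁻¹ * ((x₀ - 1) * (x₀ - 1)) * h := by
                rw [Matrix.mul_nonsing_inv h hhu, Matrix.mul_one]
                simp only [Matrix.mul_assoc]
            _ = 0 := by rw [hsq, Matrix.mul_zero, Matrix.zero_mul]
        have hyrk : (h⁻¹ * x₀ * h - 1).rank ≤ 1 := by
          rw [hy1]
          exact le_trans (Matrix.rank_mul_le_left _ _) (le_trans (Matrix.rank_mul_le_right _ _) hrk)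
        have hy := hTV3 F ι (h⁻¹ * x₀ * h) hι hNrm hysq hyrk
        apply hne
        rw [conj_back h x₀ hhu, hy, Matrix.mul_one, Matrix.mul_nonsing_inv h hhu]
      · have hp32 : p % 3 = 2 := by
          have h0 : p % 3 ≠ 0 := by
            intro h0
            have h3d : 3 ∣ p := Nat.dvd_of_mod_eq_zero h0
            exact hp3e ((Nat.prime_dvd_prime_iff_eq (by norm_num) hpP).mp h3d).symm
          omega
        obtain ⟨x₀, hdet, hU, hx3, hns, ht1, ht4⟩ := hW3 F p hpP hF hp4 hp32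
        obtain ⟨h, hhu, hNrm⟩ := key x₀ hdet hU hx3 hns
        have hyr : (h⁻¹ * x₀ * h) ^ 3 = 1 := by
          rw [conj_pow_mat h x₀ hhu, hx3, Matrix.mul_one, Matrix.nonsing_inv_mul h hhu]
        have htr : Matrix.trace (h⁻¹ * x₀ * h) * Matrix.trace (h⁻¹ * x₀ * h)⁻¹ =
            Matrix.trace x₀ * Matrix.trace x₀⁻¹ := by
          rw [conj_inv_mat h x₀ hhu, conj_trace h x₀ hhu, conj_trace h x₀⁻¹ hhu]
        rcases hFix F ι (h⁻¹ * x₀ * h) 3 h2F hι hNrm (by norm_num) (by norm_num) hyr with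
          ⟨c, hc⟩ | ⟨-, ht⟩ | ⟨h35, -⟩
        · exact hns c (conj_scalar h x₀ hhu c hc)
        · rw [htr] at ht
          rcases ht with ht | ht
          · exact ht1 ht
          · exact ht4 ht
        · omega
    · by_cases h5 : r = 5
      · subst h5
        have ho5 : orderOf (p : ZMod 5) ≠ 4 := hr5 rfl
        obtain ⟨x₀, hdet, hU, hx5, hns, ht1⟩ := hW5 F p hpP hF hp4 ho5
        obtain ⟨h, hhu, hNrm⟩ := key x₀ hdet hU hx5 hns
        have hyr : (h⁻¹ * x₀ * h) ^ 5 = 1 := by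
          rw [conj_pow_mat h x₀ hhu, hx5, Matrix.mul_one, Matrix.nonsing_inv_mul h hhu]
        have htr : Matrix.trace (h⁻¹ * x₀ * h) * Matrix.trace (h⁻¹ * x₀ * h)⁻¹ =
            Matrix.trace x₀ * Matrix.trace x₀⁻¹ := by
          rw [conj_inv_mat h x₀ hhu, conj_trace h x₀ hhu, conj_trace h x₀⁻¹ hhu]
        rcases hFix F ι (h⁻¹ * x₀ * h) 5 h2F hι hNrm (by norm_num) (by norm_num) hyr with
          ⟨c, hc⟩ | ⟨h53, -⟩ | ⟨-, ht⟩
        · exact hns c (conj_scalar h x₀ hhu c hc)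
        · omega
        · rw [htr] at ht
          exact ht1 ht
      · -- r ≥ 7: Cauchy
        have hdvd : r ∣ Nat.card ↥(Cfsg.GU 4 F p ⊓ Cfsg.Geo.specialLinear (Fin 4) F) :=
          hΩ.trans (Subgroup.relIndex_dvd_card _ _)
        obtain ⟨x₀, hx₀⟩ := exists_prime_orderOf_dvd_card' r hdvd
        obtain ⟨x, hx⟩ : ∃ x : GL (Fin 4) F, x = (x₀ : GL (Fin 4) F) := ⟨_, rfl⟩
        have hxS : x ∈ Cfsg.GU 4 F p ⊓ Cfsg.Geo.specialLinear (Fin 4) F := by
          rw [hx]; exact x₀.2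
        have hxr : x ^ r = 1 := by
          rw [hx, ← Subgroup.coe_pow, ← hx₀, pow_orderOf_eq_one, Subgroup.coe_one]
        have hrodd : ¬ 2 ∣ r := by
          intro h2
          exact hr2 ((Nat.prime_dvd_prime_iff_eq (by norm_num) hrP).mp h2).symm
        have hxns : ∀ z : F, (x : Matrix (Fin 4) (Fin 4) F) ≠
            z • (1 : Matrix (Fin 4) (Fin 4) F) := by
          intro z hz
          have hdet := ((hSmem x).mp hxS).2
          rw [hz, Matrix.det_smul, Matrix.det_one, Fintype.card_fin, mul_one] at hdet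
          have hzr : z ^ r = 1 := by
            have h6 := congrArg (fun u : GL (Fin 4) F => (u : Matrix (Fin 4) (Fin 4) F)) hxr
            simp only [Units.val_pow_eq_pow_val, Units.val_one] at h6
            rw [hz, smul_pow, one_pow] at h6
            have h7 := congrFun (congrFun h6 0) 0
            simpa using h7
          have hz1 : z = 1 := by
            have hcop : Nat.Coprime r 4 := by
              have : Nat.Coprime r 2 := (Nat.coprime_primes hrP (by norm_num)).mpr hr2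
              exact Nat.Coprime.pow_right 2 this
            have h8 : z ^ (Nat.gcd r 4) = 1 := by
              rw [← orderOf_dvd_iff_pow_eq_one]
              exact Nat.dvd_gcd (orderOf_dvd_of_pow_eq_one hzr) (orderOf_dvd_of_pow_eq_one hdet)
            rw [hcop, pow_one] at h8
            exact h8
          have hx1 : x = 1 := by
            apply Units.ext
            rw [hz, hz1, one_smul, Units.val_one]
          have hx01 : x₀ = 1 := by
            apply Subtype.ext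
            rw [← hx, hx1, Subgroup.coe_one]
          rw [hx01, orderOf_one] at hx₀
          have := hrP.two_le
          omega
        obtain ⟨g, hgS, hgN⟩ := hall x hxS ⟨1, by rw [hxr, one_smul, Units.val_one]⟩ hxns
        have h1 := (hN (g⁻¹ * x * g)).mp hgN
        have hyr : ((P⁻¹ * (g⁻¹ * x * g) * P : GL (Fin 4) F) : Matrix (Fin 4) (Fin 4) F) ^ r =
            1 := by
          have h2 : (P⁻¹ * (g⁻¹ * x * g) * P) ^ r = 1 := by
            have h3 : P⁻¹ * (g⁻¹ * x * g) * P = (g * P)⁻¹ * x * (g * P)⁻¹⁻¹ := by group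
            rw [h3, conj_pow, hxr, mul_one, inv_inv, inv_mul_cancel]
          rw [← Units.val_pow_eq_pow_val, h2, Units.val_one]
        rcases hFix F ι _ r h2F hι h1 hrP hr2 hyr with ⟨c, hc⟩ | ⟨h3', -⟩ | ⟨h5', -⟩
        · apply hxns c
          have h4 : x = (g * P) * (P⁻¹ * (g⁻¹ * x * g) * P) * (g * P)⁻¹ := by group
          rw [h4, Units.val_mul, Units.val_mul, hc, Matrix.mul_smul, Matrix.mul_one,
            Matrix.smul_mul, ← Units.val_mul, mul_inv_cancel, Units.val_one]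
        · exact h3 h3'
        · exact h5 h5'
  · rintro (rfl | ⟨rfl, hp31⟩ | ⟨rfl, ho5⟩)
    · -- r = 2
      intro x hx ⟨z, hz⟩ hns
      apply keyPos
      obtain ⟨hXU, hXd, hXpow, hXns, -⟩ := transport x 2 z hx hz hns
      obtain ⟨X', hX'⟩ : ∃ X' : Matrix (Fin 4) (Fin 4) F,
          X' = ((P⁻¹ * x * P : GL (Fin 4) F) : Matrix (Fin 4) (Fin 4) F) := ⟨_, rfl⟩
      rw [← hX'] at hXU hXd hXpow hXns ⊢
      have hX2 : X' * X' = z • (1 : Matrix (Fin 4) (Fin 4) F) := by rw [← pow_two]; exact hXpow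
      obtain ⟨c, hc, hc1⟩ := hInvB F p X' z hpP hF hp4 hXd hXU hX2
      have hc0 : c ≠ 0 := by
        rintro rfl
        rw [zero_pow (by omega)] at hc1
        exact zero_ne_one hc1
      have hci : c⁻¹ ^ (p + 1) = 1 := by rw [inv_pow, hc1, inv_one]
      have hyU : IsU p (c⁻¹ • X') := isU_smul p c⁻¹ X' hci hXU
      have hyy : (c⁻¹ • X') * (c⁻¹ • X') = 1 := by
        rw [Matrix.smul_mul, Matrix.mul_smul, smul_smul, hX2, smul_smul, ← hc]
        have h1 : c⁻¹ * c⁻¹ * (c * c) = 1 := by field_simp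
        rw [h1, one_smul]
      obtain ⟨E, d, hEd, hEU, hd, hyE⟩ := hInvA F p (c⁻¹ • X') hpP hF h2F hyU hyy
      refine ⟨E, c • Matrix.diagonal d, hEd, hEU, ?_, hSm _ c hc0 (hND d hd)⟩
      have h1 : X' * E = c • ((c⁻¹ • X') * E) := by
        rw [Matrix.smul_mul, smul_smul, mul_inv_cancel₀ hc0, one_smul]
      rw [h1, hyE, Matrix.mul_smul]
    · -- r = 3, p ≡ 1 mod 3
      intro x hx ⟨z, hz⟩ hns
      apply keyPos
      obtain ⟨hXU, hXd, hXpow, hXns, hz4'⟩ := transport x 3 z hx hz hns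
      obtain ⟨X', hX'⟩ : ∃ X' : Matrix (Fin 4) (Fin 4) F,
          X' = ((P⁻¹ * x * P : GL (Fin 4) F) : Matrix (Fin 4) (Fin 4) F) := ⟨_, rfl⟩
      rw [← hX'] at hXU hXd hXpow hXns ⊢
      have hz4 : z ^ 4 = 1 := by
        rcases hz4' (by omega) with h | h
        · exact h
        · omega
      have hz0 : z ≠ 0 := by
        rintro rfl
        rw [zero_pow (by norm_num)] at hz4
        exact zero_ne_one hz4
      have hx2U : IsU p (z • X') := isU_smul p z X' (hunit4 z hz4) hXU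
      have hx2_3 : (z • X') ^ 3 = 1 := by
        rw [smul_pow, hXpow, smul_smul, ← pow_succ, hz4, one_smul]
      have hx2ne : z • X' ≠ 1 := by
        intro h
        apply hXns z⁻¹
        have h1 : X' = z⁻¹ • (z • X') := by rw [smul_smul, inv_mul_cancel₀ hz0, one_smul]
        rw [h1, h]
      have h3F : (3 : F) ≠ 0 := by
        have h := hcast 3 (fun h => by
          have h1 := (Nat.prime_dvd_prime_iff_eq hpP (by norm_num)).mp h
          omega)
        exact_mod_cast h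
      obtain ⟨ω, hω, hωp⟩ := (hRoots F p hpP hF hp4).1 hp31
      obtain ⟨hNA, hNB, hA3, hB3, htA, htB, hAU, hBU⟩ := hN3 F p ι hpP h2F hι hιp
      have trD2 : Matrix.trace (Matrix.diagonal ![ω, ω, ω ^ 2, ω ^ 2] :
          Matrix (Fin 4) (Fin 4) F) = -2 := by
        rw [Matrix.trace_diagonal, Fin.sum_univ_four]
        simp
        linear_combination 2 * hω
      have trD1 : Matrix.trace (Matrix.diagonal ![ω, ω ^ 2, 1, 1] :
          Matrix (Fin 4) (Fin 4) F) = 1 := by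
        rw [Matrix.trace_diagonal, Fin.sum_univ_four]
        simp
        linear_combination hω
      have hAne : yA ι ≠ 1 := by
        intro h
        rw [h, Matrix.trace_one, Fintype.card_fin] at htA
        apply h3F
        have h4 : ((4 : ℕ) : F) = 1 := htA
        push_cast at h4
        linear_combination h4
      have hBne : yB ι ≠ 1 := by
        intro h
        rw [h, Matrix.trace_one, Fintype.card_fin] at htB
        have h4 : ((4 : ℕ) : F) = -2 := htB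
        push_cast at h4
        have h6 : (2 : F) * 3 = 0 := by linear_combination h4
        rcases mul_eq_zero.mp h6 with h | h
        · exact h2F h
        · exact h3F h
      obtain ⟨EA, hEAu, hEA⟩ := hHyp3 F p (yA ι) ω hpP hF hω hωp h3F hAU hA3 hAne
      obtain ⟨EB, hEBu, hEB⟩ := hHyp3 F p (yB ι) ω hpP hF hω hωp h3F hBU hB3 hBne
      obtain ⟨E1, hE1u, hE1⟩ := hHyp3 F p (z • X') ω hpP hF hω hωp h3F hx2U hx2_3 hx2ne
      have hEA1 : yA ι * EA = EA * Matrix.diagonal ![ω, ω ^ 2, 1, 1] ∧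
          EAᵀ * EA.map (fun a => a ^ p) = J1 := by
        rcases hEA with h | h
        · exfalso
          have h4 := trace_of_conj _ _ _ hEAu h.1
          rw [htA, trD2] at h4
          apply h3F
          linear_combination h4
        · exact h
      have hEB2 : yB ι * EB = EB * Matrix.diagonal ![ω, ω, ω ^ 2, ω ^ 2] ∧
          EBᵀ * EB.map (fun a => a ^ p) = B1 := by
        rcases hEB with h | h
        · exact h
        · exfalso
          have h4 := trace_of_conj _ _ _ hEBu h.1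
          rw [htB, trD1] at h4
          apply h3F
          linear_combination -h4
      rcases hE1 with h | h
      · obtain ⟨⟨a, b, hdt, hJt⟩, -, -⟩ := hTDet F p (EB.det / E1.det) hpP hF hp4
          (det_ratio p B1 E1 EB hE1u h.2 hEB2.2)
        obtain ⟨g, hgd, hgU, hg⟩ := hUGlue F p hpP B1 (Matrix.diagonal ![ω, ω, ω ^ 2, ω ^ 2])
          (z • X') (yB ι) E1 EB (Matrix.diagonal ![a, 1, b, 1]) hE1u hEBu h.2 hEB2.2 h.1 hEB2.1
          (by
            rw [Matrix.diagonal_mul_diagonal, Matrix.diagonal_mul_diagonal]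
            congr 1
            funext i
            exact mul_comm _ _) hJt
          (by rw [hdt]; exact div_mul_cancel₀ _ hE1u.ne_zero)
        obtain ⟨e1, e2⟩ := smul_finish ι hSm X' (z • X') (yB ι) g z hz0 rfl hNB hg
        exact ⟨g, z⁻¹ • yB ι, hgd, hgU, e1, e2⟩
      · obtain ⟨-, ⟨b, hdt, hJt⟩, -⟩ := hTDet F p (EA.det / E1.det) hpP hF hp4
          (det_ratio p J1 E1 EA hE1u h.2 hEA1.2)
        obtain ⟨g, hgd, hgU, hg⟩ := hUGlue F p hpP J1 (Matrix.diagonal ![ω, ω ^ 2, 1, 1])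
          (z • X') (yA ι) E1 EA (Matrix.diagonal ![1, 1, b, 1]) hE1u hEAu h.2 hEA1.2 h.1 hEA1.1
          (by
            rw [Matrix.diagonal_mul_diagonal, Matrix.diagonal_mul_diagonal]
            congr 1
            funext i
            exact mul_comm _ _) hJt
          (by rw [hdt]; exact div_mul_cancel₀ _ hE1u.ne_zero)
        obtain ⟨e1, e2⟩ := smul_finish ι hSm X' (z • X') (yA ι) g z hz0 rfl hNA hg
        exact ⟨g, z⁻¹ • yA ι, hgd, hgU, e1, e2⟩
    · -- r = 5, ord_5(p) = 4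
      intro x hx ⟨z, hz⟩ hns
      apply keyPos
      obtain ⟨hXU, hXd, hXpow, hXns, hz4'⟩ := transport x 5 z hx hz hns
      obtain ⟨X', hX'⟩ : ∃ X' : Matrix (Fin 4) (Fin 4) F,
          X' = ((P⁻¹ * x * P : GL (Fin 4) F) : Matrix (Fin 4) (Fin 4) F) := ⟨_, rfl⟩
      rw [← hX'] at hXU hXd hXpow hXns ⊢
      have hz4 : z ^ 4 = 1 := by
        rcases hz4' (by omega) with h | h
        · exact h
        · omega
      have hz0 : z ≠ 0 := by
        rintro rfl
        rw [zero_pow (by norm_num)] at hz4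
        exact zero_ne_one hz4
      have hz3 : (z ^ 3) ^ 4 = 1 := by
        rw [← pow_mul, mul_comm, pow_mul, hz4, one_pow]
      have hx2U : IsU p (z ^ 3 • X') := isU_smul p (z ^ 3) X' (hunit4 _ hz3) hXU
      have hx2_5 : (z ^ 3 • X') ^ 5 = 1 := by
        rw [smul_pow, hXpow, smul_smul]
        have h1 : (z ^ 3) ^ 5 * z = (z ^ 4) ^ 4 := by ring
        rw [h1, hz4, one_pow, one_smul]
      have hx2ne : z ^ 3 • X' ≠ 1 := by
        intro h
        apply hXns (z ^ 3)⁻¹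
        have h1 : X' = (z ^ 3)⁻¹ • (z ^ 3 • X') := by
          rw [smul_smul, inv_mul_cancel₀ (pow_ne_zero 3 hz0), one_smul]
        rw [h1, h]
      have h5F : (5 : F) ≠ 0 := by
        have h := hcast 5 (fun h => by
          have h1 := (Nat.prime_dvd_prime_iff_eq hpP (by norm_num)).mp h
          omega)
        exact_mod_cast h
      obtain ⟨s, hs⟩ := (hRoots F p hpP hF hp4).2
      obtain ⟨hN5', h55, h5ne, h5U⟩ := hN5 F p ι hpP h2F hι hιp
      obtain ⟨E2, hE2u, hE2, hE2J⟩ := hHyp5 F p (g5 ι) s hpP hF ho5 hs h5U h55 h5ne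
      obtain ⟨E1, hE1u, hE1, hE1J⟩ := hHyp5 F p (z ^ 3 • X') s hpP hF ho5 hs hx2U hx2_5 hx2ne
      obtain ⟨-, -, h3⟩ := hTDet F p (E2.det / E1.det) hpP hF hp4
        (det_ratio p B1 E1 E2 hE1u hE1J hE2J)
      obtain ⟨t, htd, htJ, htK⟩ := h3 s hs h5F
      obtain ⟨g, hgd, hgU, hg⟩ := hUGlue F p hpP B1 (K5 s (s ^ p)) (z ^ 3 • X') (g5 ι) E1 E2 t
        hE1u hE2u hE1J hE2J hE1 hE2 htK htJ (by rw [htd]; exact div_mul_cancel₀ _ hE1u.ne_zero)
      obtain ⟨e1, e2⟩ := smul_finish ι hSm X' (z ^ 3 • X') (g5 ι) g (z ^ 3) (pow_ne_zero 3 hz0)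
        rfl hN5' hg
      exact ⟨g, (z ^ 3)⁻¹ • g5 ι, hgd, hgU, e1, e2⟩

end Cfsg.Agent.H83.UP
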