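import Mathlib
import Cfsg.Agent.H83.UPDefs
import Cfsg.Agent.H83.UPFld
import Cfsg.Agent.H17.GUBlock
import Cfsg.Agent.H61.GU2Sylow

/-!
# S6001-UHYP5 (helper83): the normal form of a unitary element of order 5
-/

set_option autoImplicit false

namespace Cfsg.Agent.H83.UP

open Matrix

universe u

section H5

variable {F : Type u} [Field F] [Fintype F] {p : ℕ}

theorem h5_zero_right (hF : Fintype.card F = p ^ 2) (u : Fin 4 → F) :
    H7.hermI (Fin 4) F p u 0 = 0 := by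
  have h := H7.hermI_sub_right hF u 0 0
  rw [sub_self, sub_self] at h
  exact h

theorem h5_neg_right (hF : Fintype.card F = p ^ 2) (u v : Fin 4 → F) :
    H7.hermI (Fin 4) F p u (-v) = -H7.hermI (Fin 4) F p u v := by
  have h := H7.hermI_sub_right hF u 0 v
  rw [zero_sub, h5_zero_right hF, zero_sub] at h
  exact h

/-- No root of `t^2 - c t + 1` in `F` (such a root would have order 5). -/
theorem h5_noroot (hp : p.Prime) (hF : Fintype.card F = p ^ 2) (h5 : orderOf (p : ZMod 5) = 4)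
    (c : F) (hc : c ^ 2 + c = 1) (h5F : (5 : F) ≠ 0) (l : F) : l ^ 2 - c * l + 1 ≠ 0 := by
  intro hl
  have hl0 : l ≠ 0 := by
    rintro rfl
    norm_num at hl
  have hl5 : l ^ 5 = 1 := by
    linear_combination (l - 1) * (l ^ 2 + (1 + c) * l + 1) * hl + (l - 1) * l ^ 2 * hc
  have hl1 : l ≠ 1 := by
    rintro rfl
    apply h5F
    have hc2 : c = 2 := by linear_combination -hl
    rw [hc2] at hc
    linear_combination hc
  have : Fact (Nat.Prime 5) := ⟨by norm_num⟩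
  have hord : orderOf l = 5 := orderOf_eq_prime hl5 hl1
  have hcard : l ^ (p ^ 2 - 1) = 1 := by
    rw [← hF]
    exact FiniteField.pow_card_sub_one_eq_one l hl0
  have hdvd : 5 ∣ p ^ 2 - 1 := by
    rw [← hord]
    exact orderOf_dvd_of_pow_eq_one hcard
  have hp2 : ((p : ZMod 5)) ^ 2 = 1 := by
    have h1 : 1 ≤ p ^ 2 := Nat.one_le_pow _ _ hp.pos
    have h2 : ((p ^ 2 - 1 : ℕ) : ZMod 5) = 0 := (ZMod.natCast_eq_zero_iff _ _).mpr hdvd
    rw [Nat.cast_sub h1, Nat.cast_pow, Nat.cast_one] at h2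
    linear_combination h2
  have h4 := orderOf_dvd_of_pow_eq_one hp2
  rw [h5] at h4
  have := Nat.le_of_dvd (by norm_num) h4
  omega

/-- The Frobenius conjugate of a root of `t^2 + t - 1`. -/
theorem h5_conj (hp : p.Prime) (hF : Fintype.card F = p ^ 2) (h5 : orderOf (p : ZMod 5) = 4)
    (c : F) (hc : c ^ 2 + c = 1) (h5F : (5 : F) ≠ 0) : c ^ p = -1 - c := by
  obtain ⟨φ, hφ⟩ := H7.exists_frobQ hF
  have hcp : (c ^ p) ^ 2 + c ^ p = 1 := by
    rw [← hφ, ← map_pow, ← map_add, hc, map_one]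
  have hprod : (c ^ p - c) * (c ^ p + c + 1) = 0 := by linear_combination hcp - hc
  rcases mul_eq_zero.mp hprod with h | h
  · exfalso
    have hcc : c ^ p = c := sub_eq_zero.mp h
    have hchar := charP_of_card hp hF
    rcases hp.eq_two_or_odd with h2 | hodd
    · subst h2
      have h20 : (2 : F) = 0 := by exact_mod_cast CharP.cast_eq_zero F 2
      have h10 : (1 : F) = 0 := by linear_combination -hc + hcc + c * h20
      exact one_ne_zero h10
    · have h2F : (2 : F) ≠ 0 := by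
        have h := natCast_ne_zero_of_card hp hF 2 (fun hd => by
          have := Nat.le_of_dvd (by norm_num) hd
          have := hp.two_le
          omega)
        exact_mod_cast h
      obtain ⟨d, hd⟩ : ∃ d : F, d = c ^ 2 - 4 := ⟨_, rfl⟩
      have hdp : d ^ p = d := by
        rw [hd, ← hφ, map_sub, map_pow, hφ, hcc, map_ofNat]
      have hsq : IsSquare d := by
        by_cases hd0 : d = 0
        · rw [hd0]
          exact IsSquare.zero
        · have hchar2 : ringChar F ≠ 2 := by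
            intro h'
            have := ringChar.eq F p
            omega
          rw [FiniteField.isSquare_iff hchar2 hd0, hF]
          have hd1 : d ^ (p - 1) = 1 := by
            have h1 : d ^ (p - 1) * d = d := by
              rw [← pow_succ, Nat.sub_add_cancel hp.one_le]
              exact hdp
            exact mul_right_cancel₀ hd0 (by rw [h1, one_mul])
          have hk : p ^ 2 / 2 = (p - 1) * ((p + 1) / 2) := by
            obtain ⟨k, hk⟩ : ∃ k, p = 2 * k + 1 := ⟨p / 2, by omega⟩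
            subst hk
            have h1 : (2 * k + 1) ^ 2 = 2 * (2 * k * (k + 1)) + 1 := by ring
            have h2 : (2 * k + 1 - 1) * ((2 * k + 1 + 1) / 2) = 2 * k * (k + 1) := by
              have h3 : (2 * k + 1 + 1) / 2 = k + 1 := by omega
              rw [h3]
              simp
            rw [h1, h2]
            omega
          rw [hk, pow_mul, hd1, one_pow]
      obtain ⟨r, hr⟩ := hsq
      obtain ⟨e, he⟩ : ∃ e : F, 2 * e = 1 := ⟨2⁻¹, mul_inv_cancel₀ h2F⟩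
      exact h5_noroot hp hF h5 c hc h5F ((c + r) * e) (by
        linear_combination (-e ^ 2) * hr + e ^ 2 * hd + (c * (c + r) * e - (1 + 2 * e)) * he)
  · linear_combination h

variable (x : Matrix (Fin 4) (Fin 4) F)

omit [Fintype F] in
/-- Shifting `x` across the form on the kernel of `x^2 - c x + 1`. -/
theorem h5_shift
    (hx : ∀ u v : Fin 4 → F, H7.hermI (Fin 4) F p (x *ᵥ u) (x *ᵥ v) = H7.hermI (Fin 4) F p u v)
    (c : F) (u : Fin 4 → F) (hu : x *ᵥ x *ᵥ u = c • x *ᵥ u - u) (w : Fin 4 → F) :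
    H7.hermI (Fin 4) F p u (x *ᵥ w) =
      c * H7.hermI (Fin 4) F p u w - H7.hermI (Fin 4) F p (x *ᵥ u) w := by
  have hu' : x *ᵥ (c • u - x *ᵥ u) = u := by
    rw [Matrix.mulVec_sub, Matrix.mulVec_smul, hu]
    abel
  have h := hx (c • u - x *ᵥ u) w
  rw [hu', H7.hermI_sub_left, H7.hermI_smul_left] at h
  exact h

/-- The kernel of `x^2 - c x + 1` is totally isotropic when `c^p ≠ c`. -/
theorem h5_iso (hF : Fintype.card F = p ^ 2)
    (hx : ∀ u v : Fin 4 → F, H7.hermI (Fin 4) F p (x *ᵥ u) (x *ᵥ v) = H7.hermI (Fin 4) F p u v)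
    (c : F) (hc : c ^ p ≠ c) (u v : Fin 4 → F) (hu : x *ᵥ x *ᵥ u = c • x *ᵥ u - u)
    (hv : x *ᵥ x *ᵥ v = c • x *ᵥ v - v) : H7.hermI (Fin 4) F p u v = 0 := by
  have h2 := h5_shift x hx c u hu v
  have hv' : x *ᵥ (c • v - x *ᵥ v) = v := by
    rw [Matrix.mulVec_sub, Matrix.mulVec_smul, hv]
    abel
  have h1 := hx u (c • v - x *ᵥ v)
  rw [hv', H7.hermI_sub_right hF, H7.hermI_smul_right] at h1
  have h3 : (c ^ p - c) * H7.hermI (Fin 4) F p u v = 0 := by linear_combination -h1 + h2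
  rcases mul_eq_zero.mp h3 with h | h
  · exact absurd (sub_eq_zero.mp h) hc
  · exact h

/-- Key lemma: a nonzero vector `u` of the kernel of `x^2 - c x + 1` has a partner `f` in the
kernel of `x^2 - c' x + 1` with `(u, f) = 0`, `(x u, f) = 1`. -/
theorem h5_key (hp : p.Prime) (hF : Fintype.card F = p ^ 2)
    (hx : ∀ u v : Fin 4 → F, H7.hermI (Fin 4) F p (x *ᵥ u) (x *ᵥ v) = H7.hermI (Fin 4) F p u v)
    (hx5 : ∀ v : Fin 4 → F, x *ᵥ x *ᵥ x *ᵥ x *ᵥ x *ᵥ v = v)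
    (c c' : F) (hc : c ^ 2 + c = 1) (hc' : c' = -1 - c) (hcp : c ^ p = c') (h5F : (5 : F) ≠ 0)
    (hR : ∀ l : F, l ^ 2 - c * l + 1 ≠ 0)
    (u : Fin 4 → F) (hu : x *ᵥ x *ᵥ u = c • x *ᵥ u - u) (hu0 : u ≠ 0) :
    ∃ f : Fin 4 → F, x *ᵥ x *ᵥ f = c' • x *ᵥ f - f ∧ H7.hermI (Fin 4) F p u f = 0 ∧
      H7.hermI (Fin 4) F p (x *ᵥ u) f = 1 := by
  classical
  have h2c : (2 : F) - c ≠ 0 := by
    intro h
    apply h5F
    have hc2 : c = 2 := by linear_combination -h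
    rw [hc2] at hc
    linear_combination hc
  obtain ⟨i, hi⟩ : ∃ i, u i ≠ 0 := by
    by_contra hcon
    push Not at hcon
    exact hu0 (funext hcon)
  obtain ⟨w, hw⟩ : ∃ w : Fin 4 → F, w = Pi.single i 1 := ⟨_, rfl⟩
  have ha : H7.hermI (Fin 4) F p u w ≠ 0 := by
    rw [hw, H7.hermI_single_right p hp.ne_zero]
    exact hi
  obtain ⟨w1, hw1⟩ : ∃ w1 : Fin 4 → F, w1 = x *ᵥ w := ⟨_, rfl⟩
  obtain ⟨w2, hw2⟩ : ∃ w2 : Fin 4 → F, w2 = x *ᵥ w1 := ⟨_, rfl⟩
  obtain ⟨w3, hw3⟩ : ∃ w3 : Fin 4 → F, w3 = x *ᵥ w2 := ⟨_, rfl⟩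
  obtain ⟨w4, hw4⟩ : ∃ w4 : Fin 4 → F, w4 = x *ᵥ w3 := ⟨_, rfl⟩
  have hw5 : x *ᵥ w4 = w := by
    rw [hw4, hw3, hw2, hw1]
    exact hx5 w
  obtain ⟨g, hg⟩ : ∃ g : Fin 4 → F, g = w3 - (c + 1) • w2 + (c + 1) • w1 - w := ⟨_, rfl⟩
  have hxg : x *ᵥ g = w4 - (c + 1) • w3 + (c + 1) • w2 - w1 := by
    rw [hg, Matrix.mulVec_sub, Matrix.mulVec_add, Matrix.mulVec_sub, Matrix.mulVec_smul,
      Matrix.mulVec_smul, ← hw4, ← hw3, ← hw2, ← hw1]
  have hxxg : x *ᵥ x *ᵥ g = c' • x *ᵥ g - g := by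
    rw [hxg, Matrix.mulVec_sub, Matrix.mulVec_add, Matrix.mulVec_sub, Matrix.mulVec_smul,
      Matrix.mulVec_smul, hw5, ← hw4, ← hw3, ← hw2, hg, hc']
    linear_combination (norm := module) hc • (w2 - w3)
  have hT := h5_shift x hx c u hu
  obtain ⟨a, ha'⟩ : ∃ a : F, a = H7.hermI (Fin 4) F p u w := ⟨_, rfl⟩
  obtain ⟨b, hb'⟩ : ∃ b : F, b = H7.hermI (Fin 4) F p (x *ᵥ u) w := ⟨_, rfl⟩
  have e1 : H7.hermI (Fin 4) F p u w1 = c * a - b := by rw [hw1, hT w, ← ha', ← hb']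
  have e1' : H7.hermI (Fin 4) F p (x *ᵥ u) w1 = a := by rw [hw1, hx u w, ← ha']
  have e2 : H7.hermI (Fin 4) F p u w2 = c * (c * a - b) - a := by rw [hw2, hT w1, e1, e1']
  have e2' : H7.hermI (Fin 4) F p (x *ᵥ u) w2 = c * a - b := by rw [hw2, hx u w1, e1]
  have e3 : H7.hermI (Fin 4) F p u w3 = c * (c * (c * a - b) - a) - (c * a - b) := by
    rw [hw3, hT w2, e2, e2']
  have e3' : H7.hermI (Fin 4) F p (x *ᵥ u) w3 = c * (c * a - b) - a := by rw [hw3, hx u w2, e2]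
  have hc1p : (c + 1) ^ p = -c := by
    rw [H7.add_pow_q hF, one_pow, hcp, hc']
    ring
  obtain ⟨α, hα'⟩ : ∃ α : F, α = H7.hermI (Fin 4) F p u g := ⟨_, rfl⟩
  obtain ⟨β, hβ'⟩ : ∃ β : F, β = H7.hermI (Fin 4) F p (x *ᵥ u) g := ⟨_, rfl⟩
  have hα : α = (2 * c - 4) * a + (3 * c - 1) * b := by
    rw [hα', hg, H7.hermI_sub_right hF, H7.hermI_add_right hF, H7.hermI_sub_right hF,
      H7.hermI_smul_right, H7.hermI_smul_right, hc1p, e3, e2, e1, ← ha']
    linear_combination ((2 * c - 3) * a - 2 * b) * hc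
  have hβ : β = (1 - 3 * c) * a - (2 * c + 1) * b := by
    rw [hβ', hg, H7.hermI_sub_right hF, H7.hermI_add_right hF, H7.hermI_sub_right hF,
      H7.hermI_smul_right, H7.hermI_smul_right, hc1p, e3', e2', e1', ← hb']
    linear_combination (2 * a) * hc
  have hαβ : ¬ (α = 0 ∧ β = 0) := by
    rintro ⟨h1, h2⟩
    rw [hα] at h1
    rw [hβ] at h2
    have h3 : 5 * (2 - c) * a = 0 := by
      linear_combination (-(2 * c + 1)) * h1 - (3 * c - 1) * h2 - 5 * a * hc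
    rcases mul_eq_zero.mp h3 with h | h
    · exact (mul_ne_zero h5F h2c) h
    · rw [ha'] at h
      exact ha h
  obtain ⟨Δ, hΔ⟩ : ∃ Δ : F, Δ = α ^ 2 - c * α * β + β ^ 2 := ⟨_, rfl⟩
  have hΔ0 : Δ ≠ 0 := by
    intro h0
    rw [hΔ] at h0
    by_cases hβ0 : β = 0
    · rw [hβ0] at h0
      have hα0 : α = 0 := by
        have h4 : α ^ 2 = 0 := by linear_combination h0
        exact pow_eq_zero_iff (by norm_num) |>.mp h4
      exact hαβ ⟨hα0, hβ0⟩
    · apply hR (α / β)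
      field_simp
      linear_combination h0
  obtain ⟨d1, hd1⟩ : ∃ d1 : F, d1 * Δ = β - c * α := ⟨(β - c * α) / Δ, div_mul_cancel₀ _ hΔ0⟩
  obtain ⟨d2, hd2⟩ : ∃ d2 : F, d2 * Δ = α := ⟨α / Δ, div_mul_cancel₀ _ hΔ0⟩
  obtain ⟨g1, hg1⟩ : ∃ g1 : Fin 4 → F, g1 = x *ᵥ g := ⟨_, rfl⟩
  rw [← hg1] at hxxg
  have eg1 : H7.hermI (Fin 4) F p u g1 = c * α - β := by rw [hg1, hT g, ← hα', ← hβ']
  have eg1' : H7.hermI (Fin 4) F p (x *ᵥ u) g1 = α := by rw [hg1, hx u g, ← hα']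
  refine ⟨d1 ^ p • g + d2 ^ p • g1, ?_, ?_, ?_⟩
  · have hxf : x *ᵥ (d1 ^ p • g + d2 ^ p • g1) = d1 ^ p • g1 + d2 ^ p • (c' • g1 - g) := by
      rw [Matrix.mulVec_add, Matrix.mulVec_smul, Matrix.mulVec_smul, ← hg1, hxxg]
    rw [hxf, Matrix.mulVec_add, Matrix.mulVec_smul, Matrix.mulVec_smul, Matrix.mulVec_sub,
      Matrix.mulVec_smul, hxxg, ← hg1]
    module
  · rw [H7.hermI_add_right hF, H7.hermI_smul_right, H7.hermI_smul_right, H7.pow_q_pow_q hF,
      H7.pow_q_pow_q hF, ← hα', eg1]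
    have h6 : Δ * (d1 * α + d2 * (c * α - β)) = 0 := by
      linear_combination α * hd1 + (c * α - β) * hd2
    rcases mul_eq_zero.mp h6 with h | h
    · exact absurd h hΔ0
    · exact h
  · rw [H7.hermI_add_right hF, H7.hermI_smul_right, H7.hermI_smul_right, H7.pow_q_pow_q hF,
      H7.pow_q_pow_q hF, ← hβ', eg1']
    have h6 : Δ * (d1 * β + d2 * α - 1) = 0 := by
      linear_combination β * hd1 + α * hd2 - hΔ
    rcases mul_eq_zero.mp h6 with h | h
    · exact absurd h hΔ0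
    · linear_combination h

end H5

theorem uHyp5 : StUHyp5.{u} := by
  intro F _ _ p x s hp hF h5 hs hU hx5 hx1
  classical
  have hp0 : p ≠ 0 := hp.ne_zero
  have h5F : (5 : F) ≠ 0 := by
    have h := natCast_ne_zero_of_card hp hF 5 (fun hd => by
      have h5p : p = 5 := (Nat.prime_dvd_prime_iff_eq hp (by norm_num)).mp hd
      subst h5p
      have h0 : ((5 : ℕ) : ZMod 5) = 0 := by decide
      have : Fact (1 < 5) := ⟨by norm_num⟩
      rw [h0, orderOf_zero] at h5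
      omega)
    exact_mod_cast h
  obtain ⟨σ, hσ⟩ : ∃ σ : F →+* F, σ = H17.frobHom hF := ⟨_, rfl⟩
  have hσa : ∀ a, σ a = a ^ p := fun a => by rw [hσ]; rfl
  have hU' : xᵀ * x.map σ = 1 := by rw [hσ]; exact hU
  have hx : ∀ u v : Fin 4 → F,
      H7.hermI (Fin 4) F p (x *ᵥ u) (x *ᵥ v) = H7.hermI (Fin 4) F p u v :=
    fun u v => H61.herm_preserves_of_gram σ hσa x hU' u v
  have hx5' : ∀ v : Fin 4 → F, x *ᵥ x *ᵥ x *ᵥ x *ᵥ x *ᵥ v = v := by
    intro v
    have e5 : x * x * x * x * x = 1 := by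
      rw [← hx5]
      simp [pow_succ]
    rw [Matrix.mulVec_mulVec, Matrix.mulVec_mulVec, Matrix.mulVec_mulVec, Matrix.mulVec_mulVec, e5,
      Matrix.one_mulVec]
  have hR := h5_noroot hp hF h5 s hs h5F
  have hsp := h5_conj hp hF h5 s hs h5F
  obtain ⟨s', hs'⟩ : ∃ s' : F, s' = -1 - s := ⟨_, rfl⟩
  have hs'c : s' ^ 2 + s' = 1 := by rw [hs']; linear_combination hs
  have hR' := h5_noroot hp hF h5 s' hs'c h5F
  have hs's : s = -1 - s' := by rw [hs']; ring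
  have hs'p : s' ^ p = s := by
    rw [h5_conj hp hF h5 s' hs'c h5F, ← hs's]
  have hss' : s' ≠ s := by
    intro h
    apply h5F
    have h1 : 2 * s + 1 = 0 := by
      rw [hs'] at h
      linear_combination -h
    linear_combination (2 * s + 1) * h1 - 4 * hs
  have hne : s ^ p ≠ s := by rw [hsp, ← hs']; exact hss'
  have hne' : s' ^ p ≠ s' := by rw [hs'p]; exact fun h => hss' h.symm
  rw [← hs'] at hsp
  -- a nonzero vector of the kernel of `x^2 - s x + 1`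
  obtain ⟨e, he, he0⟩ : ∃ e : Fin 4 → F, x *ᵥ x *ᵥ e = s • x *ᵥ e - e ∧ e ≠ 0 := by
    obtain ⟨v, hv⟩ : ∃ v : Fin 4 → F, x *ᵥ v ≠ v := by
      by_contra hcon
      push Not at hcon
      apply hx1
      ext i j
      have h := congrFun (hcon (Pi.single j 1)) i
      rw [Matrix.mulVec_single_one] at h
      have h' : x i j = (Pi.single j 1 : Fin 4 → F) i := h
      rw [Matrix.one_apply, h', Pi.single_apply]
    obtain ⟨v1, hv1⟩ : ∃ v1 : Fin 4 → F, v1 = x *ᵥ v := ⟨_, rfl⟩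
    obtain ⟨v2, hv2⟩ : ∃ v2 : Fin 4 → F, v2 = x *ᵥ v1 := ⟨_, rfl⟩
    obtain ⟨v3, hv3⟩ : ∃ v3 : Fin 4 → F, v3 = x *ᵥ v2 := ⟨_, rfl⟩
    obtain ⟨v4, hv4⟩ : ∃ v4 : Fin 4 → F, v4 = x *ᵥ v3 := ⟨_, rfl⟩
    have hv5 : x *ᵥ v4 = v := by
      rw [hv4, hv3, hv2, hv1]
      exact hx5' v
    obtain ⟨u, hu⟩ : ∃ u : Fin 4 → F, u = v1 - v := ⟨_, rfl⟩
    have hu0 : u ≠ 0 := by
      rw [hu, hv1]
      exact sub_ne_zero.mpr hv
    have hxu : x *ᵥ u = v2 - v1 := by rw [hu, Matrix.mulVec_sub, ← hv2, ← hv1]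
    have hxxu : x *ᵥ x *ᵥ u = v3 - v2 := by rw [hxu, Matrix.mulVec_sub, ← hv3, ← hv2]
    obtain ⟨u', hu'⟩ : ∃ u' : Fin 4 → F, u' = (v3 - v2) - s' • (v2 - v1) + (v1 - v) := ⟨_, rfl⟩
    by_cases hu'0 : u' = 0
    · have hu2 : x *ᵥ x *ᵥ u = s' • x *ᵥ u - u := by
        rw [hxxu, hxu, hu]
        rw [hu'] at hu'0
        linear_combination (norm := module) hu'0
      obtain ⟨f, hf1, hf2, hf3⟩ := h5_key x hp hF hx hx5' s' s hs'c hs's hs'p h5F hR' u hu2 hu0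
      refine ⟨f, hf1, ?_⟩
      rintro rfl
      rw [h5_zero_right hF] at hf3
      exact zero_ne_one hf3
    · refine ⟨u', ?_, hu'0⟩
      have e2 : x *ᵥ u' = (v4 - v3) - s' • (v3 - v2) + (v2 - v1) := by
        rw [hu', Matrix.mulVec_add, Matrix.mulVec_sub, Matrix.mulVec_smul, Matrix.mulVec_sub,
          Matrix.mulVec_sub, Matrix.mulVec_sub, ← hv4, ← hv3, ← hv2, ← hv1]
      have e3 : x *ᵥ x *ᵥ u' = (v - v4) - s' • (v4 - v3) + (v3 - v2) := by
        rw [e2, Matrix.mulVec_add, Matrix.mulVec_sub, Matrix.mulVec_smul, Matrix.mulVec_sub,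
          Matrix.mulVec_sub, Matrix.mulVec_sub, hv5, ← hv4, ← hv3, ← hv2]
      rw [e3, e2, hu', hs']
      linear_combination (norm := module) hs • (v2 - v3)
  obtain ⟨f2, hf2, hf2a, hf2b⟩ := h5_key x hp hF hx hx5' s s' hs hs' hsp h5F hR e he he0
  obtain ⟨e2, he2⟩ : ∃ e2 : Fin 4 → F, e2 = x *ᵥ e := ⟨_, rfl⟩
  obtain ⟨f1, hf1⟩ : ∃ f1 : Fin 4 → F, f1 = -(x *ᵥ f2) := ⟨_, rfl⟩
  rw [← he2] at he hf2b
  have hxf2 : x *ᵥ f2 = -f1 := by rw [hf1, neg_neg]
  rw [hxf2] at hf2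
  have hxf1 : x *ᵥ f1 = s' • f1 + f2 := by
    have h1 : x *ᵥ f1 = -(x *ᵥ (-f1)) := by rw [Matrix.mulVec_neg, neg_neg]
    rw [h1, hf2]
    module
  have ke2 : x *ᵥ x *ᵥ e2 = s • x *ᵥ e2 - e2 := by
    rw [he, Matrix.mulVec_sub, Matrix.mulVec_smul, he, ← he2]
  have kf1 : x *ᵥ x *ᵥ f1 = s' • x *ᵥ f1 - f1 := by
    rw [hxf1, Matrix.mulVec_add, Matrix.mulVec_smul, hxf1, hxf2]
    module
  have kf2 : x *ᵥ x *ᵥ f2 = s' • x *ᵥ f2 - f2 := by
    rw [hxf2, hf2]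
  have he' : x *ᵥ x *ᵥ e = s • x *ᵥ e - e := by rw [← he2]; exact he
  have g00 : H7.hermI (Fin 4) F p e e = 0 := h5_iso x hF hx s hne e e he' he'
  have g01 : H7.hermI (Fin 4) F p e e2 = 0 := h5_iso x hF hx s hne e e2 he' ke2
  have g10 : H7.hermI (Fin 4) F p e2 e = 0 := h5_iso x hF hx s hne e2 e ke2 he'
  have g11 : H7.hermI (Fin 4) F p e2 e2 = 0 := h5_iso x hF hx s hne e2 e2 ke2 ke2
  have g22 : H7.hermI (Fin 4) F p f1 f1 = 0 := h5_iso x hF hx s' hne' f1 f1 kf1 kf1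
  have g23 : H7.hermI (Fin 4) F p f1 f2 = 0 := h5_iso x hF hx s' hne' f1 f2 kf1 kf2
  have g32 : H7.hermI (Fin 4) F p f2 f1 = 0 := h5_iso x hF hx s' hne' f2 f1 kf2 kf1
  have g33 : H7.hermI (Fin 4) F p f2 f2 = 0 := h5_iso x hF hx s' hne' f2 f2 kf2 kf2
  have g03 : H7.hermI (Fin 4) F p e f2 = 0 := hf2a
  have g13 : H7.hermI (Fin 4) F p e2 f2 = 1 := hf2b
  have g02 : H7.hermI (Fin 4) F p e f1 = 1 := by
    rw [hf1, h5_neg_right hF, h5_shift x hx s e he' f2, hf2a, ← he2, hf2b]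
    ring
  have g12 : H7.hermI (Fin 4) F p e2 f1 = 0 := by
    rw [hf1, h5_neg_right hF, he2, hx, hf2a, neg_zero]
  have g20 : H7.hermI (Fin 4) F p f1 e = 1 := by rw [← H7.hermI_conj hF, g02, one_pow]
  have g21 : H7.hermI (Fin 4) F p f1 e2 = 0 := by rw [← H7.hermI_conj hF, g12, zero_pow hp0]
  have g30 : H7.hermI (Fin 4) F p f2 e = 0 := by rw [← H7.hermI_conj hF, g03, zero_pow hp0]
  have g31 : H7.hermI (Fin 4) F p f2 e2 = 1 := by rw [← H7.hermI_conj hF, g13, one_pow]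
  obtain ⟨E, hE⟩ : ∃ E : Matrix (Fin 4) (Fin 4) F, E = Matrix.of (fun i j => ![e, e2, f1, f2] j i) :=
    ⟨_, rfl⟩
  have hGram : Eᵀ * E.map (fun a => a ^ p) = B1 := by
    ext j k
    have h1 : (Eᵀ * E.map (fun a => a ^ p)) j k =
        H7.hermI (Fin 4) F p (![e, e2, f1, f2] j) (![e, e2, f1, f2] k) := by
      rw [Matrix.mul_apply, hE]
      rfl
    rw [h1]
    fin_cases j <;> fin_cases k
    · exact g00
    · exact g01
    · exact g02
    · exact g03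
    · exact g10
    · exact g11
    · exact g12
    · exact g13
    · exact g20
    · exact g21
    · exact g22
    · exact g23
    · exact g30
    · exact g31
    · exact g32
    · exact g33
  have hcol : ∀ (M : Matrix (Fin 4) (Fin 4) F) (i j : Fin 4),
      (M * E) i j = (M *ᵥ (![e, e2, f1, f2] j)) i := by
    intro M i j
    rw [Matrix.mul_apply, hE]
    rfl
  have hB1 : (B1 : Matrix (Fin 4) (Fin 4) F) * B1 = 1 := by
    ext i j
    fin_cases i <;> fin_cases j <;> simp [B1, Matrix.mul_apply, Fin.sum_univ_four]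
  refine ⟨E, ?_, ?_, hGram⟩
  · have h1 := congrArg Matrix.det hGram
    rw [Matrix.det_mul, Matrix.det_transpose] at h1
    have h2 := congrArg Matrix.det hB1
    rw [Matrix.det_mul, Matrix.det_one] at h2
    apply isUnit_iff_ne_zero.mpr
    intro h0
    rw [h0, zero_mul] at h1
    rw [← h1, zero_mul] at h2
    exact zero_ne_one h2
  · ext i j
    rw [hcol x i j, Matrix.mul_apply, Fin.sum_univ_four, hsp]
    fin_cases j
    · show (x *ᵥ e) i = _
      rw [← he2, hE]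
      simp [K5]
    · show (x *ᵥ e2) i = _
      rw [he, hE]
      simp [K5]
      ring
    · show (x *ᵥ f1) i = _
      rw [hxf1, hE]
      simp [K5]
      ring
    · show (x *ᵥ f2) i = _
      rw [hxf2, hE]
      simp [K5]

end Cfsg.Agent.H83.UP
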