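import Mathlib
import Cfsg.Agent.H83.UPDefs
import Cfsg.Agent.H83.UPFld
import Cfsg.Agent.H17.GUBlock
import Cfsg.Agent.H99.HermEigen
import Cfsg.Agent.H61.GU2Sylow

/-!
# S6001-UINVA (helper83)
-/

set_option autoImplicit false

namespace Cfsg.Agent.H83.UP

open Matrix

universe u

theorem uInvA : StUInvA.{u} := by
  intro F _ _ p y hp hF h2 hU hyy
  classical
  have hp0 : p ≠ 0 := hp.ne_zero
  set σ : F →+* F := Cfsg.Agent.H17.frobHom hF with hσ
  have hσa : ∀ a, σ a = a ^ p := fun a => rfl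
  have hmap : ∀ M : Matrix (Fin 4) (Fin 4) F, M.map (fun a => a ^ p) = M.map σ := fun M => rfl
  have hU' : yᵀ * y.map σ = 1 := hU
  have hX : ∀ u w : Fin 4 → F,
      Cfsg.Agent.H17.hermSesq hF 4 (Matrix.toLin' y u) (Matrix.toLin' y w) =
        Cfsg.Agent.H17.hermSesq hF 4 u w := by
    intro u w
    rw [Cfsg.Agent.H17.hermSesq_apply, Cfsg.Agent.H17.hermSesq_apply, Matrix.toLin'_apply,
      Matrix.toLin'_apply]
    exact Cfsg.Agent.H61.herm_preserves_of_gram σ hσa y hU' w u
  have hspan : Submodule.span F {w : Fin 4 → F | ∃ l : F, (l = 1 ∨ l = -1) ∧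
      Matrix.toLin' y w = l • w} = ⊤ := by
    rw [eq_top_iff]
    intro v _
    have h3 : v = (2 : F)⁻¹ • (v + y *ᵥ v) + (2 : F)⁻¹ • (v - y *ᵥ v) := by
      rw [← smul_add]
      have h4 : v + y *ᵥ v + (v - y *ᵥ v) = (2 : F) • v := by rw [two_smul]; abel
      rw [h4, smul_smul, inv_mul_cancel₀ h2, one_smul]
    rw [h3]
    apply Submodule.add_mem
    · apply Submodule.smul_mem
      apply Submodule.subset_span
      refine ⟨1, Or.inl rfl, ?_⟩
      rw [Matrix.toLin'_apply, Matrix.mulVec_add, Matrix.mulVec_mulVec, hyy, Matrix.one_mulVec,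
        one_smul, add_comm]
    · apply Submodule.smul_mem
      apply Submodule.subset_span
      refine ⟨-1, Or.inr rfl, ?_⟩
      rw [Matrix.toLin'_apply, Matrix.mulVec_sub, Matrix.mulVec_mulVec, hyy, Matrix.one_mulVec,
        neg_one_smul, neg_sub]
  obtain ⟨b, l, hb, hl⟩ := Cfsg.Agent.H99.herm_eigen_onb σ (Cfsg.Agent.H17.frobHom_ne_id hF)
    (Cfsg.Agent.H17.frobHom_invol hF) (fun l => l = 1 ∨ l = -1) (by
      intro l l' hl hl' hne
      rcases hl with rfl | rfl <;> rcases hl' with rfl | rfl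
      · exact absurd rfl hne
      · rw [map_one, one_mul]
        intro h
        apply h2
        linear_combination -h
      · rw [map_neg, map_one, mul_one]
        intro h
        apply h2
        linear_combination -h
      · exact absurd rfl hne)
    4 (Fin 4 → F) (Cfsg.Agent.H17.hermSesq hF 4) (Cfsg.Agent.H17.hermSesq_isSymm hF 4)
    (Cfsg.Agent.H17.hermSesq_nondegenerate hF 4) (Matrix.toLin' y) hX hspan (by simp)
  set E₀ : Matrix (Fin 4) (Fin 4) F := Matrix.of (fun i j => b j i) with hE₀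
  have hE₀U : E₀ᵀ * E₀.map σ = 1 := by
    ext j k
    have h := hb k j
    rw [Cfsg.Agent.H17.hermSesq_apply] at h
    unfold Cfsg.hermForm at h
    rw [Matrix.mul_apply, Matrix.one_apply]
    simp only [Matrix.transpose_apply, Matrix.map_apply, hE₀, Matrix.of_apply, hσa]
    rw [h]
    by_cases hjk : j = k
    · rw [if_pos hjk, if_pos hjk.symm]
    · rw [if_neg hjk, if_neg (fun h => hjk h.symm)]
  have hyE₀ : y * E₀ = E₀ * Matrix.diagonal l := by
    ext i j
    have h := congrFun (hl j).2 i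
    rw [Matrix.toLin'_apply] at h
    rw [Matrix.mul_diagonal, Matrix.mul_apply]
    simp only [hE₀, Matrix.of_apply]
    rw [mul_comm]
    exact h
  set δ : F := E₀.det with hδ
  have hδN : δ * σ δ = 1 := by
    have h := congrArg Matrix.det hE₀U
    rw [Matrix.det_mul, Matrix.det_transpose, Matrix.det_one] at h
    have h' : (E₀.map σ).det = σ δ := by
      rw [hδ, RingHom.map_det]
      rfl
    rw [h'] at h
    exact h
  have hδ0 : δ ≠ 0 := by
    intro h
    rw [h, zero_mul] at hδN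
    exact zero_ne_one hδN
  set D : Matrix (Fin 4) (Fin 4) F := Matrix.diagonal ![δ⁻¹, 1, 1, 1] with hD
  refine ⟨E₀ * D, l, ?_, ?_, fun i => (hl i).1, ?_⟩
  · rw [Matrix.det_mul, hD, Matrix.det_diagonal, Fin.prod_univ_four, ← hδ]
    simp [mul_inv_cancel₀ hδ0]
  · show (E₀ * D)ᵀ * (E₀ * D).map σ = 1
    rw [Matrix.transpose_mul, Matrix.map_mul, Matrix.mul_assoc, ← Matrix.mul_assoc E₀ᵀ, hE₀U,
      Matrix.one_mul, hD, Matrix.diagonal_transpose, Matrix.diagonal_map (map_zero σ),
      Matrix.diagonal_mul_diagonal, ← Matrix.diagonal_one]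
    congr 1
    funext i
    fin_cases i
    · show δ⁻¹ * σ δ⁻¹ = 1
      rw [map_inv₀, ← mul_inv, hδN, inv_one]
    · show (1 : F) * σ 1 = 1
      rw [map_one, mul_one]
    · show (1 : F) * σ 1 = 1
      rw [map_one, mul_one]
    · show (1 : F) * σ 1 = 1
      rw [map_one, mul_one]
  · rw [← Matrix.mul_assoc, hyE₀, Matrix.mul_assoc, Matrix.mul_assoc, hD,
      Matrix.diagonal_mul_diagonal, Matrix.diagonal_mul_diagonal]
    congr 2
    funext i
    exact mul_comm _ _

end Cfsg.Agent.H83.UP
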