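import Mathlib
import Cfsg.Agent.H83.UPDefs
import Cfsg.Agent.H83.UPInvol
import Cfsg.Agent.H83.UPFld

/-!
# S6001-UINVB (helper83)
-/

set_option autoImplicit false

namespace Cfsg.Agent.H83.UP

open Matrix

universe u

theorem uInvB : StUInvB.{u} := by
  intro F _ _ p x z hp hF hp4 hdet hU hxx
  classical
  have hcp := charP_of_card hp hF
  have hp3 : 3 ≤ p := by have := hp.two_le; omega
  have h2 : (2 : F) ≠ 0 := by
    have h := natCast_ne_zero_of_card hp hF 2 (fun h => by
      have := Nat.le_of_dvd (by norm_num) h; omega)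
    exact_mod_cast h
  obtain ⟨φ, hφ⟩ := Cfsg.Agent.H7.exists_frobQ hF
  have hz4 : z ^ 4 = 1 := by
    have h := congrArg Matrix.det hxx
    rw [Matrix.det_mul, hdet, Matrix.det_smul, Matrix.det_one, Fintype.card_fin] at h
    linear_combination -h
  have hz0 : z ≠ 0 := by
    rintro rfl
    norm_num at hz4
  have hchar : ringChar F ≠ 2 := by
    intro h
    have h' := ringChar.eq F p
    omega
  obtain ⟨k, hk⟩ : ∃ k, Fintype.card F / 2 = 4 * k := by
    rw [hF]
    have h8 : p ^ 2 % 8 = 1 := by
      rcases (by omega : p % 8 = 3 ∨ p % 8 = 7) with h | h <;> simp [pow_two, Nat.mul_mod, h]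
    exact ⟨p ^ 2 / 8, by omega⟩
  have hsq : IsSquare z := by
    rw [FiniteField.isSquare_iff hchar hz0, hk, pow_mul, hz4, one_pow]
  obtain ⟨c, hc⟩ := hsq
  have hc8 : c ^ 8 = 1 := by
    have h : c ^ 8 = (c * c) ^ 4 := by ring
    rw [h, ← hc, hz4]
  have hc0 : c ≠ 0 := by
    rintro rfl
    norm_num at hc8
  rcases (by omega : p % 8 = 7 ∨ p % 8 = 3) with h8 | h8
  · refine ⟨c, hc.symm, ?_⟩
    obtain ⟨j, hj⟩ : ∃ j, p + 1 = 8 * j := ⟨(p + 1) / 8, by omega⟩
    rw [hj, pow_mul, hc8, one_pow]
  · by_cases hz2 : z ^ 2 = 1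
    · refine ⟨c, hc.symm, ?_⟩
      obtain ⟨j, hj⟩ : ∃ j, p + 1 = 4 * j := ⟨(p + 1) / 4, by omega⟩
      have hc4 : c ^ 4 = 1 := by
        have h : c ^ 4 = (c * c) ^ 2 := by ring
        rw [h, ← hc, hz2]
      rw [hj, pow_mul, hc4, one_pow]
    · exfalso
      have hz2' : z ^ 2 = -1 := by
        have h : (z ^ 2 - 1) * (z ^ 2 + 1) = 0 := by linear_combination hz4
        rcases mul_eq_zero.mp h with h | h
        · exact absurd (sub_eq_zero.mp h) hz2
        · exact eq_neg_of_add_eq_zero_left h
      have hzinv : z⁻¹ = -z := by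
        apply inv_eq_of_mul_eq_one_right
        linear_combination -hz2'
      have hc4 : c ^ 4 = -1 := by
        have h : c ^ 4 = (c * c) ^ 2 := by ring
        rw [h, ← hc, hz2']
      have hcp' : c ^ p = z * c := by
        obtain ⟨j, hj⟩ : ∃ j, p = 8 * j + 3 := ⟨p / 8, by omega⟩
        rw [hj, pow_add, pow_mul, hc8, one_pow, one_mul, hc]
        ring
      set s : Matrix (Fin 4) (Fin 4) F := c⁻¹ • x with hs
      have hss : s * s = 1 := by
        rw [hs, Matrix.smul_mul, Matrix.mul_smul, smul_smul, hxx, smul_smul]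
        have h : c⁻¹ * c⁻¹ * z = 1 := by
          rw [hc]
          field_simp
        rw [h, one_smul]
      obtain ⟨m, hm4, hdetm, htr⟩ := invol_det_trace h2 s hss
      have hdets : s.det = -1 := by
        rw [hs, Matrix.det_smul, hdet, Fintype.card_fin, mul_one, inv_pow, hc4]
        norm_num
      have hxbar : x.map (fun a => a ^ p) = z⁻¹ • xᵀ := by
        have h1 : xᵀ * (z⁻¹ • xᵀ) = 1 := by
          rw [Matrix.mul_smul, ← Matrix.transpose_mul, hxx, Matrix.transpose_smul,
            Matrix.transpose_one, smul_smul, inv_mul_cancel₀ hz0, one_smul]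
        have h3 : x.map (fun a => a ^ p) * xᵀ = 1 := mul_eq_one_comm.mp hU
        calc x.map (fun a => a ^ p) = x.map (fun a => a ^ p) * (xᵀ * (z⁻¹ • xᵀ)) := by
              rw [h1, mul_one]
          _ = z⁻¹ • xᵀ := by rw [← mul_assoc, h3, one_mul]
      have htrx : (Matrix.trace x) ^ p = z⁻¹ * Matrix.trace x := by
        have h := congrArg Matrix.trace hxbar
        rw [Matrix.trace_smul, Matrix.trace_transpose, smul_eq_mul] at h
        rw [← h]
        simp only [Matrix.trace, Matrix.diag_apply, Matrix.map_apply]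
        rw [Cfsg.Agent.H7.sum_pow_q hF]
      have hxs : x = c • s := by
        rw [hs, smul_smul, mul_inv_cancel₀ hc0, one_smul]
      have hτ : Matrix.trace s = 4 - 2 * (m : F) := by linear_combination htr
      have hτp : (Matrix.trace s) ^ p = Matrix.trace s := by
        rw [hτ, ← hφ, map_sub, map_mul, map_ofNat, map_ofNat, map_natCast]
      have hτ0 : Matrix.trace s = 0 := by
        rw [hxs, Matrix.trace_smul, smul_eq_mul, mul_pow, hcp', hτp, hzinv] at htrx
        have h : (2 * z * c) * Matrix.trace s = 0 := by linear_combination htrx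
        rcases mul_eq_zero.mp h with h | h
        · exact absurd h (mul_ne_zero (mul_ne_zero h2 hz0) hc0)
        · exact h
      have hm2 : m = 2 := by
        rw [hτ0] at hτ
        have h4 : (4 : F) ≠ 0 := by
          have h : (4 : F) = 2 * 2 := by norm_num
          rw [h]
          exact mul_ne_zero h2 h2
        interval_cases m
        · exact absurd (by linear_combination -hτ) h4
        · exact absurd (by linear_combination -hτ) h2
        · rfl
        · exact absurd (by linear_combination hτ) h2
        · exact absurd (by linear_combination hτ) h4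
      rw [hm2, hdets] at hdetm
      apply h2
      linear_combination -hdetm

end Cfsg.Agent.H83.UP
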